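import Cfsg.Agent.H23.HHRed
set_option autoImplicit false
set_option linter.all false

/-!
# The Baer trick and Thompson's lemma for `P` normalizing `Q` (`p` odd)
-/

namespace Cfsg.Agent.H23

open Subgroup
open scoped Pointwise commutatorElement

section classtwo
variable {G : Type*} [Group G]

theorem commutator_mul_left_of_central (hc : ∀ x y z : G, Commute ⁅x, y⁆ z) (x y z : G) :
    ⁅x * y, z⁆ = ⁅x, z⁆ * ⁅y, z⁆ := by
  rw [commutatorElement_mul_left_eq_conj_mul, ← (hc y z x).eq, mul_inv_cancel_right,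
    (hc y z _).eq]

theorem commutator_mul_right_of_central (hc : ∀ x y z : G, Commute ⁅x, y⁆ z) (x y z : G) :
    ⁅x, y * z⁆ = ⁅x, y⁆ * ⁅x, z⁆ := by
  have h1 : ⁅x, y * z⁆ = ⁅x, y⁆ * (y * ⁅x, z⁆ * y⁻¹) := by
    simp only [commutatorElement_def]; group
  rw [h1, ← (hc x z y).eq, mul_inv_cancel_right]

theorem commutator_central_left (hc : ∀ x y z : G, Commute ⁅x, y⁆ z) (x y z : G) (k : ℕ) :
    ⁅⁅x, y⁆ ^ k, z⁆ = 1 := by
  rw [commutatorElement_eq_one_iff_commute]
  exact (hc x y z).pow_left k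

theorem commutator_central_right (hc : ∀ x y z : G, Commute ⁅x, y⁆ z) (x y z : G) (k : ℕ) :
    ⁅z, ⁅x, y⁆ ^ k⁆ = 1 := by
  rw [commutatorElement_eq_one_iff_commute]
  exact ((hc x y z).pow_left k).symm

/-- The Baer additive group on a group of class at most two and odd exponent `p`. The sum is
`x + y = x y [y,x]^h`, `h = (p+1)/2`. -/
@[reducible] def baerAddCommGroup (p : ℕ) (hp : Odd p) (hexp : ∀ x : G, x ^ p = 1)
    (hc : ∀ x y z : G, Commute ⁅x, y⁆ z) : AddCommGroup G where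
  add x y := x * y * ⁅y, x⁆ ^ ((p + 1) / 2)
  zero := (1 : G)
  neg x := x⁻¹
  nsmul n x := x ^ n
  zsmul n x := x ^ n
  add_assoc x y z := by
    show (x * y * ⁅y, x⁆ ^ ((p + 1) / 2)) * z * ⁅z, x * y * ⁅y, x⁆ ^ ((p + 1) / 2)⁆ ^ ((p + 1) / 2) =
      x * (y * z * ⁅z, y⁆ ^ ((p + 1) / 2)) * ⁅y * z * ⁅z, y⁆ ^ ((p + 1) / 2), x⁆ ^ ((p + 1) / 2)
    set k := (p + 1) / 2
    rw [commutator_mul_right_of_central hc z (x * y), commutator_central_right hc, mul_one,
      commutator_mul_right_of_central hc z x y, commutator_mul_left_of_central hc (y * z),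
      commutator_central_left hc, mul_one, commutator_mul_left_of_central hc y z x]
    rw [(hc z x _).mul_pow, (hc y x _).mul_pow]
    have e1 : ⁅y, x⁆ ^ k * z = z * ⁅y, x⁆ ^ k := ((hc y x z).pow_left k).eq
    have e2 : ⁅y, x⁆ ^ k * (⁅z, x⁆ ^ k * ⁅z, y⁆ ^ k) = ⁅z, y⁆ ^ k * (⁅y, x⁆ ^ k * ⁅z, x⁆ ^ k) := by
      have := ((hc z y (⁅y, x⁆ ^ k * ⁅z, x⁆ ^ k)).pow_left k).eq
      rw [this, mul_assoc]
    calc (x * y * ⁅y, x⁆ ^ k) * z * (⁅z, x⁆ ^ k * ⁅z, y⁆ ^ k)
        = x * y * (⁅y, x⁆ ^ k * z) * (⁅z, x⁆ ^ k * ⁅z, y⁆ ^ k) := by group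
      _ = x * y * z * (⁅y, x⁆ ^ k * (⁅z, x⁆ ^ k * ⁅z, y⁆ ^ k)) := by rw [e1]; group
      _ = x * (y * z * ⁅z, y⁆ ^ k) * (⁅y, x⁆ ^ k * ⁅z, x⁆ ^ k) := by rw [e2]; group
  zero_add x := by
    show 1 * x * ⁅x, 1⁆ ^ ((p + 1) / 2) = x
    rw [commutatorElement_one_right, one_pow, one_mul, mul_one]
  add_zero x := by
    show x * 1 * ⁅1, x⁆ ^ ((p + 1) / 2) = x
    rw [commutatorElement_one_left, one_pow, mul_one, mul_one]
  nsmul_zero x := pow_zero x
  nsmul_succ n x := by
    show x ^ (n + 1) = x ^ n * x * ⁅x, x ^ n⁆ ^ ((p + 1) / 2)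
    have : ⁅x, x ^ n⁆ = 1 := by
      rw [commutatorElement_eq_one_iff_commute]; exact (Commute.refl x).pow_right n
    rw [this, one_pow, mul_one, pow_succ]
  zsmul_zero' x := zpow_zero x
  zsmul_succ' n x := by
    show x ^ ((n.succ : ℕ) : ℤ) = x ^ ((n : ℕ) : ℤ) * x * ⁅x, x ^ ((n : ℕ) : ℤ)⁆ ^ ((p + 1) / 2)
    have : ⁅x, x ^ ((n : ℕ) : ℤ)⁆ = 1 := by
      rw [commutatorElement_eq_one_iff_commute]; exact (Commute.refl x).zpow_right _
    rw [this, one_pow, mul_one, zpow_natCast, zpow_natCast, ← pow_succ]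
  zsmul_neg' n x := by
    show x ^ (Int.negSucc n) = (x ^ ((n.succ : ℕ) : ℤ))⁻¹
    rw [zpow_negSucc, zpow_natCast]
  neg_add_cancel x := by
    show x⁻¹ * x * ⁅x, x⁻¹⁆ ^ ((p + 1) / 2) = 1
    have : ⁅x, x⁻¹⁆ = 1 := by
      rw [commutatorElement_eq_one_iff_commute]; exact (Commute.refl x).inv_right
    rw [this, one_pow, mul_one, inv_mul_cancel]
  add_comm x y := by
    show x * y * ⁅y, x⁆ ^ ((p + 1) / 2) = y * x * ⁅x, y⁆ ^ ((p + 1) / 2)
    have h1 : x * y = y * x * ⁅x, y⁆ := by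
      have h2 : y * x * ⁅x, y⁆ = ⁅x, y⁆ * (y * x) := ((hc x y (y * x)).eq).symm
      rw [h2, commutatorElement_def]; group
    have h3 : ⁅y, x⁆ = ⁅x, y⁆⁻¹ := (commutatorElement_inv x y).symm
    rw [h1, h3, mul_assoc]
    congr 1
    obtain ⟨m, hm⟩ := hp
    have h4 : (p + 1) / 2 = m + 1 := by rw [hm]; omega
    have h5 : ⁅x, y⁆ ^ p = 1 := hexp _
    rw [h4, inv_pow, mul_inv_eq_iff_eq_mul, ← pow_add, show m + 1 + (m + 1) = p + 1 by omega,
      pow_succ, h5, one_mul]

end classtwo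

/-- A group `B` acting on a finite abelian `p`-group `V`, with `Q` a `p'`-subgroup normalized by the
`p`-subgroup `P`: if `C_V(P) ≤ C_V(Q)` then `Q` acts trivially. -/
theorem act_trivial_of_fixed {B V : Type*} [Group B] [Finite B] [AddCommGroup V] [Finite V]
    {p : ℕ} [Fact p.Prime] {n : ℕ} (hV : Nat.card V = p ^ n) (φ : B →* AddMonoid.End V)
    (P Q : Subgroup B) (hP : IsPGroup p P) (hQ : (Nat.card Q).Coprime p)
    (hQn : ∀ a ∈ P, ∀ q ∈ Q, a * q * a⁻¹ ∈ Q)
    (h : ∀ v, (∀ a ∈ P, φ a v = v) → ∀ q ∈ Q, φ q v = v) : ∀ v, ∀ q ∈ Q, φ q v = v := by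
  classical
  haveI : Fintype Q := Fintype.ofFinite Q
  let π : V →+ V :=
    { toFun := fun v => ∑ q : Q, φ q v
      map_zero' := Finset.sum_eq_zero fun q _ => map_zero _
      map_add' := fun v w => by
        rw [← Finset.sum_add_distrib]
        exact Finset.sum_congr rfl fun q _ => map_add _ _ _ }
  have hπ : ∀ v, π v = ∑ q : Q, φ q v := fun v => rfl
  have hπQ : ∀ q ∈ Q, ∀ v, π (φ q v) = π v := by
    intro q hq v
    rw [hπ, hπ]
    refine Fintype.sum_equiv (Equiv.mulRight (⟨q, hq⟩ : Q)) _ _ fun a => ?_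
    show φ a (φ q v) = φ ((a * ⟨q, hq⟩ : Q) : B) v
    rw [Subgroup.coe_mul, map_mul]; rfl
  have hπP : ∀ a ∈ P, ∀ v, π (φ a v) = φ a (π v) := by
    intro a ha v
    rw [hπ, hπ, map_sum]
    have hinv : ∀ q ∈ Q, a⁻¹ * q * a ∈ Q := by
      intro q hq
      have := hQn a⁻¹ (inv_mem ha) q hq
      rwa [inv_inv] at this
    refine Fintype.sum_equiv (⟨fun q => ⟨a⁻¹ * q * a, hinv q q.2⟩, fun q => ⟨a * q * a⁻¹, hQn a ha q q.2⟩,
      fun q => Subtype.ext (by group), fun q => Subtype.ext (by group)⟩ : Q ≃ Q) _ _ fun q => ?_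
    show φ q (φ a v) = φ a (φ (a⁻¹ * q * a) v)
    have e1 : φ q (φ a v) = φ ((q : B) * a) v := by rw [map_mul]; rfl
    have e2 : φ a (φ (a⁻¹ * q * a) v) = φ (a * (a⁻¹ * q * a)) v := by rw [map_mul φ a]; rfl
    rw [e1, e2]
    congr 2
    group
  have hinv_act : ∀ (a : B) (v : V), φ a⁻¹ (φ a v) = v := by
    intro a v
    have : φ a⁻¹ (φ a v) = φ (a⁻¹ * a) v := by rw [map_mul]; rfl
    rw [this, inv_mul_cancel, map_one]; rfl
  -- the kernel
  let K : AddSubgroup V := π.ker
  letI act : MulAction P K :=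
    { smul := fun a v => ⟨φ a v, by
        show π (φ a v) = 0
        rw [hπP a a.2, show π v = 0 from v.2, map_zero]⟩
      one_smul := fun v => Subtype.ext (by
        show φ ((1 : P) : B) (v : V) = v
        rw [Subgroup.coe_one, map_one]; rfl)
      mul_smul := fun a b v => Subtype.ext (by
        show φ ((a * b : P) : B) (v : V) = φ a (φ b v)
        rw [Subgroup.coe_mul, map_mul]; rfl) }
  have hK : K = ⊥ := by
    by_contra hne
    have h1 : p ∣ Nat.card K := by
      obtain ⟨m, hm⟩ := (Nat.dvd_prime_pow Fact.out).mp (hV ▸ AddSubgroup.card_addSubgroup_dvd_card K)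
      rw [hm.2]
      refine dvd_pow_self p ?_
      rintro rfl
      rw [pow_zero] at hm
      exact hne (AddSubgroup.card_eq_one.mp hm.2)
    have h2 := hP.card_modEq_card_fixedPoints K
    have h3 : p ∣ Nat.card (MulAction.fixedPoints P K) :=
      (Nat.modEq_zero_iff_dvd).mp (h2.symm.trans ((Nat.modEq_zero_iff_dvd).mpr h1))
    have h0 : (0 : K) ∈ MulAction.fixedPoints P K := fun a => Subtype.ext (map_zero _)
    haveI : Nontrivial (MulAction.fixedPoints P K) := by
      haveI : Finite (MulAction.fixedPoints P K) := inferInstance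
      rw [← Finite.one_lt_card_iff_nontrivial]
      haveI : Nonempty (MulAction.fixedPoints P K) := ⟨⟨0, h0⟩⟩
      exact (Fact.out : p.Prime).one_lt.trans_le (Nat.le_of_dvd Nat.card_pos h3)
    obtain ⟨⟨v, hv⟩, hv0⟩ := exists_ne (⟨0, h0⟩ : MulAction.fixedPoints P K)
    have hvP : ∀ a ∈ P, φ a (v : V) = v := fun a ha => congrArg Subtype.val (hv ⟨a, ha⟩)
    have hvQ := h v hvP
    have h4 : Nat.card Q • (v : V) = 0 := by
      have h5 : π v = 0 := v.2
      rw [hπ, Finset.sum_congr rfl (fun (q : Q) _ => hvQ q q.2), Finset.sum_const, Finset.card_univ] at h5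
      rw [Nat.card_eq_fintype_card]; exact h5
    have h5 : (p ^ n) • (v : V) = 0 := by rw [← hV]; exact card_nsmul_eq_zero'
    have h6 : addOrderOf (v : V) ∣ 1 := by
      have h7 := Nat.dvd_gcd (addOrderOf_dvd_of_nsmul_eq_zero h4) (addOrderOf_dvd_of_nsmul_eq_zero h5)
      have h8 : (Nat.card Q).gcd (p ^ n) = 1 := Nat.Coprime.pow_right n hQ
      rwa [h8] at h7
    have h7 : (v : V) = 0 := AddMonoid.addOrderOf_eq_one_iff.mp (Nat.dvd_one.mp h6)
    exact hv0 (Subtype.ext (Subtype.ext h7))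
  intro v q hq
  have h1 : φ q v - v ∈ K := by
    show π (φ q v - v) = 0
    rw [map_sub, hπQ q hq, sub_self]
  rw [hK, AddSubgroup.mem_bot, sub_eq_zero] at h1
  exact h1

variable {X : Type*} [Group X]

/-- Thompson's lemma, `p` odd, `P` a `p`-group normalizing the `p'`-group `Q`, both acting on a
`p`-group `G` of class at most `2` and exponent `p`. -/
theorem thompson_pq_classtwo [Finite X] {p : ℕ} [Fact p.Prime] (hp : p ≠ 2) (P Q G : Subgroup X)
    (hP : IsPGroup p P) (hQ : (Nat.card Q).Coprime p) (hPQ : P ≤ normalizer (Q : Set X))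
    (hG : IsPGroup p G) (hPG : P ≤ normalizer (G : Set X)) (hQG : Q ≤ normalizer (G : Set X))
    (hexp : ∀ x : G, x ^ p = 1) (hc : ∀ x y z : G, Commute ⁅x, y⁆ z)
    (hC : G ⊓ centralizer (P : Set X) ≤ centralizer (Q : Set X)) :
    Q ≤ centralizer (G : Set X) := by
  have hodd : Odd p := (Fact.out : p.Prime).odd_of_ne_two hp
  letI := baerAddCommGroup (G := G) p hodd hexp hc
  obtain ⟨n, hn⟩ := IsPGroup.iff_card.mp hG
  have hadd : ∀ x y : G, x + y = x * y * ⁅y, x⁆ ^ ((p + 1) / 2) := fun x y => rfl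
  let cj : normalizer (G : Set X) → G →* G := fun b =>
    { toFun := fun g => ⟨(b : X) * g * (b : X)⁻¹, (mem_normalizer_iff.mp b.2 _).mp g.2⟩
      map_one' := by apply Subtype.ext; simp
      map_mul' := by intro g h; apply Subtype.ext; simp [mul_assoc] }
  let φ : normalizer (G : Set X) →* AddMonoid.End G :=
    { toFun := fun b =>
        { toFun := fun g => cj b g
          map_zero' := (cj b).map_one
          map_add' := by
            intro x y
            rw [hadd, hadd, map_mul, map_mul, map_pow, map_commutatorElement] }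
      map_one' := by
        apply AddMonoidHom.ext
        intro g
        apply Subtype.ext
        show (1 : X) * g * (1 : X)⁻¹ = g
        group
      map_mul' := by
        intro b c
        apply AddMonoidHom.ext
        intro g
        apply Subtype.ext
        show ((b : X) * c) * g * ((b : X) * c)⁻¹ = (b : X) * (c * g * (c : X)⁻¹) * (b : X)⁻¹
        group }
  have hφ : ∀ (b : normalizer (G : Set X)) (g : G), ((φ b g : G) : X) = (b : X) * g * (b : X)⁻¹ :=
    fun b g => rfl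
  have key := act_trivial_of_fixed (V := G) hn φ (P.subgroupOf (normalizer (G : Set X)))
    (Q.subgroupOf (normalizer (G : Set X)))
    (hP.of_equiv (subgroupOfEquivOfLe hPG).symm)
    (by rw [Nat.card_congr (subgroupOfEquivOfLe hQG).toEquiv]; exact hQ)
    (by
      intro a ha q hq
      exact mem_normalizer_conj hPQ ha hq)
    (by
      intro v hv q hq
      have h1 : (v : X) ∈ centralizer (Q : Set X) := by
        apply hC
        refine mem_inf.mpr ⟨v.2, ?_⟩
        rw [mem_centralizer_iff]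
        intro a ha
        have h2 : (a : X) * v * a⁻¹ = v := congrArg Subtype.val (hv ⟨a, hPG ha⟩ ha)
        rw [mul_inv_eq_iff_eq_mul] at h2
        exact h2
      apply Subtype.ext
      rw [hφ, mem_centralizer_iff.mp h1 q hq]
      group)
  intro q hq
  rw [mem_centralizer_iff]
  intro g hg
  have h1 : q * g * q⁻¹ = g := congrArg Subtype.val (key ⟨g, hg⟩ ⟨q, hQG hq⟩ hq)
  rw [mul_inv_eq_iff_eq_mul] at h1
  exact h1.symm

/-- Thompson's strengthening of the `P × Q` lemma for odd primes. -/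
theorem thompson_pq [Finite X] {p : ℕ} [Fact p.Prime] (hp : p ≠ 2) (P Q G : Subgroup X)
    (hP : IsPGroup p P) (hQ : (Nat.card Q).Coprime p) (hPQ : P ≤ normalizer (Q : Set X))
    (hG : IsPGroup p G) (hPG : P ≤ normalizer (G : Set X)) (hQG : Q ≤ normalizer (G : Set X))
    (hC : G ⊓ centralizer (P : Set X) ≤ centralizer (Q : Set X)) :
    Q ≤ centralizer (G : Set X) := by
  induction hn : Nat.card G using Nat.strong_induction_on generalizing G with
  | _ n ih =>
  by_contra hne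
  have hne' : ⁅G, Q⁆ ≠ ⊥ := by
    rw [Ne, commutator_eq_bot_iff_le_centralizer, ← Subgroup.le_centralizer_iff]
    exact hne
  have hBG : P ⊔ Q ≤ normalizer (G : Set X) := sup_le hPG hQG
  obtain ⟨-, hst, -, hexp⟩ := hall_higman_reduction (P ⊔ Q) Q G hG hBG le_sup_right
    (sup_le hPQ le_normalizer) hQ hne' (by
      intro U hU hBU
      rw [commutator_eq_bot_iff_le_centralizer, ← Subgroup.le_centralizer_iff]
      refine ih (Nat.card U) (by rw [← hn]; exact H1.card_lt_of_lt' hU) U (hG.to_le hU.le)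
        (le_sup_left.trans hBU) (le_sup_right.trans hBU)
        (le_trans (inf_le_inf_right _ hU.le) hC) rfl)
  have hc : ∀ x y z : G, Commute ⁅x, y⁆ z := by
    rcases hst with h | h
    · intro x y z
      have h1 : ⁅x, y⁆ = 1 := by
        rw [commutatorElement_eq_one_iff_mul_comm]
        exact h.1.is_comm.comm x y
      rw [h1]
      exact Commute.one_left z
    · intro x y z
      have h1 : ⁅x, y⁆ ∈ center G := h.2.2 ▸ commutator_mem_commutator (mem_top x) (mem_top y)
      exact (mem_center_iff.mp h1 z).symm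
  exact hne (thompson_pq_classtwo hp P Q G hP hQ hPQ hG hPG hQG
    (fun x => Subtype.ext (hexp hp x x.2)) hc hC)

end Cfsg.Agent.H23
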