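import Mathlib

set_option autoImplicit false
set_option linter.all false

/-!
The graded Lie ring of a strongly central series of a group.
-/

open scoped commutatorElement

namespace Cfsg.Agent.H23.GrLie

variable {G : Type*} [Group G]

/-- a strongly central series with first two terms the whole group -/
structure NS (G : Type*) [Group G] where
  S : ℕ → Subgroup G
  nor : ∀ i, (S i).Normal
  anti : ∀ i, S (i + 1) ≤ S i
  comm : ∀ i j, ⁅S i, S j⁆ ≤ S (i + j)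
  top0 : S 0 = ⊤
  top1 : S 1 = ⊤

namespace NS

variable (Γ : NS G)

instance (i : ℕ) : (Γ.S i).Normal := Γ.nor i

theorem anti' {i j : ℕ} (h : i ≤ j) : Γ.S j ≤ Γ.S i :=
  antitone_nat_of_succ_le Γ.anti h

theorem mem_comm {i j : ℕ} {g h : G} (hg : g ∈ Γ.S i) (hh : h ∈ Γ.S j) : ⁅g, h⁆ ∈ Γ.S (i + j) :=
  Γ.comm i j (Subgroup.commutator_mem_commutator hg hh)

theorem mem_comm' {i j m : ℕ} {g h : G} (hg : g ∈ Γ.S i) (hh : h ∈ Γ.S j) (hm : m ≤ i + j) :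
    ⁅g, h⁆ ∈ Γ.S m := Γ.anti' hm (Γ.mem_comm hg hh)

/-- central modulo the next term -/
theorem cen {m : ℕ} {x : G} (hx : x ∈ Γ.S m) (g : G) : ⁅x, g⁆ ∈ Γ.S (m + 1) := by
  have : g ∈ Γ.S 1 := by rw [Γ.top1]; trivial
  exact Γ.mem_comm hx this

theorem comm_mk {m : ℕ} {x : G} (hx : x ∈ Γ.S m) (g : G ⧸ Γ.S (m + 1)) :
    (x : G ⧸ Γ.S (m + 1)) * g = g * x := by
  induction g using QuotientGroup.induction_on with
  | H g =>
    rw [← QuotientGroup.mk_mul, ← QuotientGroup.mk_mul, eq_comm, QuotientGroup.eq]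
    have := Γ.cen ((Γ.S m).inv_mem hx) g⁻¹
    have e : (g * x)⁻¹ * (x * g) = ⁅x⁻¹, g⁻¹⁆ := by rw [commutatorElement_def]; group
    rw [e]; exact this

theorem mk_one {m : ℕ} {x : G} (hx : x ∈ Γ.S m) : (x : G ⧸ Γ.S m) = 1 :=
  (QuotientGroup.eq_one_iff x).2 hx

/-- graded components -/
def A (i : ℕ) : Type _ := Additive ↥((Γ.S i).map (QuotientGroup.mk' (Γ.S (i + 1))))

instance (i : ℕ) : CommGroup ↥((Γ.S i).map (QuotientGroup.mk' (Γ.S (i + 1)))) :=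
  { (inferInstance : Group ↥((Γ.S i).map (QuotientGroup.mk' (Γ.S (i + 1))))) with
    mul_comm := by
      rintro ⟨_, x, hx, rfl⟩ ⟨y, hy⟩
      exact Subtype.ext (Γ.comm_mk hx y) }

instance (i : ℕ) : AddCommGroup (Γ.A i) :=
  inferInstanceAs (AddCommGroup (Additive ↥((Γ.S i).map (QuotientGroup.mk' (Γ.S (i + 1))))))

/-- class of an element -/
def cls (i : ℕ) (g : G) (hg : g ∈ Γ.S i) : Γ.A i :=
  Additive.ofMul ⟨QuotientGroup.mk' (Γ.S (i + 1)) g, ⟨g, hg, rfl⟩⟩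

theorem cls_add {i : ℕ} {g h : G} (hg : g ∈ Γ.S i) (hh : h ∈ Γ.S i) :
    Γ.cls i (g * h) ((Γ.S i).mul_mem hg hh) = Γ.cls i g hg + Γ.cls i h hh := rfl

theorem cls_eq {i : ℕ} {g h : G} (hg : g ∈ Γ.S i) (hh : h ∈ Γ.S i) :
    Γ.cls i g hg = Γ.cls i h hh ↔ g⁻¹ * h ∈ Γ.S (i + 1) := by
  constructor
  · intro e
    have e' := congrArg (fun x => (Additive.toMul x).1) e
    exact QuotientGroup.eq.1 e'
  · intro e
    have : (⟨QuotientGroup.mk' (Γ.S (i + 1)) g, ⟨g, hg, rfl⟩⟩ :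
        ↥((Γ.S i).map (QuotientGroup.mk' (Γ.S (i + 1))))) = ⟨QuotientGroup.mk' (Γ.S (i + 1)) h, ⟨h, hh, rfl⟩⟩ :=
      Subtype.ext (QuotientGroup.eq.2 e)
    exact congrArg Additive.ofMul this

theorem exists_rep {i : ℕ} (x : Γ.A i) : ∃ (g : G) (hg : g ∈ Γ.S i), Γ.cls i g hg = x := by
  obtain ⟨_, g, hg, rfl⟩ := x
  exact ⟨g, hg, rfl⟩

/-- representative -/
noncomputable def rep {i : ℕ} (x : Γ.A i) : G := (Γ.exists_rep x).choose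
theorem rep_mem {i : ℕ} (x : Γ.A i) : Γ.rep x ∈ Γ.S i := (Γ.exists_rep x).choose_spec.choose
theorem cls_rep {i : ℕ} (x : Γ.A i) : Γ.cls i (Γ.rep x) (Γ.rep_mem x) = x :=
  (Γ.exists_rep x).choose_spec.choose_spec

theorem cls_zero {i : ℕ} {g : G} (hg : g ∈ Γ.S i) : Γ.cls i g hg = 0 ↔ g ∈ Γ.S (i + 1) := by
  have h0 : (0 : Γ.A i) = Γ.cls i 1 (Subgroup.one_mem _) := by
    have := Γ.cls_add (i := i) (Subgroup.one_mem _) (Subgroup.one_mem _)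
    simp only [mul_one] at this
    exact left_eq_add.1 this |>.symm
  rw [h0, eq_comm, Γ.cls_eq (Subgroup.one_mem _) hg, inv_one, one_mul]

theorem brk_left {i j : ℕ} {g g' h : G} (hg : g ∈ Γ.S i) (hg' : g' ∈ Γ.S i) (hh : h ∈ Γ.S j) :
    Γ.cls (i + j) ⁅g * g', h⁆ (Γ.mem_comm (Subgroup.mul_mem _ hg hg') hh) =
      Γ.cls (i + j) ⁅g, h⁆ (Γ.mem_comm hg hh) + Γ.cls (i + j) ⁅g', h⁆ (Γ.mem_comm hg' hh) := by
  rw [← Γ.cls_add, Γ.cls_eq]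
  have hc := Γ.mem_comm hg' hh
  have h1 := Γ.comm_mk hc (g : G ⧸ Γ.S (i + j + 1))
  have h2 := Γ.comm_mk hc ((⁅g, h⁆ : G) : G ⧸ Γ.S (i + j + 1))
  rw [← QuotientGroup.eq]
  have e : ⁅g * g', h⁆ = g * ⁅g', h⁆ * g⁻¹ * ⁅g, h⁆ := by
    simp only [commutatorElement_def]; group
  rw [e]
  simp only [QuotientGroup.mk_mul, QuotientGroup.mk_inv]
  rw [← h1, mul_assoc _ (g : G ⧸ Γ.S (i + j + 1)), mul_inv_cancel, mul_one, h2]

theorem brk_right {i j : ℕ} {g h h' : G} (hg : g ∈ Γ.S i) (hh : h ∈ Γ.S j) (hh' : h' ∈ Γ.S j) :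
    Γ.cls (i + j) ⁅g, h * h'⁆ (Γ.mem_comm hg (Subgroup.mul_mem _ hh hh')) =
      Γ.cls (i + j) ⁅g, h⁆ (Γ.mem_comm hg hh) + Γ.cls (i + j) ⁅g, h'⁆ (Γ.mem_comm hg hh') := by
  rw [← Γ.cls_add, Γ.cls_eq]
  have hc := Γ.mem_comm hg hh'
  have h1 := Γ.comm_mk hc (h : G ⧸ Γ.S (i + j + 1))
  rw [← QuotientGroup.eq]
  have e : ⁅g, h * h'⁆ = ⁅g, h⁆ * (h * ⁅g, h'⁆ * h⁻¹) := by
    simp only [commutatorElement_def]; group
  rw [e]
  simp only [QuotientGroup.mk_mul, QuotientGroup.mk_inv]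
  rw [← h1, mul_assoc _ (h : G ⧸ Γ.S (i + j + 1)), mul_inv_cancel, mul_one]

theorem brk_cong_left {i j : ℕ} {g g' h : G} (hg : g ∈ Γ.S i) (hg' : g' ∈ Γ.S i) (hh : h ∈ Γ.S j)
    (e : g⁻¹ * g' ∈ Γ.S (i + 1)) :
    Γ.cls (i + j) ⁅g, h⁆ (Γ.mem_comm hg hh) = Γ.cls (i + j) ⁅g', h⁆ (Γ.mem_comm hg' hh) := by
  have h1 := Γ.brk_left hg (Γ.anti i e) hh
  have h2 : Γ.cls (i + j) ⁅g⁻¹ * g', h⁆ (Γ.mem_comm (Γ.anti i e) hh) = 0 := by
    rw [Γ.cls_zero]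
    exact Γ.mem_comm' e hh (by omega)
  rw [h2, add_zero] at h1
  rw [← h1]
  congr 2
  group

theorem brk_cong_right {i j : ℕ} {g h h' : G} (hg : g ∈ Γ.S i) (hh : h ∈ Γ.S j) (hh' : h' ∈ Γ.S j)
    (e : h⁻¹ * h' ∈ Γ.S (j + 1)) :
    Γ.cls (i + j) ⁅g, h⁆ (Γ.mem_comm hg hh) = Γ.cls (i + j) ⁅g, h'⁆ (Γ.mem_comm hg hh') := by
  have h1 := Γ.brk_right hg hh (Γ.anti j e)
  have h2 : Γ.cls (i + j) ⁅g, h⁻¹ * h'⁆ (Γ.mem_comm hg (Γ.anti j e)) = 0 := by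
    rw [Γ.cls_zero]
    exact Γ.mem_comm' hg e (by omega)
  rw [h2, add_zero] at h1
  rw [← h1]
  congr 2
  group

/-- the bracket on components -/
noncomputable def br0 (i j : ℕ) (x : Γ.A i) (y : Γ.A j) : Γ.A (i + j) :=
  Γ.cls (i + j) ⁅Γ.rep x, Γ.rep y⁆ (Γ.mem_comm (Γ.rep_mem x) (Γ.rep_mem y))

theorem br0_cls {i j : ℕ} {g h : G} (hg : g ∈ Γ.S i) (hh : h ∈ Γ.S j) :
    Γ.br0 i j (Γ.cls i g hg) (Γ.cls j h hh) = Γ.cls (i + j) ⁅g, h⁆ (Γ.mem_comm hg hh) := by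
  rw [br0]
  have h1 := (Γ.cls_eq (Γ.rep_mem (Γ.cls i g hg)) hg).1 (Γ.cls_rep _)
  have h2 := (Γ.cls_eq (Γ.rep_mem (Γ.cls j h hh)) hh).1 (Γ.cls_rep _)
  exact (Γ.brk_cong_left (Γ.rep_mem _) hg (Γ.rep_mem _) h1).trans
    (Γ.brk_cong_right hg (Γ.rep_mem _) hh h2)

theorem br0_add_left {i j : ℕ} (x x' : Γ.A i) (y : Γ.A j) :
    Γ.br0 i j (x + x') y = Γ.br0 i j x y + Γ.br0 i j x' y := by
  obtain ⟨g, hg, rfl⟩ := Γ.exists_rep x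
  obtain ⟨g', hg', rfl⟩ := Γ.exists_rep x'
  obtain ⟨h, hh, rfl⟩ := Γ.exists_rep y
  rw [← Γ.cls_add, Γ.br0_cls, Γ.br0_cls, Γ.br0_cls, Γ.brk_left hg hg' hh]

theorem br0_add_right {i j : ℕ} (x : Γ.A i) (y y' : Γ.A j) :
    Γ.br0 i j x (y + y') = Γ.br0 i j x y + Γ.br0 i j x y' := by
  obtain ⟨g, hg, rfl⟩ := Γ.exists_rep x
  obtain ⟨h, hh, rfl⟩ := Γ.exists_rep y
  obtain ⟨h', hh', rfl⟩ := Γ.exists_rep y'
  rw [← Γ.cls_add, Γ.br0_cls, Γ.br0_cls, Γ.br0_cls, Γ.brk_right hg hh hh']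

/-- the bracket as a biadditive map -/
noncomputable def br (i j : ℕ) : Γ.A i →+ Γ.A j →+ Γ.A (i + j) :=
  AddMonoidHom.mk' (fun x => AddMonoidHom.mk' (fun y => Γ.br0 i j x y) (Γ.br0_add_right x))
    (fun x x' => by ext y; exact Γ.br0_add_left x x' y)

/-- the graded Lie ring -/
def LG : Type _ := DirectSum ℕ Γ.A

noncomputable instance : AddCommGroup Γ.LG := inferInstanceAs (AddCommGroup (DirectSum ℕ Γ.A))

/-- inclusion of a component -/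
noncomputable def of (i : ℕ) : Γ.A i →+ Γ.LG := DirectSum.of Γ.A i

/-- the bracket -/
noncomputable def brL : Γ.LG →+ Γ.LG →+ Γ.LG :=
  DirectSum.toAddMonoid (fun i => AddMonoidHom.flip (DirectSum.toAddMonoid (fun j =>
    AddMonoidHom.flip ((AddMonoidHom.compHom (Γ.of (i + j))).comp (Γ.br i j)))))

theorem brL_of (i j : ℕ) (x : Γ.A i) (y : Γ.A j) :
    Γ.brL (Γ.of i x) (Γ.of j y) = Γ.of (i + j) (Γ.br0 i j x y) := by
  unfold brL of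
  erw [DirectSum.toAddMonoid_of, AddMonoidHom.flip_apply, DirectSum.toAddMonoid_of, AddMonoidHom.flip_apply]

/-- homogeneous elements -/
noncomputable def E (i : ℕ) (g : G) : Γ.LG := by
  classical
  exact if hg : g ∈ Γ.S i then Γ.of i (Γ.cls i g hg) else 0

theorem E_of {i : ℕ} {g : G} (hg : g ∈ Γ.S i) : Γ.E i g = Γ.of i (Γ.cls i g hg) := by
  rw [E, dif_pos hg]

theorem E_add {i : ℕ} {g h : G} (hg : g ∈ Γ.S i) (hh : h ∈ Γ.S i) : Γ.E i (g * h) = Γ.E i g + Γ.E i h := by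
  rw [Γ.E_of hg, Γ.E_of hh, Γ.E_of (Subgroup.mul_mem _ hg hh), Γ.cls_add, map_add]

theorem E_one (i : ℕ) : Γ.E i 1 = 0 := by
  have := Γ.E_add (i := i) (Subgroup.one_mem _) (Subgroup.one_mem _)
  rw [mul_one] at this
  exact left_eq_add.1 this

theorem E_inv {i : ℕ} {g : G} (hg : g ∈ Γ.S i) : Γ.E i g⁻¹ = -Γ.E i g := by
  have := Γ.E_add hg (Subgroup.inv_mem _ hg)
  rw [mul_inv_cancel, E_one] at this
  exact (neg_eq_of_add_eq_zero_right this.symm).symm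

theorem E_brk {i j : ℕ} {g h : G} (hg : g ∈ Γ.S i) (hh : h ∈ Γ.S j) :
    Γ.brL (Γ.E i g) (Γ.E j h) = Γ.E (i + j) ⁅g, h⁆ := by
  rw [Γ.E_of hg, Γ.E_of hh, Γ.brL_of, Γ.br0_cls, ← Γ.E_of]

theorem E_eq_zero {i : ℕ} {g : G} (hg : g ∈ Γ.S i) : Γ.E i g = 0 ↔ g ∈ Γ.S (i + 1) := by
  rw [Γ.E_of hg, ← Γ.cls_zero hg]
  constructor
  · intro h
    exact DirectSum.of_injective (β := Γ.A) i (h.trans (map_zero (Γ.of i)).symm)
  · intro h; rw [h, map_zero]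

theorem E_congr {i : ℕ} {g h : G} (hg : g ∈ Γ.S i) (hh : h ∈ Γ.S i) (e : g⁻¹ * h ∈ Γ.S (i + 1)) :
    Γ.E i g = Γ.E i h := by
  rw [Γ.E_of hg, Γ.E_of hh, (Γ.cls_eq hg hh).2 e]

theorem E_zero (g : G) : Γ.E 0 g = 0 := by
  have h0 : g ∈ Γ.S 0 := by rw [Γ.top0]; trivial
  rw [Γ.E_eq_zero h0, zero_add, Γ.top1]; trivial

theorem ind {P : Γ.LG → Prop} (h0 : P 0) (hadd : ∀ x y, P x → P y → P (x + y))
    (hE : ∀ i g, 1 ≤ i → g ∈ Γ.S i → P (Γ.E i g)) (x : Γ.LG) : P x := by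
  refine DirectSum.induction_on (β := Γ.A) (motive := P) x h0 ?_ hadd
  intro i x
  obtain ⟨g, hg, rfl⟩ := Γ.exists_rep x
  change P (Γ.of i (Γ.cls i g hg))
  rw [← Γ.E_of hg]
  rcases Nat.eq_zero_or_pos i with rfl | hi
  · rw [E_zero]; exact h0
  · exact hE i g hi hg

theorem skew (x y : Γ.LG) : Γ.brL x y = - Γ.brL y x := by
  induction x using Γ.ind with
  | h0 => simp
  | hadd x x' h1 h2 => rw [map_add, AddMonoidHom.add_apply, h1, h2, map_add]; abel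
  | hE i g hi hg =>
    induction y using Γ.ind with
    | h0 => simp
    | hadd y y' h1 h2 => rw [map_add, h1, h2, map_add, AddMonoidHom.add_apply]; abel
    | hE j h hj hh =>
      rw [Γ.E_brk hg hh, Γ.E_brk hh hg, Nat.add_comm j i, ← Γ.E_inv]
      · rw [commutatorElement_inv]
      · exact Nat.add_comm j i ▸ Γ.mem_comm hh hg

theorem self (x : Γ.LG) : Γ.brL x x = 0 := by
  induction x using Γ.ind with
  | h0 => simp
  | hadd x y h1 h2 =>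
      simp only [map_add, AddMonoidHom.add_apply]
      rw [h1, h2, Γ.skew y x]; abel
  | hE i g hi hg => rw [Γ.E_brk hg hg, commutatorElement_self, E_one]

/-- the group identity behind the Jacobi identity -/
theorem jac_group {H : Type*} [Group H] (g h k : H)
    (F1 : Commute ⁅g, h⁆ ⁅g, k⁆) (F2 : Commute ⁅g, h⁆ ⁅h, ⁅g, k⁆ * k⁆) (F3 : Commute ⁅g, k⁆ ⁅h, k⁆)
    (F4 : ∀ x : H, Commute ⁅⁅g, h⁆, k⁆ x) (F5 : ∀ x : H, Commute ⁅h, ⁅g, k⁆⁆ x) :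
    ⁅g, ⁅h, k⁆⁆ = ⁅⁅g, h⁆, k⁆ * ⁅h, ⁅g, k⁆⁆ := by
  have e1 : g * ⁅h, k⁆ * g⁻¹ = ⁅⁅g, h⁆ * h, ⁅g, k⁆ * k⁆ := by
    simp only [commutatorElement_def]; group
  have e2 : ⁅⁅g, h⁆ * h, ⁅g, k⁆ * k⁆ =
      ⁅g, h⁆ * ⁅h, ⁅g, k⁆ * k⁆ * ⁅g, h⁆⁻¹ * ⁅⁅g, h⁆, ⁅g, k⁆ * k⁆ := by
    generalize ⁅g, h⁆ = a
    generalize ⁅g, k⁆ = c
    simp only [commutatorElement_def]; group
  have e3 : ⁅g, h⁆ * ⁅h, ⁅g, k⁆ * k⁆ * ⁅g, h⁆⁻¹ = ⁅h, ⁅g, k⁆ * k⁆ := by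
    rw [F2.eq, mul_inv_cancel_right]
  have e4 : ⁅⁅g, h⁆, ⁅g, k⁆ * k⁆ = ⁅⁅g, h⁆, k⁆ := by
    have : ⁅⁅g, h⁆, ⁅g, k⁆ * k⁆ = ⁅⁅g, h⁆, ⁅g, k⁆⁆ * (⁅g, k⁆ * ⁅⁅g, h⁆, k⁆ * ⁅g, k⁆⁻¹) := by
      generalize ⁅g, h⁆ = a
      generalize ⁅g, k⁆ = c
      simp only [commutatorElement_def]; group
    rw [this, commutatorElement_eq_one_iff_commute.2 F1, one_mul, ← (F4 ⁅g, k⁆).eq, mul_inv_cancel_right]
  have e5 : ⁅h, ⁅g, k⁆ * k⁆ = ⁅h, ⁅g, k⁆⁆ * ⁅h, k⁆ := by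
    have : ⁅h, ⁅g, k⁆ * k⁆ = ⁅h, ⁅g, k⁆⁆ * (⁅g, k⁆ * ⁅h, k⁆ * ⁅g, k⁆⁻¹) := by
      generalize ⁅g, k⁆ = c
      simp only [commutatorElement_def]; group
    rw [this, F3.eq, mul_inv_cancel_right]
  rw [e2, e3, e4, e5] at e1
  have e6 : ⁅g, ⁅h, k⁆⁆ = g * ⁅h, k⁆ * g⁻¹ * ⁅h, k⁆⁻¹ := by rw [commutatorElement_def]
  rw [e6, e1, mul_assoc _ _ (⁅h, k⁆)⁻¹, (F4 (⁅h, k⁆)⁻¹).eq, mul_assoc, ← mul_assoc ⁅h, k⁆,
    mul_inv_cancel, one_mul, ((F4 _).eq)]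

theorem jac_cls {i j k : ℕ} (hi : 1 ≤ i) (hj : 1 ≤ j) (hk : 1 ≤ k) {a b c : G}
    (ha : a ∈ Γ.S i) (hb : b ∈ Γ.S j) (hc : c ∈ Γ.S k) :
    Γ.E (i + j + k) ⁅a, ⁅b, c⁆⁆ = Γ.E (i + j + k) (⁅⁅a, b⁆, c⁆ * ⁅b, ⁅a, c⁆⁆) := by
  have mab := Γ.mem_comm ha hb
  have mac := Γ.mem_comm ha hc
  have mbc := Γ.mem_comm hb hc
  have m1 : ⁅a, ⁅b, c⁆⁆ ∈ Γ.S (i + j + k) := Γ.mem_comm' ha mbc (by omega)
  have m2 : ⁅⁅a, b⁆, c⁆ ∈ Γ.S (i + j + k) := Γ.mem_comm' mab hc (by omega)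
  have m3 : ⁅b, ⁅a, c⁆⁆ ∈ Γ.S (i + j + k) := Γ.mem_comm' hb mac (by omega)
  refine Γ.E_congr m1 (Subgroup.mul_mem _ m2 m3) ?_
  rw [← QuotientGroup.eq]
  let π := QuotientGroup.mk' (Γ.S (i + j + k + 1))
  have hπ : ∀ x y : G, π ⁅x, y⁆ = ⁅π x, π y⁆ := fun x y => map_commutatorElement π x y
  have mb' : ⁅b, ⁅a, c⁆ * c⁆ ∈ Γ.S (j + k) :=
    Γ.mem_comm hb (Subgroup.mul_mem _ (Γ.anti' (by omega) mac) hc)
  have com : ∀ {x y : G} {r s : ℕ}, x ∈ Γ.S r → y ∈ Γ.S s → i + j + k + 1 ≤ r + s → Commute (π x) (π y) := by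
    intro x y r s hx hy hrs
    rw [← commutatorElement_eq_one_iff_commute, ← hπ]
    exact Γ.mk_one (Γ.mem_comm' hx hy hrs)
  show π ⁅a, ⁅b, c⁆⁆ = π (⁅⁅a, b⁆, c⁆ * ⁅b, ⁅a, c⁆⁆)
  rw [map_mul]
  simp only [hπ]
  apply jac_group
  · rw [← hπ, ← hπ]; exact com mab mac (by omega)
  · rw [← hπ, ← hπ, ← map_mul, ← hπ]; exact com mab mb' (by omega)
  · rw [← hπ, ← hπ]; exact com mac mbc (by omega)
  · intro x
    rw [← hπ, ← hπ]; exact Γ.comm_mk m2 x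
  · intro x
    rw [← hπ, ← hπ]; exact Γ.comm_mk m3 x

theorem jac (x y z : Γ.LG) :
    Γ.brL x (Γ.brL y z) = Γ.brL (Γ.brL x y) z + Γ.brL y (Γ.brL x z) := by
  induction x using Γ.ind with
  | h0 => simp
  | hadd x x' h1 h2 => simp only [map_add, AddMonoidHom.add_apply, h1, h2]; abel
  | hE i a hi ha =>
    induction y using Γ.ind with
    | h0 => simp
    | hadd x x' h1 h2 => simp only [map_add, AddMonoidHom.add_apply, h1, h2]; abel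
    | hE j b hj hb =>
      induction z using Γ.ind with
      | h0 => simp
      | hadd x x' h1 h2 => simp only [map_add, AddMonoidHom.add_apply, h1, h2]; abel
      | hE k c hk hc =>
        have mab := Γ.mem_comm ha hb
        have mac := Γ.mem_comm ha hc
        have mbc := Γ.mem_comm hb hc
        rw [Γ.E_brk hb hc, Γ.E_brk ha mbc, Γ.E_brk ha hb, Γ.E_brk mab hc, Γ.E_brk ha hc, Γ.E_brk hb mac,
          show i + (j + k) = i + j + k by omega, show j + (i + k) = i + j + k by omega,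
          ← Γ.E_add (Γ.mem_comm mab hc) (Γ.mem_comm' hb mac (by omega))]
        exact Γ.jac_cls hi hj hk ha hb hc

noncomputable instance : LieRing Γ.LG where
  bracket x y := Γ.brL x y
  add_lie x y z := by show Γ.brL (x + y) z = _; rw [map_add]; rfl
  lie_add x y z := by show Γ.brL x (y + z) = _; rw [map_add]
  lie_self x := Γ.self x
  leibniz_lie x y z := Γ.jac x y z

theorem lie_def (x y : Γ.LG) : ⁅x, y⁆ = Γ.brL x y := rfl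

theorem E_lie {i j : ℕ} {g h : G} (hg : g ∈ Γ.S i) (hh : h ∈ Γ.S j) :
    ⁅Γ.E i g, Γ.E j h⁆ = Γ.E (i + j) ⁅g, h⁆ := Γ.E_brk hg hh

/-! ### automorphisms -/

section aut

variable (α : G →* G) (hα : ∀ i, ∀ g ∈ Γ.S i, α g ∈ Γ.S i)

/-- induced map on a component -/
noncomputable def au (hα : ∀ i, ∀ g ∈ Γ.S i, α g ∈ Γ.S i) (i : ℕ) : Γ.A i →+ Γ.A i :=
  AddMonoidHom.mk' (fun x => Γ.cls i (α (Γ.rep x)) (hα i _ (Γ.rep_mem x))) (by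
    intro x y
    have h1 : (Γ.rep (x + y))⁻¹ * (Γ.rep x * Γ.rep y) ∈ Γ.S (i + 1) := by
      rw [← Γ.cls_eq (Γ.rep_mem _) (Subgroup.mul_mem _ (Γ.rep_mem _) (Γ.rep_mem _)), Γ.cls_rep,
        Γ.cls_add (Γ.rep_mem _) (Γ.rep_mem _), Γ.cls_rep, Γ.cls_rep]
    have h2 := hα _ _ h1
    rw [← Γ.cls_add (hα i _ (Γ.rep_mem x)) (hα i _ (Γ.rep_mem y)), Γ.cls_eq, ← map_mul, ← map_inv, ← map_mul]
    exact h2)

theorem au_cls {i : ℕ} {g : G} (hg : g ∈ Γ.S i) : Γ.au α hα i (Γ.cls i g hg) = Γ.cls i (α g) (hα i g hg) := by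
  show Γ.cls i (α (Γ.rep (Γ.cls i g hg))) (hα i _ (Γ.rep_mem _)) = _
  rw [Γ.cls_eq, ← map_inv, ← map_mul]
  apply hα
  rw [← Γ.cls_eq (Γ.rep_mem _) hg, Γ.cls_rep]

/-- induced map on the Lie ring -/
noncomputable def aL (hα : ∀ i, ∀ g ∈ Γ.S i, α g ∈ Γ.S i) : Γ.LG →+ Γ.LG :=
  DirectSum.map (fun i => Γ.au α hα i)

theorem aL_E {i : ℕ} {g : G} (hg : g ∈ Γ.S i) : Γ.aL α hα (Γ.E i g) = Γ.E i (α g) := by
  rw [Γ.E_of hg, Γ.E_of (hα i g hg)]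
  show DirectSum.map (fun i => Γ.au α hα i) (DirectSum.of Γ.A i (Γ.cls i g hg)) = _
  rw [DirectSum.map_of, Γ.au_cls α hα hg]
  rfl

theorem aL_lie (x y : Γ.LG) : Γ.aL α hα ⁅x, y⁆ = ⁅Γ.aL α hα x, Γ.aL α hα y⁆ := by
  induction x using Γ.ind with
  | h0 => simp
  | hadd x x' h1 h2 => rw [add_lie, map_add, h1, h2, map_add, add_lie]
  | hE i g hi hg =>
    induction y using Γ.ind with
    | h0 => simp
    | hadd x x' h1 h2 => rw [lie_add, map_add, h1, h2, map_add, lie_add]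
    | hE j h hj hh =>
      rw [Γ.E_lie hg hh, Γ.aL_E α hα (Γ.mem_comm hg hh), Γ.aL_E α hα hg, Γ.aL_E α hα hh,
        Γ.E_lie (hα i g hg) (hα j h hh), map_commutatorElement]

theorem aL_iter {p : ℕ} (hp : ∀ g, α^[p] g = g) (x : Γ.LG) : (Γ.aL α hα)^[p] x = x := by
  have hadd : ∀ (m : ℕ) (x y : Γ.LG), (Γ.aL α hα)^[m] (x + y) = (Γ.aL α hα)^[m] x + (Γ.aL α hα)^[m] y := by
    intro m
    induction m with
    | zero => intro x y; rfl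
    | succ m ih =>
        intro x y
        rw [Function.iterate_succ_apply', ih, map_add, ← Function.iterate_succ_apply' (f := Γ.aL α hα),
          ← Function.iterate_succ_apply' (f := Γ.aL α hα)]
  have hz : ∀ (m : ℕ), (Γ.aL α hα)^[m] 0 = 0 := by
    intro m
    induction m with
    | zero => rfl
    | succ m ih => rw [Function.iterate_succ_apply', ih, map_zero]
  have hE : ∀ (m i : ℕ) (g : G), g ∈ Γ.S i → α^[m] g ∈ Γ.S i ∧ (Γ.aL α hα)^[m] (Γ.E i g) = Γ.E i (α^[m] g) := by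
    intro m i g hg
    induction m with
    | zero => exact ⟨hg, rfl⟩
    | succ m ih =>
        refine ⟨?_, ?_⟩
        · rw [Function.iterate_succ_apply']; exact hα i _ ih.1
        · rw [Function.iterate_succ_apply', ih.2, Γ.aL_E α hα ih.1, Function.iterate_succ_apply' (f := α)]
  induction x using Γ.ind with
  | h0 => exact hz p
  | hadd x x' h1 h2 => rw [hadd, h1, h2]
  | hE i g hi hg => rw [(hE p i g hg).2, hp]

theorem aL_fix (hf : ∀ i g, g ∈ Γ.S i → g⁻¹ * α g ∈ Γ.S (i + 1) → g ∈ Γ.S (i + 1)) (x : Γ.LG)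
    (hx : Γ.aL α hα x = x) : x = 0 := by
  change (x : DirectSum ℕ Γ.A) = 0
  apply DFinsupp.ext
  intro i
  change DirectSum ℕ Γ.A at x
  have h1 : (DirectSum.map (fun i => Γ.au α hα i) x : DirectSum ℕ Γ.A) i = (x : DirectSum ℕ Γ.A) i := by
    exact congrArg (fun z : DirectSum ℕ Γ.A => z i) hx
  rw [DirectSum.map_apply] at h1
  obtain ⟨g, hg, hgx⟩ := Γ.exists_rep ((x : DirectSum ℕ Γ.A) i)
  rw [← hgx, Γ.au_cls α hα hg, eq_comm, Γ.cls_eq] at h1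
  have h2 := hf i g hg h1
  exact hgx.symm.trans ((Γ.cls_zero hg).2 h2)

end aut

end NS

end Cfsg.Agent.H23.GrLie
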