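import Cfsg.Agent.H23.Kreknin

set_option autoImplicit false
set_option linter.all false

open scoped TensorProduct

namespace Cfsg.Agent.H23.Kreknin

/-- the coefficient ring -/
abbrev Cy (p : ℕ) : Type := AdjoinRoot (Polynomial.cyclotomic p ℤ)

/-- the root of unity -/
noncomputable def om (p : ℕ) : Cy p := AdjoinRoot.root (Polynomial.cyclotomic p ℤ)

section

variable (p : ℕ) [Fact p.Prime]

theorem om_sum : ∑ i ∈ Finset.range p, om p ^ i = 0 := by
  have h := AdjoinRoot.eval₂_root (Polynomial.cyclotomic p ℤ)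
  have h2 : Polynomial.eval₂ (AdjoinRoot.of (Polynomial.cyclotomic p ℤ)) (om p)
      (∑ i ∈ Finset.range p, (Polynomial.X : Polynomial ℤ) ^ i) = 0 := by
    rw [← Polynomial.cyclotomic_prime]; exact h
  rw [Polynomial.eval₂_finset_sum] at h2
  simpa [Polynomial.eval₂_pow, Polynomial.eval₂_X] using h2

theorem om_pow : om p ^ p = 1 := by
  have h := mul_geom_sum (om p) p
  rw [om_sum, mul_zero] at h
  exact (sub_eq_zero.1 h.symm)

instance cy_free : Module.Free ℤ (Cy p) :=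
  Module.Free.of_basis (AdjoinRoot.powerBasis' (Polynomial.cyclotomic.monic p ℤ)).basis

instance cy_nontrivial : Nontrivial (Cy p) := by
  apply AdjoinRoot.nontrivial
  rw [Polynomial.degree_cyclotomic]
  have := Nat.totient_pos.2 (Fact.out : p.Prime).pos
  exact_mod_cast this.ne'

theorem om_val (a b : ZMod p) : om p ^ (a + b).val = om p ^ a.val * om p ^ b.val := by
  rw [← pow_add, ZMod.val_add, ← Nat.div_add_mod (a.val + b.val) p, pow_add, pow_mul, om_pow, one_pow,
    one_mul, Nat.add_mod_mod, Nat.mul_add_mod_self_left]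

theorem om_sum' : ∑ k : ZMod p, om p ^ k.val = 0 := by
  rw [← om_sum p]
  obtain ⟨m, rfl⟩ : ∃ m, p = m + 1 := ⟨p - 1, by have := (Fact.out : p.Prime).pos; omega⟩
  exact Fin.sum_univ_eq_sum_range (fun i => om (m + 1) ^ i) (m + 1)

end

section main

variable {L : Type*} [LieRing L] (p : ℕ) [Fact p.Prime]

theorem inj_one_tmul (x : L) (h : (1 : Cy p) ⊗ₜ[ℤ] x = 0) : x = 0 := by
  have := Module.FaithfullyFlat.tensorProduct_mk_injective (A := ℤ) (B := Cy p) L
  apply this
  simpa using h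

variable (σ : L →+ L)

/-- extension of scalars of the automorphism -/
noncomputable def ext : (Cy p) ⊗[ℤ] L →ₗ[Cy p] (Cy p) ⊗[ℤ] L :=
  LinearMap.baseChange (Cy p) σ.toIntLinearMap

theorem ext_tmul (a : Cy p) (x : L) : ext p σ (a ⊗ₜ x) = a ⊗ₜ σ x := rfl

/-- the bracket -/
def B {L : Type*} [LieRing L] (x y : L) : L := ⁅x, y⁆

theorem B_add {L : Type*} [LieRing L] (x y z : L) : B x (y + z) = B x y + B x z := lie_add x y z
theorem add_B {L : Type*} [LieRing L] (x y z : L) : B (x + y) z = B x z + B y z := add_lie x y z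
theorem B_zero {L : Type*} [LieRing L] (x : L) : B x 0 = 0 := lie_zero x
theorem zero_B {L : Type*} [LieRing L] (x : L) : B 0 x = 0 := zero_lie x
theorem smul_B (x y : (Cy p) ⊗[ℤ] L) (a : Cy p) : B (a • x) y = a • B x y := smul_lie a x y
theorem B_smul (x y : (Cy p) ⊗[ℤ] L) (a : Cy p) : B x (a • y) = a • B x y := lie_smul a x y

theorem ext_lie (hσ : ∀ x y, σ ⁅x, y⁆ = ⁅σ x, σ y⁆) (x y : (Cy p) ⊗[ℤ] L) :
    ext p σ (B x y) = B (ext p σ x) (ext p σ y) := by
  induction x using TensorProduct.induction_on with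
  | zero => rw [zero_B, map_zero, zero_B]
  | add x1 x2 h1 h2 => rw [add_B, map_add, h1, h2, map_add, add_B]
  | tmul a x =>
      induction y using TensorProduct.induction_on with
      | zero => rw [B_zero, map_zero, B_zero]
      | add y1 y2 h1 h2 => rw [B_add, map_add, h1, h2, map_add, B_add]
      | tmul b y =>
          rw [ext_tmul, ext_tmul]
          have e1 : B (a ⊗ₜ[ℤ] x) (b ⊗ₜ[ℤ] y) = (a * b) ⊗ₜ[ℤ] ⁅x, y⁆ := rfl
          have e2 : B (a ⊗ₜ[ℤ] σ x) (b ⊗ₜ[ℤ] σ y) = (a * b) ⊗ₜ[ℤ] ⁅σ x, σ y⁆ := rfl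
          rw [e1, e2, ext_tmul, hσ]

theorem ext_inj (hσ : ∀ x, σ x = x → x = 0) (x : (Cy p) ⊗[ℤ] L) (h : ext p σ x = x) : x = 0 := by
  have h1 : Function.Injective (σ.toIntLinearMap - LinearMap.id : L →ₗ[ℤ] L) := by
    rw [← LinearMap.ker_eq_bot, LinearMap.ker_eq_bot']
    intro x hx
    exact hσ x (sub_eq_zero.1 hx)
  have h2 := Module.Flat.lTensor_preserves_injective_linearMap (M := Cy p) _ h1
  apply h2
  rw [map_zero, LinearMap.lTensor_sub, LinearMap.sub_apply, LinearMap.lTensor_id, sub_eq_zero]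
  exact h

theorem ext_iterate (hσ : ∀ x, σ^[p] x = x) (x : (Cy p) ⊗[ℤ] L) : (ext p σ)^[p] x = x := by
  have key : ∀ (m : ℕ) (a : Cy p) (x : L), (ext p σ)^[m] (a ⊗ₜ[ℤ] x) = a ⊗ₜ (σ^[m] x) := by
    intro m
    induction m with
    | zero => intro a x; rfl
    | succ m ih =>
        intro a x
        rw [Function.iterate_succ_apply', ih, ext_tmul, ← Function.iterate_succ_apply' (f := σ)]
  have hadd : ∀ (m : ℕ) (x y : (Cy p) ⊗[ℤ] L), (ext p σ)^[m] (x + y) = (ext p σ)^[m] x + (ext p σ)^[m] y := by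
    intro m
    induction m with
    | zero => intro x y; rfl
    | succ m ih =>
        intro x y
        rw [Function.iterate_succ_apply', ih, map_add, ← Function.iterate_succ_apply' (f := ext p σ),
          ← Function.iterate_succ_apply' (f := ext p σ)]
  have hzero : ∀ (m : ℕ), (ext p σ)^[m] 0 = 0 := by
    intro m
    induction m with
    | zero => rfl
    | succ m ih => rw [Function.iterate_succ_apply', ih, map_zero]
  induction x using TensorProduct.induction_on with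
  | zero => exact hzero p
  | add x y h1 h2 => rw [hadd, h1, h2]
  | tmul a x => rw [key, hσ]

theorem div_p (hp : ∀ x : L, ∃ y : L, x = (p : ℕ) • y) (x : (Cy p) ⊗[ℤ] L) : ∃ y, x = (p : ℕ) • y := by
  induction x using TensorProduct.induction_on with
  | zero => exact ⟨0, by rw [smul_zero]⟩
  | add x y h1 h2 =>
      obtain ⟨a, ha⟩ := h1
      obtain ⟨b, hb⟩ := h2
      exact ⟨a + b, by rw [smul_add, ← ha, ← hb]⟩
  | tmul a x =>
      obtain ⟨y, hy⟩ := hp x
      exact ⟨a ⊗ₜ y, by rw [hy, TensorProduct.tmul_smul]⟩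

/-- eigenspaces -/
noncomputable def eig (k : ZMod p) : AddSubgroup ((Cy p) ⊗[ℤ] L) where
  carrier := {x | ext p σ x = om p ^ k.val • x}
  zero_mem' := by simp
  add_mem' := fun {a b} ha hb => by
    simp only [Set.mem_setOf_eq] at ha hb ⊢
    rw [map_add, ha, hb, smul_add]
  neg_mem' := fun {a} ha => by
    simp only [Set.mem_setOf_eq] at ha ⊢
    rw [map_neg, ha, smul_neg]

theorem mem_eig {k : ZMod p} {x : (Cy p) ⊗[ℤ] L} : x ∈ eig p σ k ↔ ext p σ x = om p ^ k.val • x := Iff.rfl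

theorem eig_zero (hσ : ∀ x, σ x = x → x = 0) : eig p σ 0 = ⊥ := by
  rw [eq_bot_iff]
  intro x hx
  rw [mem_eig, ZMod.val_zero, pow_zero, one_smul] at hx
  exact ext_inj p σ hσ x hx

theorem eig_closed (hσ : ∀ x y, σ ⁅x, y⁆ = ⁅σ x, σ y⁆) : Closed (eig p σ) := by
  intro i j x hx y hy
  rw [mem_eig] at hx hy ⊢
  change ext p σ (B x y) = _ • B x y
  rw [ext_lie p σ hσ, hx, hy, om_val, smul_B, B_smul, mul_smul]

theorem eig_top (hσ : ∀ x, σ^[p] x = x) (hp : ∀ x : L, ∃ y : L, x = (p : ℕ) • y) (x : (Cy p) ⊗[ℤ] L) :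
    x ∈ ⨆ k, eig p σ k := by
  obtain ⟨y, hy⟩ := div_p p hp x
  let τ : (Cy p) ⊗[ℤ] L → (Cy p) ⊗[ℤ] L := fun x => ext p σ x
  have hτp : ∀ z, τ^[p] z = z := ext_iterate p σ hσ
  have hstep : ∀ (i : ZMod p) (z), τ (τ^[i.val] z) = τ^[(i + 1).val] z := by
    intro i z
    rw [← Function.iterate_succ_apply' τ, ZMod.val_add, ZMod.val_one p]
    have h1 := ZMod.val_lt i
    rcases (show i.val + 1 ≤ p from h1).eq_or_lt with h | h
    · rw [h, Nat.mod_self, Nat.succ_eq_add_one, h, hτp]; rfl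
    · rw [Nat.mod_eq_of_lt h]
  let c : ZMod p → (Cy p) ⊗[ℤ] L := fun k => ∑ i : ZMod p, om p ^ (-k * i).val • τ^[i.val] y
  have hc : ∀ k, c k ∈ eig p σ k := by
    intro k
    rw [mem_eig]
    show ext p σ (∑ i : ZMod p, om p ^ (-k * i).val • τ^[i.val] y) = _
    rw [map_sum]
    have h1 : ∀ i : ZMod p, ext p σ (om p ^ (-k * i).val • τ^[i.val] y) =
        om p ^ k.val • (om p ^ (-k * (i + 1)).val • τ^[(i + 1).val] y) := by
      intro i
      rw [map_smul]
      change _ • τ _ = _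
      rw [hstep, smul_smul, ← om_val]
      congr 3
      ring
    simp_rw [h1]
    rw [← Finset.smul_sum]
    congr 1
    exact Equiv.sum_comp (Equiv.addRight (1 : ZMod p)) (fun i => om p ^ (-k * i).val • τ^[i.val] y)
  have hsum : ∑ k : ZMod p, c k = x := by
    show ∑ k : ZMod p, ∑ i : ZMod p, om p ^ (-k * i).val • τ^[i.val] y = x
    rw [Finset.sum_comm]
    rw [Finset.sum_eq_single (0 : ZMod p)]
    · simp only [mul_zero, ZMod.val_zero, pow_zero, one_smul, Function.iterate_zero, id]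
      rw [Finset.sum_const, Finset.card_univ, ZMod.card, hy]
    · intro i _ hi
      rw [← Finset.sum_smul]
      have : ∑ k : ZMod p, om p ^ (-k * i).val = 0 := by
        rw [← om_sum' p]
        have hi' : -i ≠ 0 := neg_ne_zero.2 hi
        refine Fintype.sum_equiv (Equiv.mulRight₀ (-i) hi') _ _ ?_
        intro k
        simp [Equiv.mulRight₀]
      rw [this, zero_smul]
    · intro h; exact absurd (Finset.mem_univ _) h
  rw [← hsum]
  exact AddSubgroup.sum_mem _ fun k _ => AddSubgroup.mem_iSup_of_mem k (hc k)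

theorem lcs_base : ∀ (m : ℕ) (x : L), x ∈ lcs L m → (1 : Cy p) ⊗ₜ[ℤ] x ∈ lcs ((Cy p) ⊗[ℤ] L) m
  | 0, x, _ => AddSubgroup.mem_top _
  | m + 1, x, hx => by
      refine AddSubgroup.closure_induction
        (p := fun x _ => (1 : Cy p) ⊗ₜ[ℤ] x ∈ lcs ((Cy p) ⊗[ℤ] L) (m + 1)) ?_ ?_ ?_ ?_ hx
      · rintro z ⟨u, hu, v, rfl⟩
        have := brk_mem_lcs (y := (1 : Cy p) ⊗ₜ[ℤ] v) (lcs_base m u hu)
        rwa [LieAlgebra.ExtendScalars.bracket_tmul, mul_one] at this
      · rw [TensorProduct.tmul_zero]; exact AddSubgroup.zero_mem _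
      · intro a b _ _ h1 h2; rw [TensorProduct.tmul_add]; exact AddSubgroup.add_mem _ h1 h2
      · intro a _ h1; rw [TensorProduct.tmul_neg]; exact AddSubgroup.neg_mem _ h1

/-- the theorem for Lie rings with a fixed-point-free automorphism of prime order -/
theorem lie_main (hσ : ∀ x y, σ ⁅x, y⁆ = ⁅σ x, σ y⁆) (hσp : ∀ x, σ^[p] x = x)
    (hf : ∀ x, σ x = x → x = 0) (hp : ∀ x : L, ∃ y : L, x = (p : ℕ) • y) :
    lcs L (∑ i ∈ Finset.range (2 ^ (p - 1) - 1), (p - 1) ^ i) = ⊥ ∧ (p = 3 → lcs L 2 = ⊥) := by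
  refine ⟨?_, ?_⟩
  · rw [eq_bot_iff]
    intro x hx
    have h1 := lcs_base p _ x hx
    rw [lcs_hkk (eig_top p σ hσp hp) (eig_closed p σ hσ) (eig_zero p σ hf), AddSubgroup.mem_bot] at h1
    exact inj_one_tmul p x h1
  · intro h3
    subst h3
    rw [eq_bot_iff]
    intro x hx
    have h1 := lcs_base 3 _ x hx
    rw [lcs_three (eig_top 3 σ hσp hp) (eig_closed 3 σ hσ) (eig_zero 3 σ hf), AddSubgroup.mem_bot] at h1
    exact inj_one_tmul 3 x h1

end main

end Cfsg.Agent.H23.Kreknin
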