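import Mathlib

set_option autoImplicit false
set_option linter.all false

/-! # Vaughan-Lee's breadth theorem, numerical part -/

namespace Cfsg.Agent.H23.Breadth

/-- the correction term: the greatest `j ≤ n` with `n + 1 - T + 2^{-n} ≤ 2 · 2^{-j}` (or `0`) -/
def corr (n : ℕ) (T : ℚ) : ℕ := Nat.findGreatest (fun j => (n : ℚ) + 1 - T + (1 / 2) ^ n ≤ 2 * (1 / 2) ^ j) n

/-- twice the potential -/
def Psi (T : ℚ) : ℕ := ⌊T⌋₊ * (⌊T⌋₊ + 1) + 2 * corr ⌊T⌋₊ T

theorem Psi_nat (b : ℕ) : Psi b = b * (b + 1) := by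
  unfold Psi
  rw [Nat.floor_natCast]
  have h : corr b b = 0 := by
    unfold corr
    rw [Nat.findGreatest_eq_zero_iff]
    intro k hk _ h
    have h1 : (0 : ℚ) < (1 / 2) ^ b := by positivity
    have h2 : ((1 : ℚ) / 2) ^ k ≤ 1 / 2 := by
      calc ((1 : ℚ) / 2) ^ k ≤ (1 / 2) ^ 1 := pow_le_pow_of_le_one (by norm_num) (by norm_num) hk
        _ = 1 / 2 := by norm_num
    linarith
  rw [h]; ring

theorem corr_spec {n : ℕ} {T : ℚ} (h : corr n T ≠ 0) :
    (n : ℚ) + 1 - T + (1 / 2) ^ n ≤ 2 * (1 / 2) ^ (corr n T) := by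
  unfold corr at h ⊢
  exact Nat.findGreatest_of_ne_zero rfl h

theorem le_corr {n j : ℕ} {T : ℚ} (hj : j ≤ n) (h : (n : ℚ) + 1 - T + (1 / 2) ^ n ≤ 2 * (1 / 2) ^ j) : j ≤ corr n T :=
  Nat.le_findGreatest hj h

theorem corr_le (n : ℕ) (T : ℚ) : corr n T ≤ n := Nat.findGreatest_le n

theorem half_pow_le {a b : ℕ} (h : a ≤ b) : ((1 : ℚ) / 2) ^ b ≤ (1 / 2) ^ a :=
  pow_le_pow_of_le_one (by norm_num) (by norm_num) h

theorem step {T : ℚ} {r : ℕ} (hr : 1 ≤ r) (hT : (r : ℚ) ≤ T) :
    2 * r + Psi (T - (1 - (1 / 2) ^ r)) ≤ Psi T := by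
  have hT0 : 0 ≤ T := le_trans (by positivity) hT
  obtain ⟨n, hn⟩ : ∃ n, n = ⌊T⌋₊ := ⟨_, rfl⟩
  have hrn : r ≤ n := by rw [hn]; exact Nat.le_floor hT
  have hnT : (n : ℚ) ≤ T := by rw [hn]; exact Nat.floor_le hT0
  have hTn : T < n + 1 := by rw [hn]; exact Nat.lt_floor_add_one T
  have hn1 : 1 ≤ n := hr.trans hrn
  have hr2 : ((1 : ℚ) / 2) ^ r ≤ 1 / 2 := by
    calc ((1 : ℚ) / 2) ^ r ≤ (1 / 2) ^ 1 := half_pow_le hr
      _ = 1 / 2 := by norm_num
  have hrpos : (0 : ℚ) < (1 / 2) ^ r := by positivity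
  have hnpos : (0 : ℚ) < (1 / 2) ^ n := by positivity
  set T' := T - (1 - (1 / 2) ^ r) with hT'
  have hT'0 : 0 ≤ T' := by
    have : (1 : ℚ) ≤ r := by exact_mod_cast hr
    rw [hT']; linarith
  by_cases hcase : T' < n
  · -- case A
    obtain ⟨m, rfl⟩ : ∃ m, n = m + 1 := ⟨n - 1, by omega⟩
    have hfl : ⌊T'⌋₊ = m := by
      rw [Nat.floor_eq_iff hT'0]
      constructor
      · rw [hT']; push_cast at hnT; linarith
      · push_cast at hcase; linarith
    unfold Psi
    rw [← hn, hfl]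
    have key : r + corr m T' ≤ (m + 1) + corr (m + 1) T := by
      by_cases h0 : corr m T' = 0
      · rw [h0]; omega
      have hs := corr_spec h0
      set c := corr m T' with hc
      have hcm : c ≤ m := corr_le m T'
      obtain ⟨d, hd⟩ : ∃ d, m + 1 = r + d := ⟨m + 1 - r, by omega⟩
      by_cases hcd : c ≤ d
      · omega
      obtain ⟨e, he⟩ : ∃ e, c = d + e := ⟨c - d, by omega⟩
      have hle : e ≤ corr (m + 1) T := by
        apply le_corr (by omega)
        -- `m + 2 - T + 2^{-(m+1)} ≤ 2 * 2^{-e}`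
        have e1 : ((1 : ℚ) / 2) ^ m = 2 * (1 / 2) ^ (m + 1) := by rw [pow_succ]; ring
        have e2 : ((1 : ℚ) / 2) ^ (m + 1) = (1 / 2) ^ r * (1 / 2) ^ d := by rw [hd, pow_add]
        have e3 : ((1 : ℚ) / 2) ^ c = (1 / 2) ^ d * (1 / 2) ^ e := by rw [he, pow_add]
        have e4 : ((1 : ℚ) / 2) ^ (m + 1) ≤ (1 / 2) ^ c := half_pow_le (by omega)
        rw [hT', e1] at hs
        push_cast
        -- hs : m + 1 - (T - (1 - 2^-r)) + 2 * 2^-(m+1) ≤ 2 * 2^-c
        set A : ℚ := (1 / 2) ^ r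
        set B : ℚ := (1 / 2) ^ d
        set C : ℚ := (1 / 2) ^ e
        have hB : 0 < B := by positivity
        have hB1 : B ≤ 1 := pow_le_one₀ (by norm_num) (by norm_num)
        rw [e2] at e4 ⊢
        rw [e2] at hs
        rw [e3] at hs e4
        -- e4 : A * B ≤ B * C
        have h5 : A ≤ C := by
          have : B * A ≤ B * C := by linarith [mul_comm A B]
          exact le_of_mul_le_mul_left this hB
        nlinarith
      omega
    nlinarith
  · -- case B
    push Not at hcase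
    have hfl : ⌊T'⌋₊ = n := by
      rw [Nat.floor_eq_iff hT'0]
      exact ⟨hcase, by rw [hT']; linarith⟩
    unfold Psi
    rw [← hn, hfl]
    have hεr : (n : ℚ) + 1 - T ≤ (1 / 2) ^ r := by rw [hT'] at hcase; linarith
    have key : r + corr n T' ≤ corr n T := by
      by_cases h0 : corr n T' = 0
      · rw [h0, add_zero]
        apply le_corr hrn
        have := half_pow_le hrn
        linarith
      · have hs := corr_spec h0
        set c := corr n T' with hc
        have hc1 : c = 1 := by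
          by_contra hne
          have : 2 ≤ c := by omega
          have h1 : ((1 : ℚ) / 2) ^ c ≤ 1 / 4 := by
            calc ((1 : ℚ) / 2) ^ c ≤ (1 / 2) ^ 2 := half_pow_le this
              _ = 1 / 4 := by norm_num
          rw [hT'] at hs
          linarith
        rw [hc1] at hs ⊢
        rw [hT'] at hs
        have h2 : (n : ℚ) + 1 - T + (1 / 2) ^ n ≤ (1 / 2) ^ r := by linarith
        have h3 : r < n := by
          by_contra hge
          have : r = n := by omega
          rw [this] at h2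
          linarith
        apply le_corr (by omega)
        rw [pow_succ]
        linarith
    omega

end Cfsg.Agent.H23.Breadth
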