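import Cfsg.Agent.H23.Breadth
import Cfsg.Agent.H23.Breadth2
import Cfsg.Agent.H2.Basic

set_option autoImplicit false
set_option linter.all false

/-! # Vaughan-Lee's breadth theorem -/

namespace Cfsg.Agent.H23.Breadth

universe u

open Subgroup
open scoped commutatorElement Pointwise

open Classical in
/-- number of members of the family not containing `x` -/
noncomputable def cnt {H : Type*} [Group H] {ι : Type} [Fintype ι] (C : ι → Subgroup H) (x : H) : ℕ :=
  ∑ i, if x ∈ C i then 0 else 1

open Classical in
/-- averaging -/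
theorem exists_big {H : Type*} [Group H] [Finite H] {ι : Type} [Fintype ι] (C : ι → Subgroup H) (r : ι → ℕ)
    (hr : ∀ i, 2 ^ r i ≤ (C i).index) {K : Subgroup H} (hK : K ≠ ⊤) :
    ∃ x, x ∉ K ∧ ∑ i, (1 - (1 / 2 : ℚ) ^ r i) ≤ cnt C x := by
  haveI := Fintype.ofFinite H
  set S : Finset H := Finset.univ.filter (fun x => x ∉ K) with hS
  have hSc : (S.card : ℚ) = Nat.card H - Nat.card K := by
    have h1 : (Finset.univ.filter (fun x : H => x ∈ K)).card + S.card = Fintype.card H := by
      rw [hS, Finset.card_filter_add_card_filter_not, Finset.card_univ]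
    have h2 : (Finset.univ.filter (fun x : H => x ∈ K)).card = Nat.card K := by
      rw [Nat.card_eq_fintype_card, ← Fintype.card_subtype]
    rw [h2] at h1
    rw [Nat.card_eq_fintype_card (α := H), ← h1]
    push_cast; ring
  have hKlt : (Nat.card K : ℚ) < Nat.card H := by
    exact_mod_cast lt_of_le_of_ne (card_le_card_group K) (fun h => hK (eq_top_of_card_eq K h))
  have hSpos : (0 : ℚ) < S.card := by rw [hSc]; linarith
  have hSne : S.Nonempty := by
    rw [Finset.nonempty_iff_ne_empty]
    rintro h
    rw [h, Finset.card_empty] at hSpos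
    simp at hSpos
  by_contra hcon
  push Not at hcon
  have hlt : ∑ x ∈ S, (cnt C x : ℚ) < ∑ x ∈ S, ∑ i, (1 - (1 / 2 : ℚ) ^ r i) :=
    Finset.sum_lt_sum_of_nonempty hSne (fun x hx => hcon x (by rw [hS, Finset.mem_filter] at hx; exact hx.2))
  rw [Finset.sum_const, nsmul_eq_mul, Finset.mul_sum] at hlt
  have h1 : ∑ x ∈ S, (cnt C x : ℚ) = ∑ i, ((S.filter (fun x => x ∉ C i)).card : ℚ) := by
    unfold cnt
    push_cast
    rw [Finset.sum_comm]
    refine Finset.sum_congr rfl fun i _ => ?_
    rw [Finset.card_filter]
    push_cast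
    refine Finset.sum_congr rfl fun x _ => ?_
    by_cases hx : x ∈ C i <;> simp [hx]
  rw [h1] at hlt
  apply hlt.not_ge
  refine Finset.sum_le_sum fun i _ => ?_
  -- `|S ∖ C i| ≥ |S| (1 - 2^{-r})`
  have h2 : ((S.filter (fun x => x ∈ C i)).card : ℚ) + (S.filter (fun x => x ∉ C i)).card = S.card := by
    exact_mod_cast Finset.card_filter_add_card_filter_not (s := S) (fun x => x ∈ C i)
  have h3 : ((S.filter (fun x => x ∈ C i)).card : ℚ) = Nat.card (C i) - Nat.card (C i ⊓ K : Subgroup H) := by
    have h4 : (Finset.univ.filter (fun x : H => x ∈ C i ⊓ K)).card + (S.filter (fun x => x ∈ C i)).card =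
        (Finset.univ.filter (fun x : H => x ∈ C i)).card := by
      rw [← Finset.card_union_of_disjoint]
      · congr 1
        ext x
        simp only [hS, Finset.mem_union, Finset.mem_filter, Finset.mem_univ, true_and, mem_inf]
        tauto
      · rw [Finset.disjoint_left]
        intro x hx hx'
        simp only [hS, Finset.mem_filter, Finset.mem_univ, true_and, mem_inf] at hx hx'
        exact hx'.1 hx.2
    have h5 : ∀ A : Subgroup H, (Finset.univ.filter (fun x : H => x ∈ A)).card = Nat.card A := by
      intro A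
      rw [Nat.card_eq_fintype_card, ← Fintype.card_subtype]
    rw [h5, h5] at h4
    rw [← h4]; push_cast; ring
  -- relative index
  have h4 : (K.relIndex (C i) : ℚ) * Nat.card (C i ⊓ K : Subgroup H) = Nat.card (C i) := by
    have := relIndex_mul_relIndex (⊥ : Subgroup H) (C i ⊓ K) (C i) bot_le inf_le_left
    rw [relIndex_bot_left, relIndex_bot_left, inf_relIndex_left] at this
    rw [mul_comm]; exact_mod_cast this
  have h5 : (K.index : ℚ) * Nat.card K = Nat.card H := by
    have := K.card_mul_index
    rw [mul_comm]; exact_mod_cast this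
  have h6 : ((C i).index : ℚ) * Nat.card (C i) = Nat.card H := by
    have := (C i).card_mul_index
    rw [mul_comm]; exact_mod_cast this
  have h7 : (K.relIndex (C i) : ℚ) ≤ K.index := by
    have := Nat.le_of_dvd (Nat.pos_of_ne_zero (index_ne_zero_of_finite (H := K ⊓ C i))) (Dvd.intro _ (relIndex_mul_index (H := K ⊓ C i) (K := C i) inf_le_right))
    have h8 : K.relIndex (C i) ≤ K.relIndex ⊤ := relIndex_le_of_le_right le_top (index_ne_zero_of_finite (H := K.subgroupOf ⊤))
    rw [relIndex_top_right] at h8
    exact_mod_cast h8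
  have hrpos : (0 : ℚ) < 2 ^ r i := by positivity
  have h8 : (2 : ℚ) ^ r i ≤ (C i).index := by exact_mod_cast hr i
  have hCpos : (0 : ℚ) < Nat.card (C i) := by exact_mod_cast Nat.card_pos
  have hIpos : (0 : ℚ) < Nat.card (C i ⊓ K : Subgroup H) := by exact_mod_cast Nat.card_pos
  have hKpos : (0 : ℚ) < Nat.card K := by exact_mod_cast Nat.card_pos
  have hrel1 : (1 : ℚ) ≤ K.relIndex (C i) := by
    have : 0 < K.relIndex (C i) := Nat.pos_of_ne_zero (index_ne_zero_of_finite (H := K.subgroupOf (C i)))
    exact_mod_cast this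
  -- `(|C| - |C ∩ K|) 2^r ≤ |H| - |K|`
  have h9 : (Nat.card (C i) - Nat.card (C i ⊓ K : Subgroup H) : ℚ) * 2 ^ r i ≤ S.card := by
    rw [hSc]
    have e1 : (Nat.card (C i) - Nat.card (C i ⊓ K : Subgroup H) : ℚ) * 2 ^ r i ≤
        (Nat.card (C i) - Nat.card (C i ⊓ K : Subgroup H)) * (C i).index := by
      apply mul_le_mul_of_nonneg_left h8
      nlinarith
    refine e1.trans ?_
    -- `|C| idx - |C∩K| idx = |H| - |C ∩ K| idx` and `|C ∩ K| idx ≥ |K|`
    have e2 : (Nat.card K : ℚ) ≤ Nat.card (C i ⊓ K : Subgroup H) * (C i).index := by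
      -- multiply by `K.index`
      have hidx : (0 : ℚ) < K.index := by exact_mod_cast Nat.pos_of_ne_zero index_ne_zero_of_finite
      have e3 : (K.index : ℚ) * Nat.card K ≤ K.index * (Nat.card (C i ⊓ K : Subgroup H) * (C i).index) := by
        rw [h5, ← h6, ← h4]
        have : (0 : ℚ) ≤ (C i).index := by positivity
        have h10 : (K.relIndex (C i) : ℚ) * (Nat.card (C i ⊓ K : Subgroup H) * (C i).index) ≤
            K.index * (Nat.card (C i ⊓ K : Subgroup H) * (C i).index) :=
          mul_le_mul_of_nonneg_right h7 (by positivity)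
        calc ((C i).index : ℚ) * (K.relIndex (C i) * Nat.card (C i ⊓ K : Subgroup H)) =
            (K.relIndex (C i) : ℚ) * (Nat.card (C i ⊓ K : Subgroup H) * (C i).index) := by ring
          _ ≤ _ := h10
      exact le_of_mul_le_mul_left e3 hidx
    have e4 : (Nat.card (C i) : ℚ) * (C i).index = Nat.card H := by rw [mul_comm]; exact h6
    calc (Nat.card (C i) - Nat.card (C i ⊓ K : Subgroup H) : ℚ) * (C i).index =
        Nat.card (C i) * (C i).index - Nat.card (C i ⊓ K : Subgroup H) * (C i).index := by ring
      _ ≤ _ := by rw [e4]; linarith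
  have h10 : ((S.filter (fun x => x ∈ C i)).card : ℚ) ≤ S.card * (1 / 2) ^ r i := by
    rw [h3, one_div, inv_pow, ← div_eq_mul_inv, le_div_iff₀ hrpos]
    exact h9
  linarith


theorem index_map_of_ker_le {H H' : Type*} [Group H] [Group H'] (f : H →* H') (hf : Function.Surjective f) {A : Subgroup H}
    (h : f.ker ≤ A) : (A.map f).index = A.index := by
  rw [← index_comap_of_surjective _ hf, comap_map_eq_self h]

theorem mem_map_of_ker_le {H H' : Type*} [Group H] [Group H'] (f : H →* H') {A : Subgroup H}
    (h : f.ker ≤ A) (x : H) : f x ∈ A.map f ↔ x ∈ A := by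
  rw [← mem_comap, comap_map_eq_self h]

/-- the main induction -/
theorem main {p : ℕ} [hp : Fact p.Prime] : ∀ (m : ℕ) (H : Type u) [Group H] [Finite H], Nat.card H = m → IsPGroup p H →
    ∀ (ι : Type) [Fintype ι] (C : ι → Subgroup H) (r : ι → ℕ) (b : ℕ), (∀ i, _root_.commutator H ≤ C i) →
    (∀ i, 2 ^ r i ≤ (C i).index) → (∀ x : H, (centralizer ({x} : Set H)).index * p ^ cnt C x ≤ p ^ b) →
    ∃ k, Nat.card (_root_.commutator H) = p ^ k ∧ 2 * k ≤ Psi (b - ∑ i, (1 - (1 / 2 : ℚ) ^ r i)) := by
  classical
  intro m
  induction m using Nat.strong_induction_on with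
  | _ m ih =>
    intro H _ _ hm hH ι _ C r b hC hr hb
    have hp2 := hp.out.two_le
    by_cases hna : _root_.commutator H = ⊥
    · refine ⟨0, ?_, by omega⟩
      rw [hna, card_bot, pow_zero]
    obtain ⟨K, hK, hKz⟩ := exists_K hH.isNilpotent hna
    obtain ⟨x, hx, hxc⟩ := exists_big C r hr hK
    obtain ⟨z, hz1, hz2, hz3⟩ := hKz x hx
    -- the homomorphism `g ↦ [z, g]`
    let f : H →* H := MonoidHom.mk' (fun g => ⁅z, g⁆) (by
      intro a b
      have h1 := mem_center_iff.1 (hz1 b) a
      have h2 : ⁅z, a * b⁆ = ⁅z, a⁆ * (a * ⁅z, b⁆ * a⁻¹) := by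
        simp only [commutatorElement_def]; group
      rw [h2, h1, mul_inv_cancel_right])
    have hfk : f.ker = centralizer ({z} : Set H) := by
      ext g
      rw [MonoidHom.mem_ker, mem_centralizer_singleton_iff]
      change ⁅z, g⁆ = 1 ↔ _
      rw [commutatorElement_eq_one_iff_mul_comm]
      exact eq_comm
    set U := f.range with hU
    have hUc : U ≤ center H := by
      rintro _ ⟨g, rfl⟩
      exact hz1 g
    have hUn : U.Normal := ⟨fun u hu g => by
      have := mem_center_iff.1 (hUc hu) g
      rw [this, mul_inv_cancel_right]; exact hu⟩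
    have hUcomm : U ≤ _root_.commutator H := by
      rintro _ ⟨g, rfl⟩
      exact commutator_mem_commutator (mem_top z) (mem_top g)
    have hUcard : Nat.card U = (centralizer ({z} : Set H)).index := by
      rw [← hfk, index_ker]
    obtain ⟨s, hs⟩ := IsPGroup.iff_card.1 (hH.to_subgroup U)
    have hs1 : 1 ≤ s := by
      by_contra hlt
      have : s = 0 := by omega
      rw [this, pow_zero] at hs
      have h1 : U = ⊥ := card_eq_one.1 hs
      apply hz2
      rw [mem_center_iff]
      intro g
      have h2 : ⁅z, g⁆ ∈ U := ⟨g, rfl⟩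
      rw [h1, mem_bot, commutatorElement_eq_one_iff_mul_comm] at h2
      exact h2.symm
    -- `[z, H'] = 1`
    have hzc : _root_.commutator H ≤ centralizer ({z} : Set H) := by
      rw [← hfk, _root_.commutator_def, commutator_le]
      intro a _ b _
      rw [MonoidHom.mem_ker, map_commutatorElement, commutatorElement_eq_one_iff_mul_comm]
      exact mem_center_iff.1 (hz1 b) (f a)
    -- bound for `s`
    have hsb : s + cnt C x ≤ b := by
      have h1 := hb x
      have h2 : p ^ (s + cnt C x) ≤ p ^ b := by
        rw [pow_add, ← hs, hUcard]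
        exact (Nat.mul_le_mul_right _ hz3).trans h1
      exact (Nat.pow_le_pow_iff_right hp.out.one_lt).1 h2
    set T : ℚ := b - ∑ i, (1 - (1 / 2 : ℚ) ^ r i) with hT
    have hsT : (s : ℚ) ≤ T := by
      have : (s : ℚ) + cnt C x ≤ b := by exact_mod_cast hsb
      rw [hT]; linarith
    -- the quotient
    set π := QuotientGroup.mk' U with hπ
    have hπs : Function.Surjective π := QuotientGroup.mk'_surjective U
    have hπk : π.ker = U := QuotientGroup.ker_mk' U
    have hcomm : _root_.commutator (H ⧸ U) = (_root_.commutator H).map π := by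
      rw [_root_.commutator_def, _root_.commutator_def, map_commutator, map_top_of_surjective _ hπs]
    have hlt : Nat.card (H ⧸ U) < m := by
      rw [← hm, card_eq_card_quotient_mul_card_subgroup U, hs]
      have h3 : 0 < Nat.card (H ⧸ U) := Nat.card_pos
      have h4 : 1 < p ^ s := Nat.one_lt_pow (by omega) hp.out.one_lt
      nlinarith
    let C' : Option ι → Subgroup (H ⧸ U) := fun o => match o with
      | none => (centralizer ({z} : Set H)).map π
      | some i => (C i).map π
    let r' : Option ι → ℕ := fun o => match o with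
      | none => s
      | some i => r i
    have hkz : π.ker ≤ centralizer ({z} : Set H) := by rw [hπk]; exact hUcomm.trans hzc
    have hki : ∀ i, π.ker ≤ C i := fun i => by rw [hπk]; exact hUcomm.trans (hC i)
    have key := ih _ hlt (H ⧸ U) rfl (hH.to_quotient U) (Option ι) C' r' b ?_ ?_ ?_
    · obtain ⟨k, hk1, hk2⟩ := key
      refine ⟨k + s, ?_, ?_⟩
      · rw [hcomm] at hk1
        have h1 := H2.card_map_mul_card_inf_ker π (_root_.commutator H)
        rw [hπk, inf_eq_right.2 hUcomm, hk1, hs] at h1
        rw [← h1, pow_add]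
      · have h1 := step hs1 hsT
        have h2 : (b : ℚ) - ∑ i, (1 - (1 / 2 : ℚ) ^ r' i) = T - (1 - (1 / 2) ^ s) := by
          rw [Fintype.sum_option, hT]
          ring
        rw [h2] at hk2
        omega
    · rintro (_ | i)
      · rw [hcomm]; exact map_mono hzc
      · rw [hcomm]; exact map_mono (hC i)
    · rintro (_ | i)
      · change 2 ^ s ≤ ((centralizer ({z} : Set H)).map π).index
        rw [index_map_of_ker_le π hπs hkz, ← hUcard, hs]
        exact Nat.pow_le_pow_left hp2 s
      · change 2 ^ r i ≤ ((C i).map π).index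
        rw [index_map_of_ker_le π hπs (hki i)]
        exact hr i
    · intro y
      obtain ⟨y, rfl⟩ := hπs y
      have hcnt : cnt C' (π y) = (if y ∈ centralizer ({z} : Set H) then 0 else 1) + cnt C y := by
        unfold cnt
        rw [Fintype.sum_option]
        congr 1
        · change (if π y ∈ (centralizer ({z} : Set H)).map π then 0 else 1) = _
          simp only [mem_map_of_ker_le π hkz]
        · refine Finset.sum_congr rfl fun i _ => ?_
          change (if π y ∈ (C i).map π then 0 else 1) = _
          simp only [mem_map_of_ker_le π (hki i)]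
      set D := (centralizer ({π y} : Set (H ⧸ U))).comap π with hD
      have hDi : (centralizer ({π y} : Set (H ⧸ U))).index = D.index := by
        rw [hD, index_comap_of_surjective _ hπs]
      have hDle : centralizer ({y} : Set H) ≤ D := by
        intro g hg
        rw [mem_centralizer_singleton_iff] at hg
        rw [hD, mem_comap, mem_centralizer_singleton_iff, ← map_mul, hg, map_mul]
      rw [hDi, hcnt]
      refine le_trans ?_ (hb y)
      rw [pow_add, ← mul_assoc]
      apply Nat.mul_le_mul_right
      rw [← relIndex_mul_index hDle, mul_comm]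
      apply Nat.mul_le_mul_right
      by_cases hyz : y ∈ centralizer ({z} : Set H)
      · rw [if_pos hyz, pow_zero]
        exact Nat.pos_of_ne_zero (index_ne_zero_of_finite (H := (centralizer ({y} : Set H)).subgroupOf D))
      · rw [if_neg hyz, pow_one]
        -- relative index is a nontrivial power of `p`
        have hne : (centralizer ({y} : Set H)).relIndex D ≠ 1 := by
          intro h1
          rw [relIndex_eq_one] at h1
          have hzD : z ∈ D := by
            rw [hD, mem_comap, mem_centralizer_singleton_iff]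
            have h2 : ⁅z, y⁆ ∈ U := ⟨y, rfl⟩
            have h3 : π ⁅z, y⁆ = 1 := (QuotientGroup.eq_one_iff _).2 h2
            rw [map_commutatorElement, commutatorElement_eq_one_iff_mul_comm] at h3
            exact h3
          have h4 := h1 hzD
          rw [mem_centralizer_singleton_iff] at h4
          apply hyz
          rw [mem_centralizer_singleton_iff]
          exact h4.symm
        obtain ⟨j, hj⟩ := IsPGroup.iff_card.1 hH
        have h5 : (centralizer ({y} : Set H)).relIndex D ∣ p ^ j := by
          rw [← hj]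
          exact (relIndex_dvd_card _ _).trans (card_subgroup_dvd_card D)
        obtain ⟨l, -, hl⟩ := (Nat.dvd_prime_pow hp.out).1 h5
        rw [hl] at hne ⊢
        have hl0 : l ≠ 0 := by rintro rfl; exact hne (pow_zero p)
        calc p = p ^ 1 := (pow_one p).symm
          _ ≤ p ^ l := Nat.pow_le_pow_right hp.out.pos (by omega)

theorem vaughan_lee {H : Type u} [Group H] [Finite H] {p : ℕ} [hp : Fact p.Prime] (hH : IsPGroup p H) (b : ℕ)
    (hb : ∀ x : H, (centralizer ({x} : Set H)).index ≤ p ^ b) : Nat.card (_root_.commutator H) ≤ p ^ (b * (b + 1) / 2) := by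
  obtain ⟨k, hk1, hk2⟩ := main (Nat.card H) H rfl hH Empty (fun e => e.elim) (fun e => e.elim) b (fun e => e.elim) (fun e => e.elim)
    (by
      intro x
      have : cnt (fun e : Empty => (e.elim : Subgroup H)) x = 0 := by unfold cnt; simp
      rw [this, pow_zero, mul_one]; exact hb x)
  rw [hk1]
  apply Nat.pow_le_pow_right hp.out.pos
  simp only [Finset.univ_eq_empty, Finset.sum_empty, sub_zero] at hk2
  rw [Psi_nat] at hk2
  omega

end Cfsg.Agent.H23.Breadth
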