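import Mathlib

set_option autoImplicit false
set_option linter.all false

/-!
# `p`-length and derived length, I: a group-theoretic lemma on 3-groups acting on 2-groups, seat helper23
-/

namespace Cfsg.Agent.H23.DL

open Subgroup
open scoped commutatorElement

theorem perm_setup {X : Type*} [Group X] [Finite X] {B : Subgroup X} (hB : IsPGroup 3 B) {F : Set X}
    (hF : F.ncard ≤ 4) (hBF : ∀ b ∈ B, ∀ x ∈ F, b * x * b⁻¹ ∈ F) :
    ∃ φ : B →* Equiv.Perm F, (∀ (b : B) (x : F), ((φ b x : F) : X) = b * x * (b : X)⁻¹) ∧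
      (Nat.card φ.range = 1 ∨ Nat.card φ.range = 3) := by
  classical
  let φ : B →* Equiv.Perm F :=
    { toFun := fun b =>
        { toFun := fun x => ⟨b * x * (b : X)⁻¹, hBF b b.2 x x.2⟩
          invFun := fun x => ⟨(b : X)⁻¹ * x * b, by
            have := hBF (b : X)⁻¹ (inv_mem b.2) x x.2
            rwa [inv_inv] at this⟩
          left_inv := fun x => Subtype.ext (by simp only; group)
          right_inv := fun x => Subtype.ext (by simp only; group) }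
      map_one' := by
        ext x
        show ((1 : B) : X) * x * ((1 : B) : X)⁻¹ = x
        simp
      map_mul' := by
        intro a b
        ext x
        show ((a * b : B) : X) * x * ((a * b : B) : X)⁻¹ = a * (b * x * (b : X)⁻¹) * (a : X)⁻¹
        push_cast
        group }
  refine ⟨φ, fun b x => rfl, ?_⟩
  haveI : Fact (Nat.Prime 3) := ⟨Nat.prime_three⟩
  have h1 : IsPGroup 3 φ.range := hB.of_surjective φ.rangeRestrict φ.rangeRestrict_surjective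
  obtain ⟨k, hk⟩ := IsPGroup.iff_card.mp h1
  have h2 : Nat.card φ.range ∣ 24 := by
    have h3 : Nat.card φ.range ∣ Nat.card (Equiv.Perm F) := Subgroup.card_subgroup_dvd_card _
    rw [Nat.card_perm] at h3
    have h4 : (Nat.card F).factorial ∣ 24 := Nat.factorial_dvd_factorial (n := 4) hF
    exact h3.trans h4
  rw [hk] at h2 ⊢
  rcases k with _ | _ | k
  · left; rfl
  · right; rfl
  · exfalso
    have h3 : 3 ^ 2 ∣ 24 := (pow_dvd_pow 3 (by omega)).trans h2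
    norm_num at h3

theorem tri {X : Type*} [Group X] {a c : X} (h3 : a ^ 3 = 1) :
    (a * a * ⁅a, c⁆ * a⁻¹ * a⁻¹) * (a * ⁅a, c⁆ * a⁻¹) * ⁅a, c⁆ = 1 := by
  have h4 : (a * a * ⁅a, c⁆ * a⁻¹ * a⁻¹) * (a * ⁅a, c⁆ * a⁻¹) * ⁅a, c⁆ = a ^ 3 * c * (a ^ 3)⁻¹ * c⁻¹ := by
    rw [show a ^ 3 = a * a * a by rw [pow_succ, pow_two], commutatorElement_def]; group
  rw [h4, h3]; group

theorem tri' {X : Type*} [Group X] {a c : X} (h3 : a ^ 3 = 1) (h : a * ⁅a, c⁆ = ⁅a, c⁆ * a)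
    (h2 : ⁅a, c⁆ * ⁅a, c⁆ = 1) : ⁅a, c⁆ = 1 := by
  have h4 := tri (c := c) h3
  obtain ⟨d, hd⟩ : ∃ d, d = ⁅a, c⁆ := ⟨_, rfl⟩
  rw [← hd] at h h2 h4 ⊢
  have h5 : a * d * a⁻¹ = d := by rw [h, mul_inv_cancel_right]
  rw [show a * a * d * a⁻¹ * a⁻¹ = a * (a * d * a⁻¹) * a⁻¹ by group, h5, h5, h2, one_mul] at h4
  exact h4

/-- the set of commutators -/
def Fs {X : Type*} [Group X] (E : Subgroup X) (a : X) : Set X := {x | ∃ e ∈ E, x = ⁅a, e⁆}

theorem comm_mul {X : Type*} [Group X] {E : Subgroup X} (hEc : ∀ e ∈ E, ∀ f ∈ E, e * f = f * e) {a : X}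
    (ha : ∀ e ∈ E, a * e * a⁻¹ ∈ E) {e f : X} (he : e ∈ E) (hf : f ∈ E) : ⁅a, e * f⁆ = ⁅a, e⁆ * ⁅a, f⁆ := by
  have h1 : e⁻¹ * (a * f * a⁻¹) = (a * f * a⁻¹) * e⁻¹ := hEc _ (inv_mem he) _ (ha f hf)
  have h2 : e⁻¹ * f⁻¹ = f⁻¹ * e⁻¹ := hEc _ (inv_mem he) _ (inv_mem hf)
  rw [commutatorElement_def, commutatorElement_def, commutatorElement_def]
  calc a * (e * f) * a⁻¹ * (e * f)⁻¹ = a * e * a⁻¹ * ((a * f * a⁻¹) * (f⁻¹ * e⁻¹)) := by group
    _ = a * e * a⁻¹ * ((a * f * a⁻¹) * e⁻¹ * f⁻¹) := by rw [← h2]; group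
    _ = a * e * a⁻¹ * (e⁻¹ * (a * f * a⁻¹) * f⁻¹) := by rw [h1]
    _ = a * e * a⁻¹ * e⁻¹ * (a * f * a⁻¹ * f⁻¹) := by group

theorem GT {X : Type*} [Group X] [Finite X] {A B E : Subgroup X} (hE2 : ∀ e ∈ E, e * e = 1)
    (hEc : ∀ e ∈ E, ∀ f ∈ E, e * f = f * e) (hBE : ∀ b ∈ B, ∀ e ∈ E, b * e * b⁻¹ ∈ E) (hB : IsPGroup 3 B)
    (hAB : A ≤ B) (hA3 : ∀ a ∈ A, a ^ 3 = 1) (hAc : ∀ a ∈ A, ∀ a' ∈ A, a * a' = a' * a)
    (hAn : ∀ b ∈ B, ∀ a ∈ A, b * a * b⁻¹ ∈ A) (hAcomm : A ≤ ⁅B, B⁆)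
    (hcard : ∀ a ∈ A, (Fs E a).ncard ≤ 4) : ∀ a ∈ A, ∀ e ∈ E, a * e = e * a := by
  by_contra hcon
  push Not at hcon
  obtain ⟨a₁, ha₁, e₁, he₁, hae₁⟩ := hcon
  haveI : Nonempty A := ⟨1⟩
  obtain ⟨⟨a0, ha0⟩, hmax⟩ := Finite.exists_max (fun a : A => (Fs E (a : X)).ncard)
  have hmax' : ∀ a ∈ A, (Fs E a).ncard ≤ (Fs E a0).ncard := fun a ha => hmax ⟨a, ha⟩
  have hAE : ∀ a ∈ A, ∀ e ∈ E, a * e * a⁻¹ ∈ E := fun a ha => hBE a (hAB ha)
  have hcE : ∀ a ∈ A, ∀ e ∈ E, ⁅a, e⁆ ∈ E := by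
    intro a ha e he
    rw [commutatorElement_def]
    exact mul_mem (hAE a ha e he) (inv_mem he)
  have hFE : ∀ f ∈ Fs E a0, f ∈ E := by
    rintro _ ⟨e, he, rfl⟩
    exact hcE a0 ha0 e he
  have fact1 : ∀ f ∈ Fs E a0, a0 * f = f * a0 → f = 1 := by
    rintro _ ⟨e, he, rfl⟩ h
    exact tri' (hA3 a0 ha0) h (hE2 _ (hcE a0 ha0 e he))
  have hFmul : ∀ f ∈ Fs E a0, ∀ g ∈ Fs E a0, f * g ∈ Fs E a0 := by
    rintro _ ⟨e, he, rfl⟩ _ ⟨f, hf, rfl⟩
    exact ⟨e * f, mul_mem he hf, (comm_mul hEc (hAE a0 ha0) he hf).symm⟩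
  have hinv : ∀ e ∈ E, e⁻¹ = e := fun e he => inv_eq_of_mul_eq_one_left (hE2 e he)
  have hF1 : (1 : X) ∈ Fs E a0 := ⟨1, one_mem _, by rw [commutatorElement_one_right]⟩
  have hFne : ∃ x ∈ Fs E a0, x ≠ 1 := by
    by_contra hno
    push Not at hno
    have h1 : Fs E a0 ⊆ {1} := fun x hx => hno x hx
    have h2 : (Fs E a0).ncard ≤ 1 := by
      have := Set.ncard_le_ncard h1 (Set.finite_singleton _)
      rwa [Set.ncard_singleton] at this
    have h3 : 1 < (Fs E a₁).ncard := by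
      rw [Set.one_lt_ncard_iff (Set.toFinite _)]
      refine ⟨⁅a₁, e₁⁆, 1, ⟨e₁, he₁, rfl⟩, ⟨1, one_mem _, by rw [commutatorElement_one_right]⟩, ?_⟩
      intro h4
      exact hae₁ (commutatorElement_eq_one_iff_mul_comm.mp h4)
    have := hmax' a₁ ha₁
    omega
  -- surjectivity on F
  have fact2 : ∀ f ∈ Fs E a0, ∃ g ∈ Fs E a0, f = ⁅a0, g⁆ := by
    let τ : Fs E a0 → Fs E a0 := fun g => ⟨⁅a0, (g : X)⁆, ⟨g, hFE g g.2, rfl⟩⟩
    have hτ : Function.Injective τ := by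
      intro g g' h
      have h1 : ⁅a0, (g : X)⁆ = ⁅a0, (g' : X)⁆ := congrArg Subtype.val h
      have h2 : ⁅a0, (g : X) * (g' : X)⁆ = 1 := by
        rw [comm_mul hEc (hAE a0 ha0) (hFE _ g.2) (hFE _ g'.2), h1]
        exact hE2 _ (hcE a0 ha0 _ (hFE _ g'.2))
      have h3 := fact1 _ (hFmul _ g.2 _ g'.2) (commutatorElement_eq_one_iff_mul_comm.mp h2)
      apply Subtype.ext
      rw [← hinv _ (hFE _ g'.2)]
      exact eq_inv_of_mul_eq_one_left h3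
    intro f hf
    obtain ⟨g, hg⟩ := Finite.surjective_of_injective hτ ⟨f, hf⟩
    exact ⟨g, g.2, (congrArg Subtype.val hg).symm⟩
  have hAF : ∀ a ∈ A, ∀ x ∈ Fs E a0, a * x * a⁻¹ ∈ Fs E a0 := by
    rintro a ha _ ⟨e, he, rfl⟩
    refine ⟨a * e * a⁻¹, hAE a ha e he, ?_⟩
    have h1 : a * a0 * a⁻¹ = a0 := by rw [hAc a ha a0 ha0, mul_inv_cancel_right]
    have h2 : a * ⁅a0, e⁆ * a⁻¹ = ⁅a * a0 * a⁻¹, a * e * a⁻¹⁆ := by
      simp only [commutatorElement_def]; group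
    rw [h2, h1]
  have stepA : ∀ a' ∈ A, ∃ i : ℕ, ∀ e ∈ E, a' * e * a'⁻¹ = a0 ^ i * e * (a0 ^ i)⁻¹ := by
    intro a' ha'
    obtain ⟨φ, hφ, hφc⟩ := perm_setup (hB.to_le hAB) (hcard a0 ha0) hAF
    have hne : φ ⟨a0, ha0⟩ ≠ 1 := by
      intro h
      obtain ⟨x, hx, hx1⟩ := hFne
      apply hx1
      apply fact1 x hx
      have h1 := hφ ⟨a0, ha0⟩ ⟨x, hx⟩
      rw [h] at h1
      have h2 : x = a0 * x * a0⁻¹ := h1
      exact (mul_inv_eq_iff_eq_mul.mp h2.symm)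
    have hc3 : Nat.card φ.range = 3 := by
      rcases hφc with h | h
      · exfalso
        apply hne
        have h1 : φ.range = ⊥ := eq_bot_of_card_eq _ h
        have h2 : φ ⟨a0, ha0⟩ ∈ φ.range := ⟨_, rfl⟩
        rw [h1] at h2
        exact mem_bot.mp h2
      · exact h
    haveI : Fact (Nat.Prime 3) := ⟨Nat.prime_three⟩
    have h4 : (⟨φ ⟨a', ha'⟩, ⟨_, rfl⟩⟩ : φ.range) ∈ zpowers (⟨φ ⟨a0, ha0⟩, ⟨_, rfl⟩⟩ : φ.range) := by
      apply mem_zpowers_of_prime_card hc3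
      intro h
      exact hne (congrArg Subtype.val h)
    obtain ⟨i, hi⟩ := mem_powers_iff_mem_zpowers.mpr h4
    have hi' : φ ⟨a0, ha0⟩ ^ i = φ ⟨a', ha'⟩ := congrArg Subtype.val hi
    refine ⟨i, ?_⟩
    -- a'' = a0^{-i} a'
    obtain ⟨a'', ha''⟩ : ∃ a'', a'' = (a0 ^ i)⁻¹ * a' := ⟨_, rfl⟩
    have ha''A : a'' ∈ A := by rw [ha'']; exact mul_mem (inv_mem (pow_mem ha0 i)) ha'
    have hcF : ∀ f ∈ Fs E a0, a'' * f = f * a'' := by
      intro f hf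
      have h5 : φ (⟨a0, ha0⟩ ^ i) ⟨f, hf⟩ = φ ⟨a', ha'⟩ ⟨f, hf⟩ := by rw [map_pow, hi']
      have h6 := congrArg (Subtype.val) h5
      rw [hφ, hφ] at h6
      push_cast at h6
      have h7 : a' * f = a0 ^ i * f * (a0 ^ i)⁻¹ * a' := by
        have h8 : a0 ^ i * f * (a0 ^ i)⁻¹ = a' * f * a'⁻¹ := h6
        rw [h8]; group
      rw [ha'', mul_assoc, h7]; group
    have hcE' : ∀ e ∈ E, a'' * e = e * a'' := by
      by_contra hno
      push Not at hno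
      obtain ⟨e, he, hee⟩ := hno
      obtain ⟨g, hg, hge⟩ := fact2 _ ⟨e, he, rfl⟩
      -- c = g e commutes with a0
      have hgE := hFE g hg
      obtain ⟨c, hc⟩ : ∃ c, c = g * e := ⟨_, rfl⟩
      have hcmem : c ∈ E := by rw [hc]; exact mul_mem hgE he
      have hca0 : a0 * c = c * a0 := by
        apply commutatorElement_eq_one_iff_mul_comm.mp
        rw [hc, comm_mul hEc (hAE a0 ha0) hgE he, ← hge]
        exact hE2 _ (hcE a0 ha0 _ he)
      have hcn : a'' * c ≠ c * a'' := by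
        intro h
        apply hee
        have h8 : e = g * c := by rw [hc, ← mul_assoc, hE2 g hgE, one_mul]
        rw [h8, ← mul_assoc, hcF g hg, mul_assoc, h, mul_assoc]
      have h00 : a0 * a'' = a'' * a0 := hAc _ ha0 _ ha''A
      have h9 : Fs E a0 ⊂ Fs E (a0 * a'') := by
        refine ⟨?_, ?_⟩
        · intro f hf
          obtain ⟨g', hg', hfg'⟩ := fact2 f hf
          refine ⟨g', hFE g' hg', ?_⟩
          rw [hfg', commutatorElement_def, commutatorElement_def]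
          have : a0 * a'' * g' * (a0 * a'')⁻¹ * g'⁻¹ = a0 * (a'' * g') * a''⁻¹ * a0⁻¹ * g'⁻¹ := by group
          rw [this, hcF g' hg']; group
        · intro hsub
          have h10 : ⁅a0 * a'', c⁆ ∈ Fs E a0 := hsub ⟨c, hcmem, rfl⟩
          have h11 : ⁅a0 * a'', c⁆ = ⁅a'', c⁆ := by
            rw [h00, commutatorElement_def, commutatorElement_def]
            have : a'' * a0 * c * (a'' * a0)⁻¹ * c⁻¹ = a'' * (a0 * c) * a0⁻¹ * a''⁻¹ * c⁻¹ := by group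
            rw [this, hca0]; group
          rw [h11] at h10
          apply hcn
          apply commutatorElement_eq_one_iff_mul_comm.mp
          apply fact1 _ h10
          rw [commutatorElement_def]
          have i1 : Commute a0 a'' := h00
          have i2 : Commute a0 c := hca0
          exact (((i1.mul_right i2).mul_right i1.inv_right).mul_right i2.inv_right).eq
      have h12 := Set.ncard_lt_ncard h9 (Set.toFinite _)
      have h13 := hmax' (a0 * a'') (mul_mem ha0 ha''A)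
      omega
    intro e he
    have h14 : a' = a0 ^ i * a'' := by rw [ha'', mul_inv_cancel_left]
    rw [h14]
    have : a0 ^ i * a'' * e * (a0 ^ i * a'')⁻¹ = a0 ^ i * (a'' * e) * a''⁻¹ * (a0 ^ i)⁻¹ := by group
    rw [this, hcE' e he]; group
  have hpowF : ∀ i : ℕ, ∀ e ∈ E, a0 ^ i * e * (a0 ^ i)⁻¹ * e⁻¹ ∈ Fs E a0 := by
    intro i
    induction i with
    | zero =>
      intro e he
      rw [pow_zero, one_mul, inv_one, mul_one, mul_inv_cancel]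
      exact hF1
    | succ i ih =>
      intro e he
      have h1 : a0 ^ (i + 1) * e * (a0 ^ (i + 1))⁻¹ * e⁻¹ =
          (a0 ^ i * (a0 * e * a0⁻¹) * (a0 ^ i)⁻¹ * (a0 * e * a0⁻¹)⁻¹) * ⁅a0, e⁆ := by
        rw [commutatorElement_def, pow_succ]; group
      rw [h1]
      exact hFmul _ (ih _ (hAE a0 ha0 e he)) _ ⟨e, he, rfl⟩
  have hBF : ∀ b ∈ B, ∀ x ∈ Fs E a0, b * x * b⁻¹ ∈ Fs E a0 := by
    rintro b hb _ ⟨e, he, rfl⟩
    obtain ⟨i, hi⟩ := stepA _ (hAn b hb a0 ha0)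
    have h1 : b * ⁅a0, e⁆ * b⁻¹ =
        (b * a0 * b⁻¹) * (b * e * b⁻¹) * (b * a0 * b⁻¹)⁻¹ * (b * e * b⁻¹)⁻¹ := by
      rw [commutatorElement_def]; group
    rw [h1, hi _ (hBE b hb e he)]
    exact hpowF i _ (hBE b hb e he)
  obtain ⟨φ, hφ, hφc⟩ := perm_setup hB (hcard a0 ha0) hBF
  have hcyc : IsCyclic φ.range := by
    rcases hφc with h | h
    · haveI : Subsingleton φ.range := (Nat.card_eq_one_iff_unique.mp h).1
      exact isCyclic_of_subsingleton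
    · haveI : Fact (Nat.Prime 3) := ⟨Nat.prime_three⟩
      exact isCyclic_of_prime_card h
  have hcomm : ∀ b b' : B, φ b * φ b' = φ b' * φ b := by
    intro b b'
    have h1 := hcyc.isMulCommutative.is_comm.comm (⟨φ b, ⟨_, rfl⟩⟩ : φ.range) ⟨φ b', ⟨_, rfl⟩⟩
    exact congrArg Subtype.val h1
  have hle : ⁅B, B⁆ ≤ centralizer (Fs E a0) := by
    rw [commutator_le]
    intro b hb b' hb'
    rw [mem_centralizer_iff]
    intro f hf
    have h1 : φ ⁅(⟨b, hb⟩ : B), ⟨b', hb'⟩⁆ = 1 := by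
      rw [map_commutatorElement, commutatorElement_eq_one_iff_mul_comm]
      exact hcomm _ _
    have h2 := hφ ⁅(⟨b, hb⟩ : B), ⟨b', hb'⟩⁆ ⟨f, hf⟩
    rw [h1] at h2
    have h3 : f = ⁅b, b'⁆ * f * ⁅b, b'⁆⁻¹ := h2
    exact (eq_mul_inv_iff_mul_eq.mp h3)
  obtain ⟨x, hx, hx1⟩ := hFne
  apply hx1
  apply fact1 x hx
  exact (mem_centralizer_iff.mp (hle (hAcomm ha0)) x hx).symm

end Cfsg.Agent.H23.DL
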