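import Cfsg.Agent.H23.DLen1

set_option autoImplicit false
set_option linter.all false

/-!
# `p`-length and derived length, II: quadratic action in characteristic 3, seat helper23
-/

namespace Cfsg.Agent.H23.DL

open Subgroup
open scoped commutatorElement

/-- Quadratic identity. -/
theorem quad_comm {N R : Type*} [Group N] [Ring R] (σ : N →* R) {a g : N} (hq : (σ a - 1) * (σ a - 1) = 0) :
    Commute (σ ⁅a, g⁆ + σ ⁅a, g⁆⁻¹) (σ a) := by
  obtain ⟨x, hx⟩ : ∃ x, x = σ a := ⟨_, rfl⟩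
  obtain ⟨x', hx'⟩ : ∃ x', x' = σ a⁻¹ := ⟨_, rfl⟩
  obtain ⟨y, hy⟩ : ∃ y, y = σ (g * a * g⁻¹) := ⟨_, rfl⟩
  obtain ⟨y', hy'⟩ : ∃ y', y' = σ (g * a * g⁻¹)⁻¹ := ⟨_, rfl⟩
  have e1 : ⁅a, g⁆ = a * (g * a * g⁻¹)⁻¹ := by rw [commutatorElement_def]; group
  have e2 : ⁅a, g⁆⁻¹ = (g * a * g⁻¹) * a⁻¹ := by rw [commutatorElement_def]; group
  have hxx' : x * x' = 1 := by rw [hx, hx', ← map_mul, mul_inv_cancel, map_one]
  have hyy' : y * y' = 1 := by rw [hy, hy', ← map_mul, mul_inv_cancel, map_one]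
  have hq1 : (x - 1) * (x - 1) = 0 := by rw [hx]; exact hq
  have hq2 : (y - 1) * (y - 1) = 0 := by
    have h1 : y - 1 = σ g * (x - 1) * σ g⁻¹ := by
      rw [mul_sub, sub_mul, mul_one, hy, hx, map_mul, map_mul, ← map_mul σ g g⁻¹, mul_inv_cancel, map_one]
    rw [h1]
    calc σ g * (x - 1) * σ g⁻¹ * (σ g * (x - 1) * σ g⁻¹) = σ g * (x - 1) * (σ g⁻¹ * σ g) * (x - 1) * σ g⁻¹ := by
          noncomm_ring
      _ = σ g * ((x - 1) * (x - 1)) * σ g⁻¹ := by
          rw [← map_mul σ g⁻¹ g, inv_mul_cancel, map_one]; noncomm_ring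
      _ = 0 := by rw [hq1]; noncomm_ring
  -- inverses
  have hx2 : x * (2 - x) = 1 := by
    have : x * (2 - x) = 1 - (x - 1) * (x - 1) := by noncomm_ring
    rw [this, hq1, sub_zero]
  have hy2 : y * (2 - y) = 1 := by
    have : y * (2 - y) = 1 - (y - 1) * (y - 1) := by noncomm_ring
    rw [this, hq2, sub_zero]
  have hx'x : x' * x = 1 := by rw [hx, hx', ← map_mul, inv_mul_cancel, map_one]
  have hy'y : y' * y = 1 := by rw [hy, hy', ← map_mul, inv_mul_cancel, map_one]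
  have hx'2 : x' = 2 - x := by
    calc x' = x' * (x * (2 - x)) := by rw [hx2, mul_one]
      _ = (x' * x) * (2 - x) := by rw [mul_assoc]
      _ = 2 - x := by rw [hx'x, one_mul]
  have hy'2 : y' = 2 - y := by
    calc y' = y' * (y * (2 - y)) := by rw [hy2, mul_one]
      _ = (y' * y) * (2 - y) := by rw [mul_assoc]
      _ = 2 - y := by rw [hy'y, one_mul]
  rw [e2, e1, map_mul, map_mul, ← hx, ← hx', ← hy, ← hy', hx'2, hy'2]
  have hxx : x * x = 2 * x - 1 := by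
    have : x * x = (x - 1) * (x - 1) + 2 * x - 1 := by noncomm_ring
    rw [this, hq1, zero_add]
  show (x * (2 - y) + y * (2 - x)) * x = x * (x * (2 - y) + y * (2 - x))
  have l : (x * (2 - y) + y * (2 - x)) * x = 2 * (x * x) + 2 * (y * x) - x * y * x - y * (x * x) := by
    noncomm_ring
  have r : x * (x * (2 - y) + y * (2 - x)) = 2 * (x * x) - (x * x) * y + 2 * (x * y) - x * y * x := by
    noncomm_ring
  rw [l, r, hxx]
  noncomm_ring

theorem FL {N R : Type*} [Group N] [Finite N] [Ring R] [Nontrivial R] (h3 : (3 : R) = 0) (σ : N →* R)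
    {A B C : Subgroup N} (hB : IsPGroup 3 B) (hAB : A ≤ B) (hBC : ∀ b ∈ B, ∀ c ∈ C, b * c * b⁻¹ ∈ C)
    (hA3 : ∀ a ∈ A, a ^ 3 = 1) (hAc : ∀ a ∈ A, ∀ a' ∈ A, a * a' = a' * a)
    (hAn : ∀ b ∈ B, ∀ a ∈ A, b * a * b⁻¹ ∈ A) (hAcomm : A ≤ ⁅B, B⁆)
    (hq : ∀ a ∈ A, (σ a - 1) * (σ a - 1) = 0)
    (hcc : ∀ c ∈ C, ∀ d ∈ C, σ ⁅c, d⁆ = 1 ∨ σ ⁅c, d⁆ = -1)
    (hsq : ∀ a ∈ A, ∀ c ∈ C, σ (⁅a, c⁆ * ⁅a, c⁆) = 1 ∨ σ (⁅a, c⁆ * ⁅a, c⁆) = -1) :
    ∀ a ∈ A, ∀ c ∈ C, σ ⁅a, c⁆ = 1 := by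
  classical
  have h12 : (1 : R) ≠ -1 := by
    intro h
    have h4 : (2 : R) = 0 := by
      have : (1 : R) + 1 = 0 := by nth_rewrite 1 [h]; exact neg_add_cancel 1
      rw [← this]; norm_num
    have : (1 : R) = 0 := by
      have h5 : (1 : R) = 3 - 2 := by norm_num
      rw [h5, h3, h4, sub_zero]
    exact one_ne_zero this
  have hinv1 : ∀ n : N, σ n * σ n⁻¹ = 1 := fun n => by rw [← map_mul, mul_inv_cancel, map_one]
  have hinv2 : ∀ n : N, σ n⁻¹ * σ n = 1 := fun n => by rw [← map_mul, inv_mul_cancel, map_one]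
  obtain ⟨S, hS⟩ : ∃ S : Subgroup N, ∀ n, n ∈ S ↔ σ n = 1 ∨ σ n = -1 :=
    ⟨{ carrier := {n | σ n = 1 ∨ σ n = -1}
       one_mem' := Or.inl (map_one σ)
       mul_mem' := by
         rintro a b (ha | ha) (hb | hb)
         · left; rw [map_mul, ha, hb, mul_one]
         · right; rw [map_mul, ha, hb, one_mul]
         · right; rw [map_mul, ha, hb, mul_one]
         · left; rw [map_mul, ha, hb, neg_mul_neg, one_mul]
       inv_mem' := by
         rintro a (ha | ha)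
         · left
           have := hinv1 a
           rwa [ha, one_mul] at this
         · right
           have := hinv1 a
           rw [ha, neg_mul, one_mul] at this
           rw [← this, neg_neg] }, fun n => Iff.rfl⟩
  haveI hSn : S.Normal := by
    refine ⟨fun n hn g => ?_⟩
    rw [hS] at hn ⊢
    rcases hn with h | h
    · left; rw [map_mul, map_mul, h, mul_one, hinv1]
    · right; rw [map_mul, map_mul, h, mul_neg, mul_one, neg_mul, hinv1]
  obtain ⟨π, hπ⟩ : ∃ π : N →* N ⧸ S, π = QuotientGroup.mk' S := ⟨_, rfl⟩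
  have hπ1 : ∀ n, π n = 1 ↔ σ n = 1 ∨ σ n = -1 := by
    intro n
    rw [← hS, hπ]
    exact QuotientGroup.eq_one_iff n
  have hCc : ∀ c ∈ C, ∀ d ∈ C, π c * π d = π d * π c := by
    intro c hc d hd
    rw [← commutatorElement_eq_one_iff_mul_comm, ← map_commutatorElement, hπ1]
    exact hcc c hc d hd
  obtain ⟨E, hE⟩ : ∃ E : Subgroup (N ⧸ S), ∀ x, x ∈ E ↔ x * x = 1 ∧ ∃ c ∈ C, π c = x :=
    ⟨{ carrier := {x | x * x = 1 ∧ ∃ c ∈ C, π c = x}
       one_mem' := ⟨one_mul 1, 1, one_mem _, map_one π⟩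
       mul_mem' := by
         rintro _ _ ⟨h1, c, hc, rfl⟩ ⟨h2, d, hd, rfl⟩
         refine ⟨?_, c * d, mul_mem hc hd, map_mul π c d⟩
         calc π c * π d * (π c * π d) = π c * (π d * π c) * π d := by group
           _ = π c * (π c * π d) * π d := by rw [hCc c hc d hd]
           _ = (π c * π c) * (π d * π d) := by group
           _ = 1 := by rw [h1, h2, one_mul]
       inv_mem' := by
         rintro _ ⟨h1, c, hc, rfl⟩
         exact ⟨by rw [← mul_inv_rev, h1, inv_one], c⁻¹, inv_mem hc, map_inv π c⟩ }, fun n => Iff.rfl⟩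
  have hcom : ∀ a ∈ A, ∀ c ∈ C, ⁅a, c⁆ ∈ C := by
    intro a ha c hc
    rw [commutatorElement_def]
    exact mul_mem (hBC a (hAB ha) c hc) (inv_mem hc)
  have hcomE : ∀ a ∈ A, ∀ c ∈ C, ⁅π a, π c⁆ ∈ E := by
    intro a ha c hc
    rw [← map_commutatorElement, hE]
    refine ⟨?_, ⁅a, c⁆, hcom a ha c hc, rfl⟩
    rw [← map_mul, hπ1]
    exact hsq a ha c hc
  have hE2 : ∀ e ∈ E, e * e = 1 := fun e he => ((hE e).mp he).1
  have hEc : ∀ e ∈ E, ∀ f ∈ E, e * f = f * e := by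
    intro e he f hf
    obtain ⟨-, c, hc, rfl⟩ := (hE e).mp he
    obtain ⟨-, d, hd, rfl⟩ := (hE f).mp hf
    exact hCc c hc d hd
  have hBE : ∀ b ∈ B.map π, ∀ e ∈ E, b * e * b⁻¹ ∈ E := by
    rintro _ ⟨b, hb, rfl⟩ e he
    obtain ⟨h1, c, hc, rfl⟩ := (hE e).mp he
    rw [hE]
    refine ⟨?_, b * c * b⁻¹, hBC b hb c hc, by rw [map_mul, map_mul, map_inv]⟩
    calc π b * π c * (π b)⁻¹ * (π b * π c * (π b)⁻¹) = π b * (π c * π c) * (π b)⁻¹ := by group
      _ = 1 := by rw [h1, mul_one, mul_inv_cancel]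
  have hA3' : ∀ a ∈ A.map π, a ^ 3 = 1 := by
    rintro _ ⟨a, ha, rfl⟩
    rw [← map_pow, hA3 a ha, map_one]
  -- (P1)
  have P1 : ∀ a ∈ A, ∀ n : N, π n ∈ Fs E (π a) → π n ≠ 1 → σ n * σ n = -1 := by
    rintro a ha n ⟨e, he, hne⟩ hn1
    obtain ⟨-, c, hc, rfl⟩ := (hE e).mp he
    -- h = ⁅a, c⁆
    have hh := hsq a ha c hc
    have h1 : π ⁅a, c⁆ = π n := by rw [map_commutatorElement, hne]
    have h2 : σ ⁅a, c⁆ * σ ⁅a, c⁆ = -1 := by
      rcases hh with hh | hh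
      · exfalso
        apply hn1
        rw [map_mul] at hh
        have h4 : σ ⁅a, c⁆⁻¹ = σ ⁅a, c⁆ := by
          calc σ ⁅a, c⁆⁻¹ = σ ⁅a, c⁆⁻¹ * (σ ⁅a, c⁆ * σ ⁅a, c⁆) := by rw [hh, mul_one]
            _ = (σ ⁅a, c⁆⁻¹ * σ ⁅a, c⁆) * σ ⁅a, c⁆ := by rw [mul_assoc]
            _ = σ ⁅a, c⁆ := by rw [hinv2, one_mul]
        have h5 := quad_comm σ (g := c) (hq a ha)
        rw [h4] at h5
        have h6 : Commute (σ ⁅a, c⁆) (σ a) := by
          have h7 : (σ ⁅a, c⁆ + σ ⁅a, c⁆) * σ a = σ a * (σ ⁅a, c⁆ + σ ⁅a, c⁆) := h5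
          have h8 : ∀ x : R, x = -(x + x) := by
            intro x
            have : x = 3 * x - (x + x) := by noncomm_ring
            rw [this, h3, zero_mul, zero_sub]
            congr 1
            rw [← sub_eq_zero]
            have h9 : x + x - (-(x + x) + -(x + x)) = 3 * (x + x) := by noncomm_ring
            rw [h9, h3, zero_mul]
          show σ ⁅a, c⁆ * σ a = σ a * σ ⁅a, c⁆
          rw [h8 (σ ⁅a, c⁆), neg_mul, mul_neg, h7]
        have h7 : π a * ⁅π a, π c⁆ = ⁅π a, π c⁆ * π a := by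
          rw [← map_commutatorElement, ← commutatorElement_eq_one_iff_mul_comm, ← map_commutatorElement, hπ1]
          left
          rw [commutatorElement_def a, map_mul, map_mul, map_mul, ← h6.eq, mul_assoc (σ ⁅a, c⁆), hinv1, mul_one,
            hinv1]
        have h8 := tri' (hA3' _ ⟨a, ha, rfl⟩) h7 (hE2 _ (hcomE a ha c hc))
        rw [← h1, map_commutatorElement, h8]
      · rw [← map_mul]; exact hh
    have h4 : π (⁅a, c⁆⁻¹ * n) = 1 := by rw [map_mul, map_inv, h1, inv_mul_cancel]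
    have h5 : σ n = σ ⁅a, c⁆ * σ (⁅a, c⁆⁻¹ * n) := by rw [← map_mul, mul_inv_cancel_left]
    rcases (hπ1 _).mp h4 with h6 | h6
    · rw [h5, h6, mul_one, h2]
    · rw [h5, h6, mul_neg, mul_one, neg_mul_neg, h2]
  have hAE' : ∀ a ∈ A, ∀ e ∈ E, π a * e * (π a)⁻¹ ∈ E := fun a ha => hBE _ ⟨a, hAB ha, rfl⟩
  have hFmul : ∀ a ∈ A, ∀ f ∈ Fs E (π a), ∀ g ∈ Fs E (π a), f * g ∈ Fs E (π a) := by
    rintro a ha _ ⟨e, he, rfl⟩ _ ⟨f, hf, rfl⟩
    exact ⟨e * f, mul_mem he hf, (comm_mul hEc (hAE' a ha) he hf).symm⟩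
  have hFE : ∀ a ∈ A, ∀ f ∈ Fs E (π a), f ∈ E := by
    rintro a ha _ ⟨e, he, rfl⟩
    obtain ⟨-, c, hc, rfl⟩ := (hE e).mp he
    exact hcomE a ha c hc
  -- (P2)
  have P2 : ∀ a ∈ A, ∀ m n : N, π m ∈ Fs E (π a) → π n ∈ Fs E (π a) → π m ≠ 1 → π n ≠ 1 → π m * π n ≠ 1 →
      σ ⁅m, n⁆ = -1 := by
    intro a ha m n hm hn hm1 hn1 hmn
    have h1 := P1 a ha m hm hm1
    have h2 := P1 a ha n hn hn1
    have h4 := P1 a ha (m * n) (by rw [map_mul]; exact hFmul a ha _ hm _ hn) (by rw [map_mul]; exact hmn)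
    have i1 : σ m⁻¹ = -σ m := by
      calc σ m⁻¹ = -(σ m⁻¹ * (σ m * σ m)) := by rw [h1, mul_neg, mul_one, neg_neg]
        _ = -((σ m⁻¹ * σ m) * σ m) := by rw [mul_assoc]
        _ = -σ m := by rw [hinv2, one_mul]
    have i2 : σ n⁻¹ = -σ n := by
      calc σ n⁻¹ = -(σ n⁻¹ * (σ n * σ n)) := by rw [h2, mul_neg, mul_one, neg_neg]
        _ = -((σ n⁻¹ * σ n) * σ n) := by rw [mul_assoc]
        _ = -σ n := by rw [hinv2, one_mul]
    rw [commutatorElement_def, map_mul, map_mul, map_mul, i1, i2]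
    rw [map_mul] at h4
    rw [← h4]
    noncomm_ring
  have hcard : ∀ a ∈ A.map π, (Fs E a).ncard ≤ 4 := by
    rintro _ ⟨a, ha, rfl⟩
    by_contra hlt
    push Not at hlt
    obtain ⟨r, hr, hr1⟩ := Set.exists_mem_notMem_of_ncard_lt_ncard (s := {(1 : N ⧸ S)}) (t := Fs E (π a))
      (by rw [Set.ncard_singleton]; omega) (Set.toFinite _)
    have hr1' : r ≠ 1 := hr1
    obtain ⟨s, hs, hs1⟩ := Set.exists_mem_notMem_of_ncard_lt_ncard (s := {(1 : N ⧸ S), r}) (t := Fs E (π a))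
      (by
        have := Set.ncard_insert_le (1 : N ⧸ S) {r}
        rw [Set.ncard_singleton] at this
        omega) (Set.toFinite _)
    obtain ⟨t, ht, ht1⟩ := Set.exists_mem_notMem_of_ncard_lt_ncard (s := {(1 : N ⧸ S), r, s, r * s})
      (t := Fs E (π a))
      (by
        have e1 := Set.ncard_insert_le (1 : N ⧸ S) {r, s, r * s}
        have e2 := Set.ncard_insert_le r {s, r * s}
        have e3 := Set.ncard_insert_le s {r * s}
        rw [Set.ncard_singleton] at e3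
        omega) (Set.toFinite _)
    simp only [Set.mem_insert_iff, Set.mem_singleton_iff, not_or] at hs1 ht1
    obtain ⟨hs1, hsr⟩ := hs1
    obtain ⟨ht1, htr, hts, htrs⟩ := ht1
    have hEr := hE2 _ (hFE a ha r hr)
    have hEs := hE2 _ (hFE a ha s hs)
    have inv_r : r⁻¹ = r := inv_eq_of_mul_eq_one_left hEr
    have inv_s : s⁻¹ = s := inv_eq_of_mul_eq_one_left hEs
    have hrs : r * s ≠ 1 := fun h => hsr (by rw [← inv_r]; exact eq_inv_of_mul_eq_one_right h)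
    have hrt : r * t ≠ 1 := fun h => htr (by rw [← inv_r]; exact eq_inv_of_mul_eq_one_right h)
    have hst : s * t ≠ 1 := fun h => hts (by rw [← inv_s]; exact eq_inv_of_mul_eq_one_right h)
    have hrst : r * (s * t) ≠ 1 := by
      intro h
      apply htrs
      have h5 : s * t = r := by rw [← inv_r]; exact eq_inv_of_mul_eq_one_right h
      have h6 : t = s * r := by rw [← h5, ← mul_assoc, hEs, one_mul]
      rw [h6]
      exact hEc _ (hFE a ha s hs) _ (hFE a ha r hr)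
    obtain ⟨m, rfl⟩ : ∃ m, π m = r := by rw [hπ]; exact QuotientGroup.mk'_surjective S r
    obtain ⟨n, rfl⟩ : ∃ m, π m = s := by rw [hπ]; exact QuotientGroup.mk'_surjective S s
    obtain ⟨k, rfl⟩ : ∃ m, π m = t := by rw [hπ]; exact QuotientGroup.mk'_surjective S t
    have q1 := P2 a ha m n hr hs hr1' hs1 hrs
    have q2 := P2 a ha m k hr ht hr1' ht1 hrt
    have q3 := P2 a ha m (n * k) hr (by rw [map_mul]; exact hFmul a ha _ hs _ ht) hr1'
      (by rw [map_mul]; exact hst) (by rw [map_mul]; exact hrst)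
    have q4 : ⁅m, n * k⁆ = ⁅m, n⁆ * (n * ⁅m, k⁆ * n⁻¹) := by
      simp only [commutatorElement_def]; group
    have q5 : σ (n * ⁅m, k⁆ * n⁻¹) = -1 := by
      rw [map_mul, map_mul, q2, mul_neg, mul_one, neg_mul, hinv1]
    rw [q4, map_mul, q1, q5, neg_mul_neg, one_mul] at q3
    exact h12 q3
  have hGT := GT (A := A.map π) (B := B.map π) (E := E) hE2 hEc hBE (hB.map π) (Subgroup.map_mono hAB) hA3'
    (by
      rintro _ ⟨a, ha, rfl⟩ _ ⟨a', ha', rfl⟩
      rw [← map_mul, hAc a ha a' ha', map_mul])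
    (by
      rintro _ ⟨b, hb, rfl⟩ _ ⟨a, ha, rfl⟩
      exact ⟨b * a * b⁻¹, hAn b hb a ha, by rw [map_mul, map_mul, map_inv]⟩)
    (by
      rw [← Subgroup.map_commutator]
      exact Subgroup.map_mono hAcomm) hcard
  intro a ha c hc
  have h4 : π a * ⁅π a, π c⁆ = ⁅π a, π c⁆ * π a := hGT _ ⟨a, ha, rfl⟩ _ (hcomE a ha c hc)
  have h5 := tri' (hA3' _ ⟨a, ha, rfl⟩) h4 (hE2 _ (hcomE a ha c hc))
  rw [← map_commutatorElement, hπ1] at h5
  rcases h5 with h5 | h5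
  · exact h5
  · exfalso
    have h6 := congrArg σ (tri (c := c) (hA3 a ha))
    rw [map_mul, map_mul, map_mul, map_mul, map_mul, map_mul, map_mul, map_mul, map_one, h5] at h6
    have h7 : σ a * σ a * -1 * σ a⁻¹ * σ a⁻¹ * (σ a * -1 * σ a⁻¹) * -1 = -1 := by
      have e1 : σ a * σ a * -1 * σ a⁻¹ * σ a⁻¹ * (σ a * -1 * σ a⁻¹) * -1 =
          -(σ a * (σ a * σ a⁻¹) * σ a⁻¹ * (σ a * σ a⁻¹)) := by noncomm_ring
      rw [e1, hinv1, mul_one, mul_one, hinv1]
    rw [h7] at h6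
    exact h12 h6.symm

end Cfsg.Agent.H23.DL
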