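import Mathlib
import Cfsg.Prelude.Def_Transfer
import Cfsg.Agent.H23.Coprime2
import Cfsg.Agent.H23.PGroup2
import Cfsg.Agent.H23.CycSelf2
import Cfsg.Agent.H23.Transv3
import Cfsg.Agent.H23.MaxCentN
import Cfsg.Agent.S0110
import Cfsg.Agent.H2.Frat
import Cfsg.Agent.H18.FrattiniP

set_option autoImplicit false
set_option linter.all false

/-!
# `p`-groups of symplectic type, seat helper23
-/

namespace Cfsg.Agent.H23.ST

open Subgroup Cfsg
open scoped commutatorElement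

variable {G : Type*} [Group G]

theorem char_of {A : Subgroup G} (h : ∀ φ : G ≃* G, ∀ x ∈ A, φ x ∈ A) : A.Characteristic :=
  characteristic_iff_map_le.mpr (by rintro φ _ ⟨x, hx, rfl⟩; exact h φ x hx)

theorem mem_of_char {A : Subgroup G} (hA : A.Characteristic) (φ : G ≃* G) {x : G} (hx : x ∈ A) : φ x ∈ A :=
  characteristic_iff_map_le.mp hA φ (mem_map_of_mem φ.toMonoidHom hx)

theorem char_inf {A B : Subgroup G} (hA : A.Characteristic) (hB : B.Characteristic) : (A ⊓ B).Characteristic :=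
  char_of fun φ x hx => ⟨mem_of_char hA φ hx.1, mem_of_char hB φ hx.2⟩

theorem cyc_mem [Finite G] {A Z0 : Subgroup G} (hA : IsCyclic A) (hZ : Z0 ≤ A) {a : G} (ha : a ∈ A)
    (h : a ^ Nat.card Z0 = 1) : a ∈ Z0 := by
  classical
  haveI := Fintype.ofFinite A
  have h1 := IsCyclic.card_pow_eq_one_le (α := A) (n := Nat.card Z0) Nat.card_pos
  have h2 : (Finset.univ.filter (fun x : A => (x : G) ∈ Z0)).card = Nat.card Z0 := by
    rw [← Nat.card_congr (subgroupOfEquivOfLe hZ).toEquiv, ← Fintype.card_subtype, ← Nat.card_eq_fintype_card]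
    rfl
  have h3 : Finset.univ.filter (fun x : A => (x : G) ∈ Z0) ⊆
      Finset.univ.filter (fun a : A => a ^ Nat.card Z0 = 1) := by
    intro x hx
    rw [Finset.mem_filter] at hx ⊢
    refine ⟨hx.1, ?_⟩
    have h4 : (⟨(x : G), hx.2⟩ : Z0) ^ Nat.card Z0 = 1 := pow_card_eq_one'
    have h5 := congrArg Subtype.val h4
    exact Subtype.ext h5
  have h4 := Finset.eq_of_subset_of_card_le h3 (by rw [h2]; exact h1)
  have h5 : (⟨a, ha⟩ : A) ∈ Finset.univ.filter (fun a : A => a ^ Nat.card Z0 = 1) := by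
    rw [Finset.mem_filter]
    exact ⟨Finset.mem_univ _, Subtype.ext (by simpa using h)⟩
  rw [← h4, Finset.mem_filter] at h5
  exact h5.2

/-- commuting modulo a normal subgroup -/
theorem comm_mk {W : Subgroup G} [W.Normal] {x y : G} (h : ⁅x, y⁆ ∈ W) :
    Commute (QuotientGroup.mk' W x) (QuotientGroup.mk' W y) := by
  rw [← commutatorElement_eq_one_iff_commute, ← map_commutatorElement]
  exact (QuotientGroup.eq_one_iff _).mpr h

theorem mem_of_comm_mk {W : Subgroup G} [W.Normal] {x y : G}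
    (h : Commute (QuotientGroup.mk' W x) (QuotientGroup.mk' W y)) : ⁅x, y⁆ ∈ W := by
  rw [← commutatorElement_eq_one_iff_commute, ← map_commutatorElement] at h
  exact (QuotientGroup.eq_one_iff _).mp h

theorem mk_one {W : Subgroup G} [W.Normal] {x : G} : QuotientGroup.mk' W x = 1 ↔ x ∈ W :=
  QuotientGroup.eq_one_iff _

theorem pow_mem_iff {W : Subgroup G} [W.Normal] {x y : G}
    (h : Commute (QuotientGroup.mk' W x) (QuotientGroup.mk' W y)) (k : ℕ) :
    (x * y) ^ k ∈ W ↔ x ^ k * y ^ k ∈ W := by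
  rw [← mk_one, ← mk_one, map_pow, map_mul, map_mul, map_pow, map_pow, h.mul_pow]

theorem exists_Y {D W : Subgroup G} [W.Normal]
    (hc : ∀ x ∈ D, ∀ y ∈ D, Commute (QuotientGroup.mk' W x) (QuotientGroup.mk' W y)) (p : ℕ) :
    ∃ Y : Subgroup G, ∀ x, x ∈ Y ↔ x ∈ D ∧ x ^ p ∈ W :=
  ⟨{ carrier := {x | x ∈ D ∧ x ^ p ∈ W}
     mul_mem' := by
       rintro x y ⟨hx, hxp⟩ ⟨hy, hyp⟩
       exact ⟨mul_mem hx hy, (pow_mem_iff (hc x hx y hy) p).mpr (mul_mem hxp hyp)⟩
     one_mem' := ⟨one_mem _, by rw [one_pow]; exact one_mem _⟩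
     inv_mem' := by
       rintro x ⟨hx, hxp⟩
       exact ⟨inv_mem hx, by rw [inv_pow]; exact inv_mem hxp⟩ }, fun x => Iff.rfl⟩

theorem char_Y {D W Y : Subgroup G} {p : ℕ} (hD : D.Characteristic) (hW : W.Characteristic)
    (hY : ∀ x, x ∈ Y ↔ x ∈ D ∧ x ^ p ∈ W) : Y.Characteristic := by
  apply char_of
  intro φ x hx
  obtain ⟨h1, h2⟩ := (hY x).mp hx
  refine (hY _).mpr ⟨mem_of_char hD φ h1, ?_⟩
  rw [← map_pow]
  exact mem_of_char hW φ h2

theorem isExtra_of {E : Type*} [Group E] [Finite E] {p : ℕ} [hp : Fact p.Prime] (hE : IsPGroup p E)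
    (hZ : Nat.card (center E) = p) (h1 : ∀ x y : E, ⁅x, y⁆ ∈ center E) (h2 : ∀ x : E, x ^ p ∈ center E)
    (hne : ¬ ∀ x y : E, x * y = y * x) : Cfsg.IsExtraspecial p E := by
  have hc : commutator E ≤ center E := by
    rw [commutator_def, commutator_le]
    intro x _ y _
    exact h1 x y
  have hc2 : commutator E = center E := by
    have h3 : Nat.card (commutator E) ∣ p := hZ ▸ card_dvd_of_le hc
    rcases (Nat.dvd_prime hp.out).mp h3 with h4 | h4
    · exfalso
      apply hne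
      intro x y
      have h5 : commutator E = ⊥ := eq_bot_of_card_eq _ h4
      have h6 : ⁅x, y⁆ ∈ commutator E := commutator_mem_commutator (mem_top x) (mem_top y)
      rw [h5, mem_bot, commutatorElement_eq_one_iff_mul_comm] at h6
      exact h6
    · exact eq_of_le_of_card_ge hc (by rw [h4, hZ])
  refine ⟨⟨hE, le_antisymm (H18.frattini_le_of_elementary _ hc h2) ?_, hc2⟩, hZ⟩
  rw [← hc2]
  exact H2.commutator_le_frattini hE

theorem comm_pow_one {g x : G} {p : ℕ} (hcy : Commute ⁅g, x⁆ x) (hgx : Commute g (x ^ p)) : ⁅g, x⁆ ^ p = 1 := by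
  obtain ⟨c, hc⟩ : ∃ c, c = ⁅g, x⁆ := ⟨_, rfl⟩
  have h2 : g * x * g⁻¹ = c * x := by rw [hc, commutatorElement_def]; group
  rw [← hc] at hcy ⊢
  have h3 : (g * x * g⁻¹) ^ p = x ^ p := by
    rw [conj_pow, hgx.eq, mul_inv_cancel_right]
  rw [h2, hcy.mul_pow] at h3
  exact mul_eq_right.mp h3

theorem normal_of_comm {W E : Subgroup G} (hWE : W ≤ E) (h : ∀ g : G, ∀ x ∈ E, ⁅g, x⁆ ∈ W) : E.Normal := by
  refine ⟨fun x hx g => ?_⟩
  have : g * x * g⁻¹ = ⁅g, x⁆ * x := by rw [commutatorElement_def]; group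
  rw [this]
  exact mul_mem (hWE (h g x hx)) hx

theorem partB [Finite G] {p : ℕ} [hp : Fact p.Prime] (hG : IsPGroup p G) {W E : Subgroup G}
    (hWc : W ≤ center G) (hWcard : Nat.card W = p) (hWE : W ≤ E) (h1 : ∀ g : G, ∀ x ∈ E, ⁅g, x⁆ ∈ W)
    (h2 : ∀ x ∈ E, x ^ p ∈ W) (h3 : ∀ x ∈ E, (∀ y ∈ E, Commute x y) → x ∈ W) :
    (E = W ∨ IsExtraspecial p E) ∧ E ⊔ centralizer (E : Set G) = ⊤ := by
  by_cases hab : ∀ x ∈ E, ∀ y ∈ E, Commute x y
  · have hEW : E = W := le_antisymm (fun x hx => h3 x hx (hab x hx)) hWE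
    refine ⟨Or.inl hEW, ?_⟩
    rw [eq_top_iff]
    refine le_trans ?_ le_sup_right
    rw [hEW]
    intro g _
    rw [mem_centralizer_iff]
    intro w hw
    exact (mem_center_iff.mp (hWc hw) g).symm
  · have hcen : ∀ x : E, x ∈ center E ↔ (x : G) ∈ W := by
      intro x
      rw [mem_center_iff]
      constructor
      · intro h
        exact h3 x x.2 (fun y hy => (congrArg Subtype.val (h ⟨y, hy⟩)).symm)
      · intro h y
        exact Subtype.ext (mem_center_iff.mp (hWc h) y)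
    have hcen2 : center E = W.subgroupOf E := by
      ext x
      rw [hcen, mem_subgroupOf]
    have hE : IsExtraspecial p E := by
      apply isExtra_of (hG.to_subgroup E)
      · rw [hcen2, Nat.card_congr (subgroupOfEquivOfLe hWE).toEquiv, hWcard]
      · intro x y
        rw [hcen]
        exact h1 x y y.2
      · intro x
        rw [hcen]
        exact h2 x x.2
      · intro h
        apply hab
        intro x hx y hy
        exact congrArg Subtype.val (h ⟨x, hx⟩ ⟨y, hy⟩)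
    refine ⟨Or.inr hE, S0110.result hG E hE ?_⟩
    rw [commutator_le]
    intro g _ x hx
    refine mem_inf.mpr ⟨hWE (h1 g x hx), ?_⟩
    rw [mem_centralizer_iff]
    intro y hy
    exact mem_center_iff.mp (hWc (h1 g x hx)) y

theorem coprime_mem {V : Subgroup G} {p : ℕ} (hp : p.Prime) {k : ℤ} (hk : ¬ (p : ℤ) ∣ k) {x : G}
    (h1 : x ^ k ∈ V) (h2 : x ^ p ∈ V) : x ∈ V := by
  have h3 : IsCoprime (p : ℤ) k := (Nat.prime_iff_prime_int.mp hp).coprime_iff_not_dvd.mpr hk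
  obtain ⟨a, b, hab⟩ := h3
  have : x = (x ^ p) ^ a * (x ^ k) ^ b := by
    rw [← zpow_natCast x p, ← zpow_mul, ← zpow_mul, ← zpow_add, mul_comm (p : ℤ) a, mul_comm k b, hab, zpow_one]
  rw [this]
  exact mul_mem (zpow_mem h2 a) (zpow_mem h1 b)

theorem data [Finite G] [Nontrivial G] {p : ℕ} [hp : Fact p.Prime] (hG : IsPGroup p G)
    (hsymp : ∀ A : Subgroup G, A.Characteristic → IsMulCommutative A → IsCyclic A) :
    ∃ (z : G) (n : ℕ) (W E : Subgroup G), orderOf z = p ^ (n + 1) ∧ (zpowers z).Characteristic ∧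
      W.Characteristic ∧ W ≤ center G ∧ Nat.card W = p ∧ (∀ x, x ∈ W ↔ x ∈ zpowers z ∧ x ^ p = 1) ∧ W ≤ E ∧
      (∀ g : G, ∀ x ∈ E, ⁅g, x⁆ ∈ W) ∧ (∀ x ∈ E, x ^ p ∈ W) ∧
      (∀ x ∈ E, (∀ y ∈ E, Commute x y) → x ∈ W) ∧ (∀ e ∈ E, Commute z e) ∧
      (∀ x, (∀ e ∈ E, Commute x e) → Commute x z → x ∈ zpowers z) := by
  obtain ⟨C, hCch, hC1, hC2, hC3⟩ := exists_critical hG
  haveI := hCch
  have hZch : (centralizer (C : Set G)).Characteristic := inferInstance
  have hZab : IsMulCommutative (centralizer (C : Set G)) :=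
    ⟨⟨fun a b => Subtype.ext ((mem_centralizer_iff.mp a.2 b (hC2 b.2)).symm)⟩⟩
  obtain ⟨g, hg⟩ := (hsymp _ hZch hZab).exists_generator
  have hZg : centralizer (C : Set G) = zpowers (g : G) := by
    apply le_antisymm
    · intro a ha
      obtain ⟨k, hk⟩ := mem_zpowers_iff.mp (hg ⟨a, ha⟩)
      exact mem_zpowers_iff.mpr ⟨k, by have := congrArg Subtype.val hk; simpa using this⟩
    · exact zpowers_le.mpr g.2
  obtain ⟨z, hz⟩ : ∃ z : G, z = (g : G) := ⟨_, rfl⟩
  rw [← hz] at hZg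
  have hZmem : ∀ x, x ∈ zpowers z ↔ ∀ c ∈ C, Commute x c := by
    intro x
    rw [← hZg, mem_centralizer_iff]
    exact ⟨fun h c hc => (h c hc).symm, fun h c hc => (h c hc).symm⟩
  rw [hZg] at hZch hC1 hC2 hC3
  clear hg hz g hZab
  have hzN : (zpowers z).Normal := @normal_of_characteristic _ _ _ hZch
  have hcomm : ∀ g : G, ∀ c ∈ C, ⁅g, c⁆ ∈ zpowers z := fun g c hc =>
    (mem_inf.mp (hC1 (commutator_mem_commutator (mem_top g) hc))).2
  have hzC : z ∈ C := hC2 (mem_zpowers z)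
  -- order of z
  obtain ⟨n, hn⟩ : ∃ n, orderOf z = p ^ (n + 1) := by
    obtain ⟨k, hk⟩ := IsPGroup.iff_orderOf.mp hG z
    rcases k with _ | k
    · exfalso
      rw [pow_zero, orderOf_eq_one_iff] at hk
      haveI := hG.center_nontrivial
      obtain ⟨w, hw⟩ := exists_ne (1 : center G)
      apply hw
      have h2 : (w : G) ∈ zpowers z := (hZmem w).mpr fun c _ => (mem_center_iff.mp w.2 c).symm
      rw [hk, zpowers_one_eq_bot, mem_bot] at h2
      exact Subtype.ext h2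
    · exact ⟨k, hk⟩
  have hcyc : IsCyclic (zpowers z) := inferInstance
  obtain ⟨W, hW⟩ : ∃ W : Subgroup G, W = zpowers (z ^ p ^ n) := ⟨_, rfl⟩
  have how : orderOf (z ^ p ^ n) = p := by
    rw [orderOf_pow_of_dvd (pow_ne_zero _ hp.out.ne_zero) (by rw [hn]; exact pow_dvd_pow p n.le_succ), hn,
      pow_succ, Nat.mul_div_cancel_left _ (pow_pos hp.out.pos n)]
  have hWcard : Nat.card W = p := by rw [hW, Nat.card_zpowers, how]
  have hWmem : ∀ x, x ∈ W ↔ x ∈ zpowers z ∧ x ^ p = 1 := by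
    intro x
    constructor
    · intro hx
      refine ⟨?_, ?_⟩
      · rw [hW] at hx
        exact zpowers_le.mpr (npow_mem_zpowers z _) hx
      · rw [← orderOf_dvd_iff_pow_eq_one, ← hWcard]
        exact Subgroup.orderOf_dvd_natCard W hx
    · rintro ⟨hx, hxp⟩
      apply cyc_mem hcyc _ hx
      · rw [hWcard]; exact hxp
      · rw [hW]; exact zpowers_le.mpr (npow_mem_zpowers z _)
  have hWz : W ≤ zpowers z := fun x hx => ((hWmem x).mp hx).1
  have hWch : W.Characteristic := by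
    apply char_of
    intro φ x hx
    obtain ⟨h1, h2⟩ := (hWmem x).mp hx
    exact (hWmem _).mpr ⟨mem_of_char hZch φ h1, by rw [← map_pow, h2, map_one]⟩
  haveI hWn : W.Normal := @normal_of_characteristic _ _ _ hWch
  have hWc : W ≤ center G := le_center_of_card_le hG (by rw [hWcard])
  have hWcom : ∀ w ∈ W, ∀ g : G, Commute g w := fun w hw g => mem_center_iff.mp (hWc hw) g
  have hCW : ∀ x ∈ C, ∀ y ∈ C, ⁅x, y⁆ ∈ W := by
    intro x hx y hy
    refine (hWmem _).mpr ⟨hcomm x y hy, comm_pow_one ?_ ?_⟩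
    · exact (hZmem _).mp (hcomm x y hy) y hy
    · exact ((hZmem _).mp (hC3 y hy) x hx).symm
  obtain ⟨Y, hY⟩ := exists_Y (D := C) (W := W) (fun x hx y hy => comm_mk (hCW x hx y hy)) p
  have hYch := char_Y hCch hWch hY
  have hYW : ∀ g : G, ∀ x ∈ Y, ⁅g, x⁆ ∈ W := by
    intro g x hx
    obtain ⟨h1, h2⟩ := (hY x).mp hx
    exact (hWmem _).mpr ⟨hcomm g x h1, comm_pow_one ((hZmem _).mp (hcomm g x h1) x h1) (hWcom _ h2 g)⟩
  have hWY : W ≤ Y := fun w hw => (hY w).mpr ⟨hC2 (hWz hw), pow_mem hw p⟩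
  obtain ⟨T, hT⟩ : ∃ T : Subgroup G, T = Y ⊓ centralizer (Y : Set G) := ⟨_, rfl⟩
  have hTmem : ∀ x, x ∈ T ↔ x ∈ Y ∧ ∀ y ∈ Y, Commute x y := by
    intro x
    rw [hT, mem_inf, mem_centralizer_iff]
    exact ⟨fun h => ⟨h.1, fun c hc => (h.2 c hc).symm⟩, fun h => ⟨h.1, fun c hc => (h.2 c hc).symm⟩⟩
  have hTch : T.Characteristic := by
    rw [hT]
    haveI := hYch
    exact char_inf hYch inferInstance
  haveI hTn : T.Normal := @normal_of_characteristic _ _ _ hTch
  have hTcyc : IsCyclic T := hsymp T hTch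
    ⟨⟨fun a b => Subtype.ext (((hTmem _).mp a.2).2 b ((hTmem _).mp b.2).1)⟩⟩
  have hTz : T ≤ zpowers z := by
    intro x hx
    obtain ⟨hx1, hx2⟩ := (hTmem x).mp hx
    rcases n with _ | m
    · rw [hZmem]
      intro c hc
      apply hx2
      refine (hY c).mpr ⟨hc, (hWmem _).mpr ⟨hC3 c hc, ?_⟩⟩
      have h3 : orderOf (c ^ p) ∣ p ^ 1 := by
        have h4 := Subgroup.orderOf_dvd_natCard (zpowers z) (hC3 c hc)
        rwa [Nat.card_zpowers, hn] at h4
      rw [pow_one] at h3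
      exact orderOf_dvd_iff_pow_eq_one.mp h3
    · have hov : orderOf (z ^ p ^ m) = p ^ 2 := by
        rw [orderOf_pow_of_dvd (pow_ne_zero _ hp.out.ne_zero) (by rw [hn]; exact pow_dvd_pow p (by omega)), hn,
          show m + 1 + 1 = m + 2 from rfl, pow_add, Nat.mul_div_cancel_left _ (pow_pos hp.out.pos m)]
      have hvz : z ^ p ^ m ∈ zpowers z := npow_mem_zpowers z _
      have hvT : z ^ p ^ m ∈ T := by
        refine (hTmem _).mpr ⟨(hY _).mpr ⟨hC2 hvz, (hWmem _).mpr ⟨pow_mem hvz p, ?_⟩⟩, ?_⟩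
        · rw [← pow_mul, ← pow_two, ← hov, pow_orderOf_eq_one]
        · intro y hy
          exact (hZmem _).mp hvz y ((hY y).mp hy).1
      have h5 : x ∈ zpowers (z ^ p ^ m) := by
        apply cyc_mem hTcyc (zpowers_le.mpr hvT) hx
        rw [Nat.card_zpowers, hov, pow_two, pow_mul]
        exact ((hWmem _).mp ((hY x).mp hx1).2).2
      exact zpowers_le.mpr hvz h5
  -- the subgroup E
  obtain ⟨E, -, hEmax⟩ := Set.Finite.exists_le_maximal
    (s := {E : Subgroup G | W ≤ E ∧ E ≤ Y ∧ E ⊓ T ≤ W}) (Set.toFinite _)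
    (show W ∈ _ from ⟨le_rfl, hWY, inf_le_left⟩)
  obtain ⟨⟨hWE, hEY, hET⟩, hEmax⟩ := hEmax
  have hEW : ∀ g : G, ∀ x ∈ E, ⁅g, x⁆ ∈ W := fun g x hx => hYW g x (hEY hx)
  haveI hEn : E.Normal := normal_of_comm hWE hEW
  have hYE : ∀ x ∈ Y, ∃ e ∈ E, ∃ t ∈ T, e * t = x := by
    intro x hx
    rw [← mem_sup_of_normal_left]
    by_contra hxE
    have h1 : E ⊔ zpowers x ∈ {E : Subgroup G | W ≤ E ∧ E ≤ Y ∧ E ⊓ T ≤ W} := by
      refine ⟨hWE.trans le_sup_left, sup_le hEY (zpowers_le.mpr hx), ?_⟩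
      intro w hw
      obtain ⟨hw1, hw2⟩ := mem_inf.mp hw
      obtain ⟨e, he, f, hf, hef⟩ := mem_sup_of_normal_left.mp hw1
      obtain ⟨k, rfl⟩ := mem_zpowers_iff.mp hf
      by_cases hk : (p : ℤ) ∣ k
      · obtain ⟨j, rfl⟩ := hk
        apply hET
        refine mem_inf.mpr ⟨?_, hw2⟩
        rw [← hef, zpow_mul, zpow_natCast]
        exact mul_mem he (zpow_mem (hWE ((hY x).mp hx).2) j)
      · exfalso
        apply hxE
        apply coprime_mem hp.out hk
        · have : x ^ k = e⁻¹ * w := by rw [← hef, inv_mul_cancel_left]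
          rw [this]
          exact mul_mem (inv_mem (mem_sup_left he)) (mem_sup_right hw2)
        · exact mem_sup_left (hWE ((hY x).mp hx).2)
    have h2 := hEmax h1 le_sup_left
    exact hxE (mem_sup_left (h2 (mem_sup_right (mem_zpowers x))))
  have hcen : ∀ x ∈ E, (∀ y ∈ E, Commute x y) → x ∈ W := by
    intro x hx hxE
    apply hET
    refine mem_inf.mpr ⟨hx, (hTmem x).mpr ⟨hEY hx, ?_⟩⟩
    intro y hy
    obtain ⟨e, he, t, ht, rfl⟩ := hYE y hy
    exact (hxE e he).mul_right (((hTmem t).mp ht).2 x (hEY hx)).symm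
  have hYR : ∀ x ∈ Y, (∀ e ∈ E, Commute x e) → x ∈ zpowers z := by
    intro x hx hxE
    apply hTz
    refine (hTmem x).mpr ⟨hx, ?_⟩
    intro y hy
    obtain ⟨e, he, t, ht, rfl⟩ := hYE y hy
    exact (hxE e he).mul_right (((hTmem t).mp ht).2 x hx).symm
  have hEp : ∀ x ∈ E, x ^ p ∈ W := fun x hx => ((hY x).mp (hEY hx)).2
  obtain ⟨-, hEtop⟩ := partB hG hWc hWcard hWE hEW hEp hcen
  have hEC : E ≤ C := fun x hx => ((hY x).mp (hEY hx)).1
  have hfac : ∀ c ∈ C, ∃ e ∈ E, ∃ r ∈ C, (∀ e ∈ E, Commute r e) ∧ e * r = c := by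
    intro c hc
    obtain ⟨e, he, r, hr, rfl⟩ := mem_sup_of_normal_left.mp (show c ∈ E ⊔ centralizer (E : Set G) by
      rw [hEtop]; exact mem_top c)
    refine ⟨e, he, r, ?_, fun e' he' => (mem_centralizer_iff.mp hr e' he').symm, rfl⟩
    have := mul_mem (inv_mem (hEC he)) hc
    rwa [inv_mul_cancel_left] at this
  have hzE : ∀ e ∈ E, Commute z e := fun e he => (hZmem z).mp (mem_zpowers z) e (hEC he)
  have hCz : ∀ c ∈ C, Commute c z := fun c hc => ((hZmem z).mp (mem_zpowers z) c hc).symm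
  have hD : ∀ x ∈ C, (∀ e ∈ E, Commute x e) → x ∈ zpowers z := by
    intro x hx hxE
    by_contra hxz
    obtain ⟨k, hk⟩ := mem_zpowers_iff.mp (hC3 x hx)
    have hkp : ¬ (p : ℤ) ∣ k := by
      rintro ⟨j, rfl⟩
      apply hxz
      have hcj : Commute x ((z ^ j)⁻¹) := ((hCz x hx).zpow_right j).inv_right
      have h1 : x * (z ^ j)⁻¹ ∈ zpowers z := by
        apply hYR
        · refine (hY _).mpr ⟨mul_mem hx (inv_mem (zpow_mem hzC j)), ?_⟩
          rw [hcj.mul_pow, ← hk, inv_pow, ← zpow_natCast (z ^ j) p, ← zpow_mul, mul_comm j, mul_inv_cancel]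
          exact one_mem _
        · intro e he
          exact (hxE e he).mul_left ((hzE e he).zpow_left j).inv_left
      have := mul_mem h1 (zpow_mem (mem_zpowers z) j)
      rwa [inv_mul_cancel_right] at this
    have hzx : z ∈ zpowers (x ^ p) := by
      have h1 : z ^ k ∈ zpowers (x ^ p) := by rw [hk]; exact mem_zpowers _
      have h2 : IsCoprime ((p ^ (n + 1) : ℕ) : ℤ) k := by
        push_cast
        exact ((Nat.prime_iff_prime_int.mp hp.out).coprime_iff_not_dvd.mpr hkp).pow_left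
      obtain ⟨a, b, hab⟩ := h2
      have h3 : z = (z ^ k) ^ b := by
        have h4 : z ^ (a * ((p ^ (n + 1) : ℕ) : ℤ)) = 1 := by
          rw [mul_comm, zpow_mul, zpow_natCast, ← hn, pow_orderOf_eq_one, one_zpow]
        calc z = z ^ (a * ((p ^ (n + 1) : ℕ) : ℤ) + b * k) := by rw [hab, zpow_one]
          _ = (z ^ k) ^ b := by rw [zpow_add, h4, one_mul, ← zpow_mul, mul_comm k b]
      rw [h3]
      exact zpow_mem h1 b
    have hcl : ∀ y ∈ C, (∀ e ∈ E, Commute y e) → Commute x y := by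
      intro y hy hyE
      have h1 : y ^ p ∈ zpowers (x ^ p) := zpowers_le.mpr hzx (hC3 y hy)
      obtain ⟨m, hm⟩ := mem_zpowers_iff.mp h1
      have h2 : y * (x ^ m)⁻¹ ∈ zpowers z := by
        apply hYR
        · refine (hY _).mpr ⟨mul_mem hy (inv_mem (zpow_mem hx m)), ?_⟩
          rw [pow_mem_iff (comm_mk (hCW _ hy _ (inv_mem (zpow_mem hx m)))), ← hm, inv_pow,
            ← zpow_natCast (x ^ m) p, ← zpow_mul, mul_comm m, zpow_mul, zpow_natCast, mul_inv_cancel]
          exact one_mem _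
        · intro e he
          exact (hyE e he).mul_left ((hxE e he).zpow_left m).inv_left
      have h3 : Commute x (y * (x ^ m)⁻¹) := ((hZmem _).mp h2 x hx).symm
      have h4 := h3.mul_right ((Commute.refl x).zpow_right m)
      rwa [inv_mul_cancel_right] at h4
    apply hxz
    rw [hZmem]
    intro c hc
    obtain ⟨e, he, r, hr, hrE, rfl⟩ := hfac c hc
    exact (hxE e he).mul_right (hcl r hr hrE)
  refine ⟨z, n, W, E, hn, hZch, hWch, hWc, hWcard, hWmem, hWE, hEW, hEp, hcen, hzE, ?_⟩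
  intro x hxE hxz
  rw [hZmem]
  intro c hc
  obtain ⟨e, he, r, hr, hrE, rfl⟩ := hfac c hc
  refine (hxE e he).mul_right ?_
  obtain ⟨k, hk⟩ := mem_zpowers_iff.mp (hD r hr hrE)
  rw [← hk]
  exact hxz.zpow_right k

end Cfsg.Agent.H23.ST
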