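import Cfsg.Agent.H23.DLen2
import Cfsg.Agent.H23.Coprime3
import Cfsg.Agent.H23.SympType

set_option autoImplicit false
set_option linter.all false

/-!
# `p`-length and derived length, III, seat helper23
-/

namespace Cfsg.Agent.H23.DL

open Subgroup
open scoped commutatorElement

theorem noQ {F : Type*} [Field F] [CharP F 3] {M : Type*} [AddCommGroup M] [Module F M] {X : Type*} [Group X]
    [Finite X] (ρ : X →* Module.End F M) (hinj : Function.Injective ρ) {A B Q : Subgroup X}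
    (hB : IsPGroup 3 B) (hQ : IsPGroup 2 Q) (hBQ : B ≤ normalizer (Q : Set X)) (hAB : A ≤ B)
    (hAc : ∀ a ∈ A, ∀ a' ∈ A, a * a' = a' * a) (hAn : ∀ b ∈ B, ∀ a ∈ A, b * a * b⁻¹ ∈ A) (hAcomm : A ≤ ⁅B, B⁆)
    (h1 : ∀ a ∈ A, (ρ a - 1) * (ρ a - 1) = 0)
    (h2 : ∀ a ∈ A, ∀ b ∈ B, (ρ a - 1) * (ρ b - 1) * (ρ b - 1) = 0) : Q ≤ centralizer (A : Set X) := by
  classical
  haveI : Fact (Nat.Prime 3) := ⟨Nat.prime_three⟩
  haveI : Fact (Nat.Prime 2) := ⟨Nat.prime_two⟩
  have h3F : (3 : F) = 0 := by exact_mod_cast CharP.cast_eq_zero F 3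
  have h3M : ∀ v : M, v + v + v = 0 := by
    intro v
    have : v + v + v = (3 : F) • v := by
      rw [show (3 : F) = 1 + 1 + 1 by norm_num, add_smul, add_smul, one_smul]
    rw [this, h3F, zero_smul]
  have h3R : (3 : Module.End F M) = 0 := by
    ext v
    have : (3 : Module.End F M) v = v + v + v := by
      rw [show (3 : Module.End F M) = 1 + 1 + 1 by norm_num]
      rfl
    rw [this, h3M]; rfl
  have h12F : (1 : F) ≠ -1 := by
    intro h
    have h4 : (2 : F) = 0 := by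
      have : (1 : F) + 1 = 0 := by nth_rewrite 1 [h]; exact neg_add_cancel 1
      rw [← this]; norm_num
    have : (1 : F) = 0 := by
      have h5 : (1 : F) = 3 - 2 := by norm_num
      rw [h5, h3F, h4, sub_zero]
    exact one_ne_zero this
  have hA3 : ∀ a ∈ A, a ^ 3 = 1 := by
    intro a ha
    apply hinj
    rw [map_pow, map_one]
    have e1 : (ρ a) ^ 3 - 1 = (ρ a - 1) * (ρ a - 1) * (ρ a - 1) + 3 * (ρ a * ρ a - ρ a) := by
      noncomm_ring
    have e2 : (ρ a) ^ 3 - 1 = 0 := by rw [e1, h1 a ha, h3R, zero_mul, zero_mul, zero_add]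
    exact sub_eq_zero.mp e2
  by_contra hcon
  obtain ⟨C, hCQ, hCn, hQC, hCC, hCp, hcop⟩ := exists_critical_ambient hQ
  have hAcop : (Nat.card A).Coprime 2 := by
    obtain ⟨k, hk⟩ := IsPGroup.iff_card.mp (hB.to_le hAB)
    rw [hk]
    exact Nat.Coprime.pow_left k (by norm_num)
  have hAC : ¬ C ≤ centralizer (A : Set X) := fun h => hcon (hcop A (hAB.trans hBQ) hAcop h)
  have hBC : ∀ b ∈ B, ∀ c ∈ C, b * c * b⁻¹ ∈ C := fun b hb c hc =>
    (mem_normalizer_iff.mp (hCn (hBQ hb)) c).mp hc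
  have hC2 : ∀ c ∈ C, ∃ k : ℕ, c ^ 2 ^ k = 1 := by
    intro c hc
    obtain ⟨k, hk⟩ := (hQ.to_le hCQ) ⟨c, hc⟩
    exact ⟨k, by simpa using congrArg Subtype.val hk⟩
  have hcmem : ∀ x, x ∈ centralizer (C : Set X) ↔ ∀ c ∈ C, x * c = c * x := by
    intro x
    rw [mem_centralizer_iff]
    exact ⟨fun h c hc => (h c hc).symm, fun h c hc => (h c hc).symm⟩
  have hBcen : ∀ b ∈ B, ∀ y, (∀ c ∈ C, y * c = c * y) → ∀ c ∈ C, (b * y * b⁻¹) * c = c * (b * y * b⁻¹) := by
    intro b hb y hy c hc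
    have h4 := hBC b⁻¹ (inv_mem hb) c hc
    rw [inv_inv] at h4
    have h5 := hy _ h4
    calc (b * y * b⁻¹) * c = b * (y * (b⁻¹ * c * b)) * b⁻¹ := by group
      _ = b * ((b⁻¹ * c * b) * y) * b⁻¹ := by rw [h5]
      _ = c * (b * y * b⁻¹) := by group
  obtain ⟨Z, hZ⟩ : ∃ Z : Subgroup X, ∀ y, y ∈ Z ↔ y ∈ C ∧ (∀ c ∈ C, y * c = c * y) ∧ y * y = 1 :=
    ⟨{ carrier := {y | y ∈ C ∧ (∀ c ∈ C, y * c = c * y) ∧ y * y = 1}
       one_mem' := ⟨one_mem _, fun c _ => by rw [one_mul, mul_one], one_mul 1⟩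
       mul_mem' := by
         rintro x y ⟨hx, hxc, hx2⟩ ⟨hy, hyc, hy2⟩
         refine ⟨mul_mem hx hy, fun c hc => by rw [mul_assoc, hyc c hc, ← mul_assoc, hxc c hc, mul_assoc], ?_⟩
         calc x * y * (x * y) = x * (y * x) * y := by group
           _ = (x * x) * (y * y) := by rw [hyc x hx]; group
           _ = 1 := by rw [hx2, hy2, one_mul]
       inv_mem' := by
         rintro x ⟨hx, hxc, hx2⟩
         have : x⁻¹ = x := inv_eq_of_mul_eq_one_left hx2
         rw [this]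
         exact ⟨hx, hxc, hx2⟩ }, fun n => Iff.rfl⟩
  have hZB : ∀ b ∈ B, ∀ z ∈ Z, b * z * b⁻¹ ∈ Z := by
    intro b hb z hz
    obtain ⟨h4, h5, h6⟩ := (hZ z).mp hz
    refine (hZ _).mpr ⟨hBC b hb z h4, hBcen b hb z h5, ?_⟩
    calc b * z * b⁻¹ * (b * z * b⁻¹) = b * (z * z) * b⁻¹ := by group
      _ = 1 := by rw [h6, mul_one, mul_inv_cancel]
  have hCZ : ∀ c ∈ C, ∀ d ∈ C, ⁅c, d⁆ ∈ Z := by
    intro c hc d hd
    have h4 := hQC (commutator_mem_commutator (hCQ hc) hd)
    obtain ⟨h5, h6⟩ := mem_inf.mp h4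
    rw [hcmem] at h6
    refine (hZ _).mpr ⟨h5, h6, ?_⟩
    rw [← pow_two]
    exact ST.comm_pow_one (h6 d hd) (((hcmem _).mp (hCp d hd)) c hc).symm
  have hdbl : ∀ x y : Module.End F M, Commute (x + x) y → Commute x y := by
    intro x y h
    have h7 : (x + x) * y = y * (x + x) := h
    have h8 : ∀ x : Module.End F M, x = -(x + x) := by
      intro x
      have e : x = 3 * x - (x + x) := by noncomm_ring
      have e' : 3 * x - (x + x) = -(x + x) := by rw [h3R, zero_mul, zero_sub]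
      exact e.trans e'
    show x * y = y * x
    rw [h8 x, neg_mul, mul_neg, h7]
  have hZA : ∀ a ∈ A, ∀ z ∈ Z, ⁅a, z⁆ = 1 := by
    intro a ha z hz
    have h4 : ⁅a, z⁆ ∈ Z := by
      rw [commutatorElement_def]; exact mul_mem (hZB a (hAB ha) z hz) (inv_mem hz)
    have h5 := ((hZ _).mp h4).2.2
    have h6 := quad_comm ρ (g := z) (h1 a ha)
    rw [inv_eq_of_mul_eq_one_left h5] at h6
    have h7 := hdbl _ _ h6
    apply tri' (hA3 a ha) _ h5
    apply hinj
    rw [map_mul, map_mul]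
    exact h7.eq.symm
  have hYA : ∀ k : ℕ, ∀ a ∈ A, ∀ y ∈ C, (∀ c ∈ C, y * c = c * y) → y ^ 2 ^ k = 1 → ⁅a, y⁆ = 1 := by
    intro k
    induction k with
    | zero =>
      intro a _ y _ _ h
      rw [pow_zero, pow_one] at h
      rw [h, commutatorElement_one_right]
    | succ k ih =>
      intro a ha y hy hyc h
      have h4 : ⁅a, y * y⁆ = 1 := by
        apply ih a ha (y * y) (mul_mem hy hy)
        · intro c hc
          rw [mul_assoc, hyc c hc, ← mul_assoc, hyc c hc, mul_assoc]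
        · rw [← pow_two, ← pow_mul, mul_comm, ← pow_succ]; exact h
      have h5 : ⁅a, y⁆ ∈ C := by
        rw [commutatorElement_def]; exact mul_mem (hBC a (hAB ha) y hy) (inv_mem hy)
      have h6 : ∀ c ∈ C, ⁅a, y⁆ * c = c * ⁅a, y⁆ := by
        intro c hc
        have e1 := hBcen a (hAB ha) y hyc
        have i1 : Commute (a * y * a⁻¹) c := e1 c hc
        have i2 : Commute y c := hyc c hc
        exact (i1.mul_left i2.inv_left).eq
      have h7 : ⁅a, y⁆ * ⁅a, y⁆ = 1 := by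
        have e1 : a * (y * y) * a⁻¹ = y * y := by
          rw [commutatorElement_eq_one_iff_mul_comm] at h4
          rw [h4, mul_inv_cancel_right]
        have e2 : a * (y * y) * a⁻¹ = ⁅a, y⁆ * (y * ⁅a, y⁆) * y := by rw [commutatorElement_def]; group
        rw [← h6 y hy, e1] at e2
        have e3 : (⁅a, y⁆ * ⁅a, y⁆) * (y * y) = y * y := by
          rw [← mul_assoc, mul_assoc ⁅a, y⁆ ⁅a, y⁆ y]
          exact e2.symm
        exact mul_eq_right.mp e3
      have h8 := hZA a ha _ ((hZ _).mpr ⟨h5, h6, h7⟩)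
      exact tri' (hA3 a ha) (commutatorElement_eq_one_iff_mul_comm.mp h8) h7
  -- squares of commutators
  have hsqC : ∀ a ∈ A, ∀ c ∈ C, ⁅a, c⁆ * ⁅a, c⁆ ∈ Z := by
    intro a ha c hc
    have h5 : ⁅a, c⁆ ∈ C := by
      rw [commutatorElement_def]; exact mul_mem (hBC a (hAB ha) c hc) (inv_mem hc)
    have h4 : ⁅a, c * c⁆ = 1 := by
      obtain ⟨k, hk⟩ := hC2 c hc
      apply hYA k a ha (c * c) (mul_mem hc hc)
      · have := (hcmem _).mp (hCp c hc)
        rwa [pow_two] at this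
      · rw [← pow_two, ← pow_mul, mul_comm, pow_mul, hk, one_pow]
    obtain ⟨h, hh⟩ : ∃ h, h = ⁅a, c⁆ := ⟨_, rfl⟩
    have e1 : a * (c * c) * a⁻¹ = c * c := by
      rw [commutatorElement_eq_one_iff_mul_comm] at h4
      rw [h4, mul_inv_cancel_right]
    have e2 : a * (c * c) * a⁻¹ = h * c * h * c := by rw [hh, commutatorElement_def]; group
    have e3 : h * c * h = c := by
      rw [e1] at e2
      exact mul_right_cancel e2.symm
    have e4 : ⁅c, h⁆ = (h * h)⁻¹ := by
      have e5 : c * h = h⁻¹ * c := by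
        rw [eq_inv_mul_iff_mul_eq, ← mul_assoc]; exact e3
      rw [commutatorElement_def, e5]; group
    rw [← hh] at h5 ⊢
    have h6 := hCZ c hc h h5
    rw [e4] at h6
    exact inv_mem_iff.mp h6
  -- a non-commuting pair
  obtain ⟨a0, ha0, c0, hc0, hd0⟩ : ∃ a ∈ A, ∃ c ∈ C, ⁅a, c⁆ ≠ 1 := by
    by_contra hno
    push Not at hno
    apply hAC
    intro c hc
    rw [mem_centralizer_iff]
    intro a ha
    exact commutatorElement_eq_one_iff_mul_comm.mp (hno a ha c hc)
  obtain ⟨d, hd⟩ : ∃ d, d = ⁅a0, c0⁆ := ⟨_, rfl⟩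
  rw [← hd] at hd0
  obtain ⟨v0, hv0⟩ : ∃ v0, ρ d v0 ≠ v0 := by
    by_contra hno
    push Not at hno
    apply hd0
    apply hinj
    rw [map_one]
    ext v
    exact hno v
  have key : ∀ s : Finset X, (∀ z ∈ s, z ∈ Z) → ∃ ε : X → F, (∀ z, ε z = 1 ∨ ε z = -1) ∧
      ∃ v, ρ d v ≠ v ∧ ∀ z ∈ s, ρ z v = ε z • v := by
    intro s
    induction s using Finset.induction_on with
    | empty =>
      intro _
      exact ⟨fun _ => 1, fun _ => Or.inl rfl, v0, hv0, by simp⟩
    | insert z s hzs ih =>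
      intro hs
      obtain ⟨ε, hε, v, hv, hsv⟩ := ih (fun z' hz' => hs z' (Finset.mem_insert_of_mem hz'))
      have hz := hs z (Finset.mem_insert_self z s)
      obtain ⟨hzC, hzc, hzz⟩ := (hZ z).mp hz
      have hzz' : ρ z (ρ z v) = v := by
        rw [← Module.End.mul_apply, ← map_mul, hzz, map_one]; rfl
      have hcom : ∀ z' ∈ s, ρ z' (ρ z v) = ε z' • ρ z v := by
        intro z' hz'
        have h4 := ((hZ z').mp (hs z' (Finset.mem_insert_of_mem hz'))).2.1 z hzC
        rw [← Module.End.mul_apply, ← map_mul, h4, map_mul, Module.End.mul_apply, hsv z' hz', map_smul]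
      have hor : ρ d (v + ρ z v) ≠ v + ρ z v ∨ ρ d (v - ρ z v) ≠ v - ρ z v := by
        by_contra hno
        push Not at hno
        obtain ⟨h4, h5⟩ := hno
        apply hv
        rw [map_add] at h4
        rw [map_sub] at h5
        have h6 : ρ d v + ρ d v = v + v := by
          have : (ρ d v + ρ d (ρ z v)) + (ρ d v - ρ d (ρ z v)) = (v + ρ z v) + (v - ρ z v) := by rw [h4, h5]
          have e1 : (ρ d v + ρ d (ρ z v)) + (ρ d v - ρ d (ρ z v)) = ρ d v + ρ d v := by abel
          have e2 : (v + ρ z v) + (v - ρ z v) = v + v := by abel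
          rw [← e1, this, e2]
        have e3 : ∀ x : M, x = -(x + x) := by
          intro x
          have := h3M x
          rw [← sub_eq_zero]
          rw [← this]; abel
        rw [e3 (ρ d v), h6, ← e3]
      rcases hor with h | h
      · refine ⟨Function.update ε z 1, ?_, v + ρ z v, h, ?_⟩
        · intro y
          by_cases hy : y = z
          · subst hy; left; rw [Function.update_self]
          · rw [Function.update_of_ne hy]; exact hε y
        · intro z' hz'
          by_cases hy : z' = z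
          · subst hy
            rw [Function.update_self, one_smul, map_add, hzz', add_comm]
          · have hz's : z' ∈ s := (Finset.mem_insert.mp hz').resolve_left hy
            rw [Function.update_of_ne hy, map_add, hsv z' hz's, hcom z' hz's, smul_add]
      · refine ⟨Function.update ε z (-1), ?_, v - ρ z v, h, ?_⟩
        · intro y
          by_cases hy : y = z
          · subst hy; right; rw [Function.update_self]
          · rw [Function.update_of_ne hy]; exact hε y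
        · intro z' hz'
          by_cases hy : z' = z
          · subst hy
            rw [Function.update_self, neg_one_smul, map_sub, hzz', neg_sub]
          · have hz's : z' ∈ s := (Finset.mem_insert.mp hz').resolve_left hy
            rw [Function.update_of_ne hy, map_sub, hsv z' hz's, hcom z' hz's, smul_sub]
  obtain ⟨ε, hε, v, hv, hvZ⟩ := key (Set.toFinite (Z : Set X)).toFinset (fun z hz => by simpa using hz)
  have hvZ' : ∀ z ∈ Z, ρ z v = ε z • v := fun z hz => hvZ z (by simpa using hz)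
  -- the weight space
  let W : Submodule F M :=
    { carrier := {w | ∀ z ∈ Z, ρ z w = ε z • w}
      zero_mem' := by intro z _; rw [map_zero, smul_zero]
      add_mem' := by
        intro a b ha hb z hz
        rw [map_add, ha z hz, hb z hz, smul_add]
      smul_mem' := by
        intro r a ha z hz
        rw [map_smul, ha z hz, smul_comm] }
  have hW : ∀ w, w ∈ W ↔ ∀ z ∈ Z, ρ z w = ε z • w := fun w => Iff.rfl
  have hmulap : ∀ (x y : X) (w : M), ρ (x * y) w = ρ x (ρ y w) := by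
    intro x y w; rw [map_mul]; rfl
  have honeap : ∀ w : M, ρ 1 w = w := by intro w; rw [map_one]; rfl
  have hcW : ∀ x : X, (∀ z ∈ Z, x * z = z * x) → ∀ w ∈ W, ρ x w ∈ W := by
    intro x hx w hw z hz
    rw [← hmulap, ← hx z hz, hmulap, hw z hz, map_smul]
  have hCcomm : ∀ c ∈ C, ∀ z ∈ Z, c * z = z * c := fun c hc z hz => (((hZ z).mp hz).2.1 c hc).symm
  have hAcomm' : ∀ a ∈ A, ∀ z ∈ Z, a * z = z * a := fun a ha z hz =>
    commutatorElement_eq_one_iff_mul_comm.mp (hZA a ha z hz)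
  have hvW : v ∈ W := hvZ'
  obtain ⟨w, hwW, hw⟩ : ∃ w ∈ W, ρ a0 w ≠ w := by
    by_contra hno
    push Not at hno
    have hno' : ∀ w ∈ W, ρ a0⁻¹ w = w := by
      intro w hw
      have h4 := congrArg (ρ a0⁻¹) (hno w hw)
      rw [← hmulap, inv_mul_cancel, honeap] at h4
      exact h4.symm
    apply hv
    rw [hd, commutatorElement_def, hmulap, hmulap, hmulap]
    have h4 : ρ c0⁻¹ v ∈ W := hcW _ (hCcomm _ (inv_mem hc0)) v hvW
    rw [hno' _ h4, ← hmulap c0, mul_inv_cancel, honeap, hno v hvW]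
  have hZB' : ∀ b ∈ B, ∀ z ∈ Z, b⁻¹ * z * b ∈ Z := by
    intro b hb z hz
    have := hZB b⁻¹ (inv_mem hb) z hz
    rwa [inv_inv] at this
  have hεpm : ∀ y y' : X, ε y ≠ ε y' → ε y - ε y' ≠ 0 := fun y y' h h' => h (sub_eq_zero.mp h')
  have hinvB : ∀ b ∈ B, ∀ z ∈ Z, ε (b⁻¹ * z * b) = ε z := by
    intro b hb
    by_contra hno
    push Not at hno
    obtain ⟨z, hz, hzε⟩ := hno
    -- the second twist is different from ε as well
    obtain ⟨z', hz', hz'ε⟩ : ∃ z' ∈ Z, ε ((b * b)⁻¹ * z' * (b * b)) ≠ ε z' := by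
      by_contra hno
      push Not at hno
      apply hzε
      have h4 : ∀ k : ℕ, ∀ z ∈ Z, ε (((b * b) ^ k)⁻¹ * z * (b * b) ^ k) = ε z := by
        intro k
        induction k with
        | zero => intro z _; rw [pow_zero, inv_one, one_mul, mul_one]
        | succ k ih =>
          intro z hz
          have e1 : ((b * b) ^ (k + 1))⁻¹ * z * (b * b) ^ (k + 1) =
              (b * b)⁻¹ * (((b * b) ^ k)⁻¹ * z * (b * b) ^ k) * (b * b) := by
            rw [pow_succ, mul_inv_rev]; simp only [mul_assoc]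
          rw [e1, hno _ (hZB' _ (pow_mem (mul_mem hb hb) k) z hz), ih z hz]
      obtain ⟨k, hk⟩ := hB ⟨b, hb⟩
      have hk' : b ^ 3 ^ k = 1 := by simpa using congrArg Subtype.val hk
      have hodd : Odd (3 ^ k) := Odd.pow (by decide)
      obtain ⟨j, hj⟩ := hodd
      have h5 : (b * b) ^ (j + 1) = b := by
        rw [← pow_two, ← pow_mul, show 2 * (j + 1) = (2 * j + 1) + 1 by ring, ← hj, pow_succ, hk', one_mul]
      have h6 := h4 (j + 1) z hz
      rwa [h5] at h6
    have tw : ∀ g ∈ B, ∀ y ∈ Z, ρ y ((ρ a0 - 1) (ρ g w)) = ε (g⁻¹ * y * g) • (ρ a0 - 1) (ρ g w) := by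
      intro g hg y hy
      have e1 : ρ y (ρ g w) = ε (g⁻¹ * y * g) • ρ g w := by
        rw [← hmulap, show y * g = g * (g⁻¹ * y * g) by group, hmulap, hwW _ (hZB' g hg y hy), map_smul]
      have e2 : ρ y ((ρ a0 - 1) (ρ g w)) = (ρ a0 - 1) (ρ y (ρ g w)) := by
        show ρ y (ρ a0 (ρ g w) - ρ g w) = ρ a0 (ρ y (ρ g w)) - ρ y (ρ g w)
        rw [map_sub, ← hmulap y a0, ← hAcomm' a0 ha0 y hy, hmulap a0 y]
      rw [e2, e1, map_smul]
    obtain ⟨u, hu⟩ : ∃ u, u = (ρ a0 - 1) (ρ 1 w) := ⟨_, rfl⟩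
    obtain ⟨u1, hu1⟩ : ∃ u1, u1 = (ρ a0 - 1) (ρ b w) := ⟨_, rfl⟩
    obtain ⟨u2, hu2⟩ : ∃ u2, u2 = (ρ a0 - 1) (ρ (b * b) w) := ⟨_, rfl⟩
    have hune : u ≠ 0 := by
      rw [hu, honeap]
      intro h
      exact hw (sub_eq_zero.mp h)
    have t0 : ∀ y ∈ Z, ρ y u = ε y • u := by
      intro y hy
      have := tw 1 (one_mem _) y hy
      rwa [← hu, inv_one, one_mul, mul_one] at this
    have t1 : ∀ y ∈ Z, ρ y u1 = ε (b⁻¹ * y * b) • u1 := by
      intro y hy
      have := tw b hb y hy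
      rwa [← hu1] at this
    have t2 : ∀ y ∈ Z, ρ y u2 = ε ((b * b)⁻¹ * y * (b * b)) • u2 := by
      intro y hy
      have := tw (b * b) (mul_mem hb hb) y hy
      rwa [← hu2] at this
    have hsum : u + u1 + u2 = 0 := by
      have e1 := LinearMap.congr_fun (h2 a0 ha0 b hb) w
      have e2 : ((ρ a0 - 1) * (ρ b - 1) * (ρ b - 1)) w = u2 - (u1 + u1) + u := by
        rw [Module.End.mul_apply, Module.End.mul_apply, hu, hu1, hu2, honeap, hmulap b b]
        have e3 : (ρ b - 1) ((ρ b - 1) w) = ρ b (ρ b w) - (ρ b w + ρ b w) + w := by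
          rw [LinearMap.sub_apply (ρ b), LinearMap.sub_apply (ρ b), map_sub]
          show ρ b (ρ b w) - ρ b w - (ρ b w - w) = _
          abel
        rw [e3, map_add, map_sub, map_add]
      rw [e2] at e1
      have e4 : u + u1 + u2 = (u2 - (u1 + u1) + u) + (u1 + u1 + u1) := by abel
      rw [e4, e1, h3M, add_zero]; rfl
    -- eliminate u1
    have r1 : ε z • u + ε (b⁻¹ * z * b) • u1 + ε ((b * b)⁻¹ * z * (b * b)) • u2 = 0 := by
      rw [← t0 z hz, ← t1 z hz, ← t2 z hz, ← map_add, ← map_add, hsum, map_zero]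
    have r2 : (ε z - ε (b⁻¹ * z * b)) • u =
        (ε (b⁻¹ * z * b) - ε ((b * b)⁻¹ * z * (b * b))) • u2 := by
      have e1 : u1 = -(u + u2) := by
        rw [eq_neg_iff_add_eq_zero, ← hsum]; abel
      rw [e1] at r1
      rw [sub_smul, sub_smul, ← sub_eq_zero, ← r1, smul_neg, smul_add]
      abel
    obtain ⟨cc, hcc⟩ : ∃ cc : F, u = cc • u2 := by
      have h5 : ε z - ε (b⁻¹ * z * b) ≠ 0 := hεpm _ _ (fun h => hzε h.symm)
      refine ⟨(ε z - ε (b⁻¹ * z * b))⁻¹ * (ε (b⁻¹ * z * b) - ε ((b * b)⁻¹ * z * (b * b))), ?_⟩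
      rw [mul_smul, ← r2, smul_smul, inv_mul_cancel₀ h5, one_smul]
    have e5 : ε z' • u = ε ((b * b)⁻¹ * z' * (b * b)) • u := by
      rw [← t0 z' hz']
      nth_rewrite 1 [hcc]
      rw [map_smul, t2 z' hz', smul_comm, ← hcc]
    have e6 : (ε z' - ε ((b * b)⁻¹ * z' * (b * b))) • u = 0 := by rw [sub_smul, e5, sub_self]
    rcases smul_eq_zero.mp e6 with h | h
    · exact hεpm _ _ (fun h => hz'ε h.symm) h
    · exact hune h
  -- the stabilizer of W
  obtain ⟨N, hN⟩ : ∃ N : Subgroup X, ∀ x, x ∈ N ↔ (∀ w ∈ W, ρ x w ∈ W) ∧ ∀ w ∈ W, ρ x⁻¹ w ∈ W :=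
    ⟨{ carrier := {x | (∀ w ∈ W, ρ x w ∈ W) ∧ ∀ w ∈ W, ρ x⁻¹ w ∈ W}
       one_mem' := by
         refine ⟨fun w hw => ?_, fun w hw => ?_⟩
         · rw [honeap]; exact hw
         · rw [inv_one, honeap]; exact hw
       mul_mem' := by
         rintro x y ⟨hx, hx'⟩ ⟨hy, hy'⟩
         refine ⟨fun w hw => ?_, fun w hw => ?_⟩
         · rw [hmulap]; exact hx _ (hy w hw)
         · rw [mul_inv_rev, hmulap]; exact hy' _ (hx' w hw)
       inv_mem' := by
         rintro x ⟨hx, hx'⟩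
         exact ⟨hx', by rw [inv_inv]; exact hx⟩ }, fun n => Iff.rfl⟩
  have hBW : ∀ b ∈ B, ∀ w ∈ W, ρ b w ∈ W := by
    intro b hb w hw z hz
    rw [← hmulap, show z * b = b * (b⁻¹ * z * b) by group, hmulap, hw _ (hZB' b hb z hz), map_smul,
      hinvB b hb z hz]
  have hBN : B ≤ N := fun b hb => (hN b).mpr ⟨hBW b hb, hBW _ (inv_mem hb)⟩
  have hCN : C ≤ N := fun c hc => (hN c).mpr ⟨hcW c (hCcomm c hc), hcW _ (hCcomm _ (inv_mem hc))⟩
  have hAN : A ≤ N := hAB.trans hBN
  let σ : N →* Module.End F W :=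
    { toFun := fun x => (ρ x).restrict ((hN x).mp x.2).1
      map_one' := by
        ext w
        show ρ ((1 : N) : X) w = w
        exact honeap _
      map_mul' := by
        intro x y
        ext w
        show ρ ((x * y : N) : X) w = ρ x (ρ y w)
        exact hmulap _ _ _ }
  have hσ : ∀ (x : N) (w : W), ((σ x w : W) : M) = ρ x w := fun x w => rfl
  haveI : Nontrivial W := by
    refine ⟨⟨⟨w, hwW⟩, 0, ?_⟩⟩
    intro h
    have h4 : w = 0 := congrArg Subtype.val h
    apply hw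
    rw [h4, map_zero]
  have h3R' : (3 : Module.End F W) = 0 := by
    ext v
    have e : (3 : Module.End F W) v = v + v + v := by
      rw [show (3 : Module.End F W) = 1 + 1 + 1 by norm_num]
      rfl
    rw [e]
    exact h3M v
  have hpmσ : ∀ x : N, (x : X) ∈ Z → σ x = 1 ∨ σ x = -1 := by
    intro x hx
    rcases hε x with h | h
    · left
      ext w
      rw [hσ, w.2 x hx, h, one_smul]; rfl
    · right
      ext w
      rw [hσ, w.2 x hx, h, neg_one_smul]; rfl
  have hfin := FL h3R' σ (A := A.subgroupOf N) (B := B.subgroupOf N) (C := C.subgroupOf N)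
    (hB.comap_of_injective N.subtype N.subtype_injective) (Subgroup.comap_mono hAB)
    (fun b hb c hc => hBC b hb c hc)
    (fun a ha => Subtype.ext (hA3 a ha))
    (fun a ha a' ha' => Subtype.ext (hAc a ha a' ha'))
    (fun b hb a ha => hAn b hb a ha)
    (by
      intro a ha
      have e1 : (a : X) ∈ ⁅B, B⁆ := hAcomm ha
      have e2 : (B.subgroupOf N).map N.subtype = B := map_subgroupOf_eq_of_le hBN
      rw [← e2, ← Subgroup.map_commutator] at e1
      obtain ⟨a', ha', e3⟩ := e1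
      have e4 : a' = a := N.subtype_injective e3
      rw [← e4]
      exact ha')
    (by
      intro a ha
      ext w
      have e1 := LinearMap.congr_fun (h1 a ha) w
      exact e1)
    (fun c hc d hd => hpmσ _ (hCZ c hc d hd))
    (fun a ha c hc => hpmσ _ (hsqC a ha c hc))
  have h9 := hfin ⟨a0, hAN ha0⟩ ha0 ⟨c0, hCN hc0⟩ hc0
  apply hv
  have h10 : ((σ ⁅(⟨a0, hAN ha0⟩ : N), ⟨c0, hCN hc0⟩⁆ ⟨v, hvW⟩ : W) : M) = v := by rw [h9]; rfl
  rw [hσ] at h10
  rw [hd]
  exact h10

end Cfsg.Agent.H23.DL
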