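import Cfsg.Agent.H23.DLen3
import Cfsg.Agent.H23.HHThmB2
import Cfsg.Agent.H23.HHApp2

set_option autoImplicit false
set_option linter.all false

/-!
# `p`-length and derived length, IV, seat helper23
-/

universe u

namespace Cfsg.Agent.H23.DL

open Module Subgroup TensorProduct
open scoped commutatorElement

theorem pow_of_quad {F : Type*} [Field F] {M : Type*} [AddCommGroup M] [Module F M] {p : ℕ} [CharP F p]
    {a : Module.End F M} (h : (a - 1) * (a - 1) = 0) : a ^ p = 1 := by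
  obtain ⟨x, hx⟩ : ∃ x, x = a - 1 := ⟨_, rfl⟩
  rw [← hx] at h
  have ha : a = 1 + x := by rw [hx, add_sub_cancel]
  have key : ∀ k : ℕ, a ^ k = 1 + k • x := by
    intro k
    induction k with
    | zero => rw [pow_zero, zero_smul, add_zero]
    | succ k ih =>
      rw [pow_succ, ih, ha, add_mul, one_mul, mul_add, mul_one, smul_mul_assoc, h, smul_zero, add_zero, succ_nsmul']
      abel
  have hp : (p : ℕ) • x = 0 := by
    rw [← Nat.cast_smul_eq_nsmul F p x, CharP.cast_eq_zero, zero_smul]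
  rw [key, hp, add_zero]

theorem KP {F : Type*} [Field F] {M : Type*} [AddCommGroup M] [Module F M] [FiniteDimensional F M] {X : Type*}
    [Group X] [Finite X] {p : ℕ} [hpf : Fact p.Prime] [CharP F p] (hp2 : p ≠ 2) (ρ : X →* Module.End F M)
    (hinj : Function.Injective ρ) (h : Cfsg.IsPSolvable p X) (hO : Cfsg.pCore p X = ⊥) {A B : Subgroup X}
    (hB : IsPGroup p B) (hAB : A ≤ B)
    (hAc : ∀ a ∈ A, ∀ a' ∈ A, a * a' = a' * a) (hAn : ∀ b ∈ B, ∀ a ∈ A, b * a * b⁻¹ ∈ A) (hAcomm : A ≤ ⁅B, B⁆)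
    (h1 : ∀ a ∈ A, (ρ a - 1) * (ρ a - 1) = 0)
    (h2 : ∀ a ∈ A, ∀ b ∈ B, (ρ a - 1) * (ρ b - 1) * (ρ b - 1) = 0) : A = ⊥ := by
  classical
  have hp := hpf.out
  have hp3 : 3 ≤ p := by have := hp.two_le; omega
  by_contra hAne
  obtain ⟨R, hR⟩ : ∃ R, R = Cfsg.pPrimeCore p X := ⟨_, rfl⟩
  haveI hRn : R.Normal := by rw [hR]; infer_instance
  have hRc : (Nat.card R).Coprime p := by rw [hR]; exact H1.pPrimeCore_coprime p X
  have hAR : B ≤ normalizer (R : Set X) := by rw [normalizer_eq_top]; exact le_top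
  obtain ⟨m, hm⟩ := IsPGroup.iff_card.mp hB
  have hcop : (Nat.card B).Coprime (Nat.card R) := by rw [hm]; exact (hRc.pow_right _).symm
  have hBsol : Group.IsSolvable B := isSolvable_of_isPGroup hB
  obtain ⟨q, hqf, P, hP, hBP, hPA⟩ : ∃ (q : ℕ) (_ : Fact q.Prime) (P : Subgroup X), IsSylowOf q P R ∧
      B ≤ normalizer (P : Set X) ∧ ¬ P ≤ centralizer (A : Set X) := by
    by_contra hcon
    push Not at hcon
    have h1 : R ≤ centralizer (A : Set X) := by
      rw [← relIndex_eq_one]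
      by_contra hne
      obtain ⟨q, hq, hqd⟩ := Nat.exists_prime_and_dvd hne
      haveI : Fact q.Prime := ⟨hq⟩
      obtain ⟨P, hP, hAP⟩ := exists_invariant_sylow hAR hcop (Or.inl hBsol) q
      have h3 := hcon q inferInstance P hP hAP
      exact hP.not_dvd (hqd.trans (relIndex_dvd_of_le_left R h3))
    have h3 : A ≤ R := by
      rw [hR] at h1 ⊢
      refine le_trans ?_ (centralizer_pPrimeCore_le h hO)
      rw [le_centralizer_iff]
      exact h1
    apply hAne
    obtain ⟨k, hk⟩ := IsPGroup.iff_card.mp (hB.to_le hAB)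
    have h4 : (Nat.card A).Coprime p := Nat.Coprime.coprime_dvd_left (card_dvd_of_le h3) hRc
    rw [hk] at h4
    rcases k with _ | k
    · rw [pow_zero] at hk
      exact eq_bot_of_card_eq A hk
    · exfalso
      have h5 := Nat.Coprime.coprime_dvd_left (dvd_pow_self p (Nat.succ_ne_zero k)) h4
      exact absurd ((Nat.coprime_self p).mp h5) hp.one_lt.ne'
  have hq := hqf.out
  obtain ⟨a, ha, u, hu, hau⟩ : ∃ a ∈ A, ∃ u ∈ P, a * u ≠ u * a := by
    by_contra hno
    push Not at hno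
    apply hPA
    intro u hu
    rw [mem_centralizer_iff]
    intro a ha
    exact hno a ha u hu
  have hpq : p ≠ q := by
    rintro rfl
    apply hau
    have h1 : IsPGroup p P := hP.isPGroup
    have h2 : (Nat.card P).Coprime p := Nat.Coprime.coprime_dvd_left (card_dvd_of_le hP.le) hRc
    obtain ⟨e, he⟩ := h1.exists_card_eq
    have h3 : Nat.card P = 1 := by
      rw [he] at h2 ⊢
      rcases Nat.eq_zero_or_pos e with h | h
      · rw [h, pow_zero]
      · have h4 := Nat.Coprime.coprime_dvd_left (dvd_pow_self p h.ne') h2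
        exact absurd ((Nat.coprime_self p).mp h4) hp.one_lt.ne'
    rw [card_eq_one] at h3
    rw [h3, mem_bot] at hu
    rw [hu, one_mul, mul_one]
  have hap : a ^ p = 1 := by
    apply hinj
    rw [map_pow, map_one]
    exact pow_of_quad (h1 a ha)
  -- base change
  have hkey : p = 3 ∧ q = 2 := by
    set K := AlgebraicClosure F with hK
    set Φ : Module.End F M →ₐ[F] Module.End K (K ⊗[F] M) := Module.End.baseChangeHom F K M with hΦ
    have hΦinj : Function.Injective Φ := LinearMap.baseChangeHom_injective F M K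
    set ρ' : X →* Module.End K (K ⊗[F] M) := (Φ : Module.End F M →* Module.End K (K ⊗[F] M)).comp ρ with hρ'
    have hρ'inj : Function.Injective ρ' := hΦinj.comp hinj
    have hsq : (ρ' a - 1) ^ 2 = 0 := by
      have e1 : ρ' a - 1 = Φ (ρ a - 1) := by rw [map_sub, map_one]; rfl
      rw [e1, pow_two, ← map_mul, h1 a ha, map_zero]
    haveI : CharP K p := charP_of_injective_algebraMap (algebraMap F K).injective p
    have hB1 := hh_qgroup (K := K) (n := 0) hpq ρ' hρ'inj (x := a) (by rw [zero_add, pow_one]; exact hap) P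
      hP.isPGroup (hBP (hAB ha)) ⟨u, hu, by rw [pow_zero, pow_one]; exact hau⟩
    rcases hB1 with h3 | ⟨k, hk, ⟨m, hm1, hm⟩, -, hbd, -⟩
    · exfalso
      apply h3
      obtain ⟨t, ht⟩ : ∃ t, p ^ (0 + 1) - 1 = 2 + t := ⟨p ^ (0 + 1) - 1 - 2, by rw [zero_add, pow_one]; omega⟩
      rw [ht, pow_add, hsq, zero_mul]
    · have hk0 : k = 0 := by omega
      subst hk0
      have h4 := hbd 2 hsq
      rw [pow_zero, one_mul, Nat.sub_zero, zero_add, pow_one] at h4
      have hp3' : p = 3 := by omega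
      refine ⟨hp3', ?_⟩
      rw [Nat.sub_zero, zero_add, pow_one, hp3'] at hm
      have h5 : q ∣ 2 := by
        have : q ∣ q ^ m := dvd_pow_self q (by omega)
        rw [← hm] at this
        exact this
      exact (Nat.prime_dvd_prime_iff_eq hq Nat.prime_two).mp h5
  obtain ⟨rfl, rfl⟩ := hkey
  exact hPA (noQ ρ hinj hB hP.isPGroup hBP hAB hAc hAn hAcomm h1 h2)

theorem rep_setup {G : Type u} [Group G] [Finite G] {p : ℕ} [hp : Fact p.Prime] (hG : Cfsg.IsPSolvable p G)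
    (hO : Cfsg.pPrimeCore p G = ⊥) :
    ∃ (X : Type u) (_ : Group X) (_ : Finite X) (f : G →* X) (M : Type u) (_ : AddCommGroup M)
      (_ : Module (ZMod p) M) (_ : FiniteDimensional (ZMod p) M) (ρ : X →* Module.End (ZMod p) M)
      (j : Cfsg.pCore p G → M), f.ker = Cfsg.pCore p G ∧ Cfsg.IsPSolvable p X ∧ Cfsg.pCore p X = ⊥ ∧
      Function.Injective ρ ∧ Function.Surjective j ∧ (∀ v w, j (v * w) = j v + j w) ∧
      ∀ (g : G) (v w : Cfsg.pCore p G), (w : G) = g * v * g⁻¹ → ρ (f g) (j v) = j w := by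
  obtain ⟨Φ, hΦn, hΦP, hEA, hcent⟩ := frat_setup hG hO
  obtain ⟨P, hP⟩ : ∃ P, P = Cfsg.pCore p G := ⟨_, rfl⟩
  haveI hPn : P.Normal := by rw [hP]; infer_instance
  rw [← hP] at hΦP hEA hcent
  obtain ⟨V, hV⟩ : ∃ V, V = P.map (QuotientGroup.mk' Φ) := ⟨_, rfl⟩
  rw [← hV] at hEA hcent
  haveI hVn : V.Normal := by rw [hV]; exact hPn.map _ (QuotientGroup.mk'_surjective Φ)
  obtain ⟨M, i1, i2, i3, ρ0, ι, hι, hιm, hρ0, hker⟩ := exists_rep hEA
  rw [hcent] at hker
  have hVP : ∀ g : G, (g : G ⧸ Φ) ∈ V ↔ g ∈ P := by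
    intro g
    rw [hV]
    constructor
    · rintro ⟨x, hx, hxg⟩
      have h1 : x⁻¹ * g ∈ Φ := QuotientGroup.eq.mp hxg
      have := mul_mem hx (hΦP h1)
      rwa [mul_inv_cancel_left] at this
    · intro hg
      exact ⟨g, hg, rfl⟩
  have hO' : Cfsg.pCore p ((G ⧸ Φ) ⧸ V) = ⊥ := by
    have key : ∀ (V' : Subgroup (G ⧸ Φ)) [V'.Normal], V' = P.map (QuotientGroup.mk' Φ) →
        Cfsg.pCore p ((G ⧸ Φ) ⧸ V') = ⊥ := by
      intro V' _ hV'
      subst hV'
      have e := QuotientGroup.quotientQuotientEquivQuotient Φ P hΦP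
      apply pCore_eq_bot_of_equiv e.symm
      subst hP
      exact H1.pCore_quotient_eq_bot p
    exact key V hV
  refine ⟨(G ⧸ Φ) ⧸ V, inferInstance, inferInstance, (QuotientGroup.mk' V).comp (QuotientGroup.mk' Φ), M, i1, i2,
    i3, QuotientGroup.lift V ρ0 (by rw [hker]), fun v => ι ⟨((v : G) : G ⧸ Φ), (hVP _).mpr (by rw [hP]; exact v.2)⟩,
    ?_, isPSolvable_quotient _ (isPSolvable_quotient _ hG), hO', ?_, ?_, ?_, ?_⟩
  · ext g
    rw [MonoidHom.mem_ker, ← hP, ← hVP]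
    exact QuotientGroup.eq_one_iff _
  · rw [← MonoidHom.ker_eq_bot_iff, eq_bot_iff]
    intro x hx
    obtain ⟨y, rfl⟩ := QuotientGroup.mk'_surjective V x
    have h1 : ρ0 y = 1 := hx
    have h2 : y ∈ V := by rw [← hker]; exact h1
    rw [mem_bot]
    exact (QuotientGroup.eq_one_iff y).mpr h2
  · intro m
    obtain ⟨⟨v, hv⟩, rfl⟩ := hι.2 m
    obtain ⟨g, rfl⟩ := QuotientGroup.mk'_surjective Φ v
    exact ⟨⟨g, by rw [← hP]; exact (hVP g).mp hv⟩, rfl⟩
  · intro v w
    rw [← hιm]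
    rfl
  · intro g v w hw
    have h1 := hρ0 ((g : G) : G ⧸ Φ) ⟨((v : G) : G ⧸ Φ), (hVP _).mpr (by rw [hP]; exact v.2)⟩
    refine Eq.trans h1 ?_
    congr 1
    apply Subtype.ext
    show ((g : G) : G ⧸ Φ) * ((v : G) : G ⧸ Φ) * ((g : G) : G ⧸ Φ)⁻¹ = ((w : G) : G ⧸ Φ)
    rw [hw]
    rfl

end Cfsg.Agent.H23.DL
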