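import Mathlib
import Cfsg.Agent.H23.SG3
import Cfsg.Agent.H23.HHMain

/-!
Gross: fixed-point-free automorphisms of 2-power order; the spectrum in the exceptional configuration.
-/

set_option linter.style.haveILetI false
set_option linter.unusedSectionVars false

namespace Cfsg.Agent.H23

open Module Subgroup

section eig

variable {K : Type*} [Field K] [IsAlgClosed K] {W : Type*} [AddCommGroup W] [Module K W] [FiniteDimensional K W]

theorem eigen_inj {ι : Type} [Fintype ι] [DecidableEq ι] [DecidableEq K] (b : Module.Basis ι K W) (T : Module.End K W)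
    (c : ι → K) (hc : ∀ i, T (b i) = c i • b i) (hS : finrank K (commutant (T - 1)) ≤ Fintype.card ι) :
    Function.Injective c := by
  have h1 := (card_le_commutant b T c hc).trans hS
  set f : ι → {s : ι × ι // c s.1 = c s.2} := fun i => ⟨(i, i), rfl⟩ with hf
  have hfi : Function.Injective f := by
    intro i j hij
    exact congrArg (fun s : {s : ι × ι // c s.1 = c s.2} => s.1.1) hij
  have hcard : Fintype.card ι = Fintype.card {s : ι × ι // c s.1 = c s.2} :=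
    le_antisymm (Fintype.card_le_of_injective f hfi) h1
  have hfs : Function.Surjective f := ((Fintype.bijective_iff_injective_and_card f).mpr ⟨hfi, hcard⟩).2
  intro i j hij
  obtain ⟨k, hk⟩ := hfs ⟨(i, j), hij⟩
  have h2 := congrArg (fun s : {s : ι × ι // c s.1 = c s.2} => s.1.1) hk
  have h3 := congrArg (fun s : {s : ι × ι // c s.1 = c s.2} => s.1.2) hk
  exact h2.symm.trans h3

theorem exists_eigen_aux {r : ℕ} (hr : r ≠ 0) (hrK : (r : K) ≠ 0) (T : Module.End K W) (hT : T ^ r = 1)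
    (hle : r * finrank K (commutant (T - 1)) ≤ r - 1 + (finrank K W) ^ 2) (hd : finrank K W = r - 1) :
    ∃ (ι : Type) (_ : Fintype ι) (b : Module.Basis ι K W) (c : ι → K), (∀ i, T (b i) = c i • b i) ∧
      (∀ i, c i ^ r = 1) ∧ Function.Injective c ∧ Fintype.card ι = r - 1 := by
  classical
  obtain ⟨ι, hι, b, c, hc, hcr⟩ := exists_eigenbasis_of_pow hr hrK T hT
  have hcard : finrank K W = Fintype.card ι := finrank_eq_card_basis b
  refine ⟨ι, hι, b, c, hc, hcr, ?_, by rw [← hcard, hd]⟩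
  apply eigen_inj b T c hc
  rw [← hcard]
  rw [hd] at hle ⊢
  obtain ⟨r', rfl⟩ : ∃ r', r = r' + 1 := ⟨r - 1, by omega⟩
  simp only [Nat.add_sub_cancel] at *
  by_contra hcon
  push Not at hcon
  nlinarith

theorem exists_eigen_of_full {r : ℕ} (hr : r ≠ 0) (hrK : (r : K) ≠ 0) (T : Module.End K W) (hT : T ^ r = 1)
    (hle : r * finrank K (commutant (T - 1)) ≤ r - 1 + (finrank K W) ^ 2) (hd : finrank K W = r - 1)
    (hno : ∀ w, T w = w → w = 0) (ω : K) (hω : ω ^ r = 1) (hω1 : ω ≠ 1) : ∃ w, w ≠ 0 ∧ T w = ω • w := by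
  classical
  obtain ⟨ι, hι, b, c, hc, hcr, hinj, hcard⟩ := exists_eigen_aux hr hrK T hT hle hd
  by_contra hcon
  push Not at hcon
  have h1 : insert (1 : K) (insert ω (Finset.univ.image c)) ⊆ (Polynomial.nthRoots r (1 : K)).toFinset := by
    intro z hz
    rw [Multiset.mem_toFinset, Polynomial.mem_nthRoots (Nat.pos_of_ne_zero hr)]
    rcases Finset.mem_insert.mp hz with rfl | hz
    · exact one_pow r
    · rcases Finset.mem_insert.mp hz with rfl | hz
      · exact hω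
      · obtain ⟨i, _, rfl⟩ := Finset.mem_image.mp hz
        exact hcr i
  have h2 : ω ∉ Finset.univ.image c := by
    intro h
    obtain ⟨i, _, hi⟩ := Finset.mem_image.mp h
    exact hcon (b i) (b.ne_zero i) (by rw [hc, hi])
  have h3 : (1 : K) ∉ insert ω (Finset.univ.image c) := by
    intro h
    rcases Finset.mem_insert.mp h with h | h
    · exact hω1 h.symm
    · obtain ⟨i, _, hi⟩ := Finset.mem_image.mp h
      exact b.ne_zero i (hno (b i) (by rw [hc, hi, one_smul]))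
  have h4 := Finset.card_le_card h1
  rw [Finset.card_insert_of_notMem h3, Finset.card_insert_of_notMem h2, Finset.card_image_of_injective _ hinj,
    Finset.card_univ, hcard] at h4
  have h5 := (Multiset.toFinset_card_le (Polynomial.nthRoots r (1 : K))).trans (Polynomial.card_nthRoots r 1)
  omega

theorem missing_unique {r : ℕ} (hr : r ≠ 0) (hrK : (r : K) ≠ 0) (T : Module.End K W) (hT : T ^ r = 1)
    (hle : r * finrank K (commutant (T - 1)) ≤ r - 1 + (finrank K W) ^ 2) (hd : finrank K W = r - 1)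
    {θ₁ θ₂ : K} (h1 : θ₁ ^ r = 1) (h2 : θ₂ ^ r = 1) (hno₁ : ∀ w, (θ₁ • T) w = w → w = 0)
    (hno₂ : ∀ w, (θ₂ • T) w = w → w = 0) : θ₁ = θ₂ := by
  classical
  obtain ⟨ι, hι, b, c, hc, hcr, hinj, hcard⟩ := exists_eigen_aux hr hrK T hT hle hd
  by_contra hne
  have hne0 : ∀ θ : K, θ ^ r = 1 → θ ≠ 0 := by
    rintro θ h rfl
    rw [zero_pow hr] at h
    exact zero_ne_one h
  have hmiss : ∀ θ : K, θ ^ r = 1 → (∀ w, (θ • T) w = w → w = 0) → θ⁻¹ ∉ Finset.univ.image c := by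
    intro θ hθ hno h
    obtain ⟨i, _, hi⟩ := Finset.mem_image.mp h
    apply b.ne_zero i
    apply hno
    rw [LinearMap.smul_apply, hc, hi, smul_smul, mul_inv_cancel₀ (hne0 θ hθ), one_smul]
  have h3 : insert (θ₁⁻¹ : K) (insert θ₂⁻¹ (Finset.univ.image c)) ⊆ (Polynomial.nthRoots r (1 : K)).toFinset := by
    intro z hz
    rw [Multiset.mem_toFinset, Polynomial.mem_nthRoots (Nat.pos_of_ne_zero hr)]
    rcases Finset.mem_insert.mp hz with rfl | hz
    · rw [inv_pow, h1, inv_one]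
    · rcases Finset.mem_insert.mp hz with rfl | hz
      · rw [inv_pow, h2, inv_one]
      · obtain ⟨i, _, rfl⟩ := Finset.mem_image.mp hz
        exact hcr i
  have h4 : (θ₁⁻¹ : K) ∉ insert θ₂⁻¹ (Finset.univ.image c) := by
    intro h
    rcases Finset.mem_insert.mp h with h | h
    · exact hne (inv_injective h)
    · exact hmiss θ₁ h1 hno₁ h
  have h5 := Finset.card_le_card h3
  rw [Finset.card_insert_of_notMem h4, Finset.card_insert_of_notMem (hmiss θ₂ h2 hno₂),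
    Finset.card_image_of_injective _ hinj, Finset.card_univ, hcard] at h5
  have h6 := (Multiset.toFinset_card_le (Polynomial.nthRoots r (1 : K))).trans (Polynomial.card_nthRoots r 1)
  omega

end eig

variable {K : Type*} [Field K] {Q : Type*} [Group Q] {V : Type*} [AddCommGroup V] [Module K V]
variable [FiniteDimensional K V] [IsAlgClosed K]

section
variable [Finite Q]

theorem gross_special {q n : ℕ} [hqf : Fact q.Prime] (hpq : 2 ≠ q)
    (hpK : ((2 : ℕ) : K) ≠ 0) (hcard : (Nat.card Q : K) ≠ 0) (hQq : IsPGroup q Q)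
    (ρ : Q →* Module.End K V) (hinj : Function.Injective ρ)
    (τ : MulAut Q) (hτN : τ ^ 2 ^ (n + 1 + 1) = 1) (X : Module.End K V) (hX : ∀ u, X * ρ u = ρ (τ u) * X)
    (hXN : X ^ 2 ^ (n + 1 + 1) = 1) (hQ : ∀ a b : Q, a * b * a⁻¹ * b⁻¹ ∈ center Q)
    (hC : ∀ u, (τ ^ 2 ^ (n + 1)) u = u ↔ u ∈ center Q) (hna : center Q ≠ ⊤)
    (hno : ∀ w, X w = w → w = 0) : ∃ w, w ≠ 0 ∧ (X ^ 2 ^ (n + 1)) w = w ∧ (X ^ 2 ^ n) w = -w := by
  classical
  have hp : Nat.Prime 2 := Nat.prime_two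
  have hq := hqf.out
  have hN : 0 < 2 ^ (n + 1 + 1) := pow_pos hp.pos _
  obtain ⟨e₀, he₀⟩ := hQq.exists_card_eq
  have hcop : (Nat.card Q).Coprime 2 := by
    rw [he₀]
    exact Nat.Coprime.pow_left _ ((Nat.coprime_primes hq hp).mpr hpq.symm)
  set y := τ ^ 2 ^ (n + 1) with hy
  have hyp : y ^ 2 = 1 := by rw [hy, ← pow_mul, ← pow_succ, hτN]
  set Z := center Q with hZ
  have hτZ : ∀ z ∈ Z, τ z ∈ Z := by
    intro z hz
    rw [hZ, mem_center_iff] at hz ⊢
    intro g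
    have := hz (τ.symm g)
    have h2 := congrArg τ this
    simpa using h2
  have hτpZ : ∀ (j : ℕ), ∀ z ∈ Z, (τ ^ j) z ∈ Z := mulAut_pow_char τ Z hτZ
  have hτiZ : ∀ (j : ℕ), ∀ z ∈ Z, (τ ^ j)⁻¹ z ∈ Z := by
    intro j z hz
    rw [hZ, mem_center_iff] at hz ⊢
    intro g
    have := hz ((τ ^ j) g)
    have h2 := congrArg ((τ ^ j)⁻¹ : MulAut Q) this
    simpa using h2
  -- the element z₀
  obtain ⟨a₀, ha₀⟩ : ∃ a, a ∉ Z := by
    by_contra hcon
    push Not at hcon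
    exact hna (eq_top_iff.mpr (fun a _ => hcon a))
  obtain ⟨b₀, hb₀⟩ : ∃ b, b * a₀ ≠ a₀ * b := by
    by_contra hcon
    push Not at hcon
    exact ha₀ (mem_center_iff.mpr hcon)
  set z₀ := a₀ * b₀ * a₀⁻¹ * b₀⁻¹ with hz₀
  have hz₀Z : z₀ ∈ Z := hQ a₀ b₀
  have hz₀1 : z₀ ≠ 1 := by
    intro h
    apply hb₀
    rw [hz₀, mul_inv_eq_one, mul_inv_eq_iff_eq_mul] at h
    exact h.symm
  obtain ⟨w₀, hw₀⟩ : ∃ w, ρ z₀ w ≠ w := by
    by_contra hcon
    push Not at hcon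
    apply hz₀1
    apply hinj
    rw [map_one]
    exact LinearMap.ext hcon
  have hρZ : ∀ z ∈ Z, ∀ u w, ρ z (ρ u w) = ρ u (ρ z w) := by
    intro z hz u w
    rw [← Module.End.mul_apply, ← Module.End.mul_apply, ← map_mul, ← map_mul, mem_center_iff.mp hz u]
  obtain ⟨v, μ, _, hv0, hμ, hμz₀⟩ := exists_common_eigenvector_ne hcard (Z : Set Q) ρ (U := ⊤)
    (fun a _ u _ => Submodule.mem_top) (fun a ha b _ u _ => hρZ a ha b u) hz₀Z (w := w₀) Submodule.mem_top hw₀
  set U := wtSpace ρ Z μ with hU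
  have hvU : v ∈ U := mem_wtSpace.mpr hμ
  have hUinv : ∀ u, ∀ w ∈ U, ρ u w ∈ U := by
    intro u w hw
    rw [hU, mem_wtSpace] at hw ⊢
    intro z hz
    rw [hρZ z hz, hw z hz, map_smul]
  -- the period of μ
  have hSy : ∀ z ∈ Z, μ ((τ ^ 2 ^ (n + 1)) z) = μ z := by
    intro z hz
    rw [(hC z).mpr hz]
  have hex : ∃ j : ℕ, 0 < j ∧ ∀ z ∈ Z, μ ((τ ^ j) z) = μ z := ⟨2 ^ (n + 1), pow_pos hp.pos _, hSy⟩
  set P := Nat.find hex with hPdef
  have hP0 : 0 < P := (Nat.find_spec hex).1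
  have hPμ : ∀ z ∈ Z, μ ((τ ^ P) z) = μ z := (Nat.find_spec hex).2
  have hPmin : ∀ j, 0 < j → (∀ z ∈ Z, μ ((τ ^ j) z) = μ z) → P ≤ j := fun j hj0 hj => Nat.find_min' hex ⟨hj0, hj⟩
  have hPq : ∀ q : ℕ, ∀ z ∈ Z, μ ((τ ^ (P * q)) z) = μ z := by
    intro q
    induction q with
    | zero => intro z _; simp
    | succ q ih =>
      intro z hz
      rw [mul_add, mul_one, pow_add, MulAut.mul_apply, ih _ (hτpZ P z hz), hPμ z hz]
  have hPdvd : P ∣ 2 ^ (n + 1) := by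
    rw [Nat.dvd_iff_mod_eq_zero]
    by_contra hne
    have h1 := hPmin (2 ^ (n + 1) % P) (Nat.pos_of_ne_zero hne) (by
      intro z hz
      have h2 := hPq (2 ^ (n + 1) / P) ((τ ^ (2 ^ (n + 1) % P)) z) (hτpZ _ z hz)
      rw [← MulAut.mul_apply, ← pow_add, Nat.div_add_mod, hSy z hz] at h2
      exact h2.symm)
    exact absurd (Nat.mod_lt (2 ^ (n + 1)) hP0) (not_lt.mpr h1)
  obtain ⟨k, hk, hPk⟩ := (Nat.dvd_prime_pow hp).mp hPdvd
  set m₁ := n + 1 - k with hm₁
  have hkm : k + (m₁ + 1) = n + 1 + 1 := by omega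
  have hPN₁ : P * 2 ^ (m₁ + 1) = 2 ^ (n + 1 + 1) := by rw [hPk, ← pow_add]; congr 1
  have hPm₁ : P * 2 ^ m₁ = 2 ^ (n + 1) := by rw [hPk, ← pow_add]; congr 1; omega
  have hN₁pos : 0 < 2 ^ (m₁ + 1) := pow_pos hp.pos _
  -- distinct weights
  have hdist : ∀ i j, i < P → j < P → i ≠ j → ∃ a ∈ (Z : Set Q), μ ((τ ^ i)⁻¹ a) ≠ μ ((τ ^ j)⁻¹ a) := by
    have hord : ∀ i j, i < j → j < P → ∃ a ∈ (Z : Set Q), μ ((τ ^ i)⁻¹ a) ≠ μ ((τ ^ j)⁻¹ a) := by
      intro i j hij hj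
      by_contra hcon
      push Not at hcon
      have h1 := hPmin (j - i) (by omega) (by
        intro z hz
        have h2 := hcon ((τ ^ j) z) (hτpZ j z hz)
        have h3 : (τ ^ i)⁻¹ ((τ ^ j) z) = (τ ^ (j - i)) z := by
          rw [← MulAut.mul_apply]
          congr 1
          rw [inv_mul_eq_iff_eq_mul, ← pow_add]
          congr 1; omega
        rw [h3, MulAut.inv_apply_self] at h2
        exact h2)
      omega
    intro i j hi hj hij
    rcases lt_or_gt_of_ne hij with h | h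
    · exact hord i j h hj
    · obtain ⟨a, ha, hne⟩ := hord j i h hi
      exact ⟨a, ha, hne.symm⟩
  set τ₁ := τ ^ P with hτ₁
  set X₁ := X ^ P with hX₁
  have hX₁i : ∀ u, X₁ * ρ u = ρ (τ₁ u) * X₁ := intertwine_pow ρ τ X hX P
  have hX₁N : X₁ ^ 2 ^ (m₁ + 1) = 1 := by rw [hX₁, ← pow_mul, hPN₁, hXN]
  have hτ₁N : τ₁ ^ 2 ^ (m₁ + 1) = 1 := by rw [hτ₁, ← pow_mul, hPN₁, hτN]
  have hτ₁y : τ₁ ^ 2 ^ m₁ = y := by rw [hτ₁, ← pow_mul, hPm₁]
  have hX₁U : ∀ w ∈ U, X₁ w ∈ U := by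
    intro w hw
    rw [hU, mem_wtSpace] at hw ⊢
    intro z hz
    have h1 := congrArg (fun f : Module.End K V => f w) (hX₁i ((τ ^ P)⁻¹ z))
    simp only [Module.End.mul_apply, hτ₁, MulAut.apply_inv_self] at h1
    rw [← h1, hw _ (hτiZ P z hz), map_smul]
    have h2 := hPμ ((τ ^ P)⁻¹ z) (hτiZ P z hz)
    rw [MulAut.apply_inv_self] at h2
    rw [h2]
  have hno₁ : ∀ u ∈ U, X₁ u = u → u = 0 := by
    intro u hu hfu
    by_contra hu0
    refine orbit_sum_ne_zero (Z : Set Q) ρ X hP0 (fun j b => μ ((τ ^ j)⁻¹ b)) hdist hu0 ?_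
      (hno _ (sum_orbit_fixed X hfu))
    intro j _ z hz
    have h1 := congrArg (fun f : Module.End K V => f u) (intertwine_pow ρ τ X hX j ((τ ^ j)⁻¹ z))
    simp only [Module.End.mul_apply, MulAut.apply_inv_self] at h1
    rw [← h1, (mem_wtSpace.mp hu) _ (hτiZ j z hz), map_smul]
  haveI : Nontrivial V := ⟨v, 0, hv0⟩
  -- the radical
  set Y := commOn ρ U hUinv with hY
  have hZY : Z ≤ Y := by
    intro z hz
    rw [hY, mem_commOn]
    intro t w _
    exact hρZ z hz t w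
  have hcomm : ∀ u t : Q, u * t * u⁻¹ * t⁻¹ ∈ Y := fun u t => hZY (hQ u t)
  haveI hYn : Y.Normal := normal_of_comm hcomm
  have hτ₁Y : ∀ a ∈ Y, τ₁ a ∈ Y := by
    intro a ha
    rw [hY, mem_commOn] at ha ⊢
    intro t w hw
    have hX₁c : X₁ ((X₁ ^ (2 ^ (m₁ + 1) - 1)) w) = w := by
      rw [← Module.End.mul_apply, ← pow_succ', Nat.sub_add_cancel hN₁pos, hX₁N]
      rfl
    set w' := (X₁ ^ (2 ^ (m₁ + 1) - 1)) w with hw'
    have hw'U : w' ∈ U := pow_mem_of_inv X₁ hX₁U _ w hw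
    have hi : ∀ u x, ρ (τ₁ u) (X₁ x) = X₁ (ρ u x) := by
      intro u x
      have := congrArg (fun f : Module.End K V => f x) (hX₁i u)
      simpa using this.symm
    obtain ⟨t', rfl⟩ := τ₁.surjective t
    rw [← hX₁c, hi, hi, hi, hi, ha t' w' hw'U]
  have hYcomm : ∀ a ∈ Y, ∀ b ∈ Y, ∀ u ∈ U, ρ a (ρ b u) = ρ b (ρ a u) := fun a ha b _ u hu => ha b u hu
  have hstar := star_fpf hcard Y ρ (U := U) (fun a _ u hu => hUinv a u hu) hYcomm τ₁ hτ₁Y X₁ hX₁i hp hτ₁N hX₁N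
    hX₁U hno₁
  rw [hτ₁y] at hstar
  have hyY : ∀ v ∈ Y, y v ∈ Y := by
    intro v hv
    rw [← hτ₁y]
    exact mulAut_pow_char τ₁ Y hτ₁Y _ v hv
  have hnρ : ∀ (i : ℕ), ∀ a ∈ Y, ∀ w ∈ U, ρ (nrm y i a) w = ((ρ a) ^ i) w := by
    have h1 : ∀ (i : ℕ), ∀ a ∈ Y, ∀ w ∈ U, ρ ((y ^ i) a) w = ρ a w := by
      intro i
      induction i with
      | zero => intro a _ w _; simp
      | succ i ih =>
        intro a ha w hw
        rw [pow_succ, MulAut.mul_apply, ih _ (hyY a ha) w hw, hstar a ha w hw]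
    intro i
    induction i with
    | zero => intro a _ w _; simp [nrm]
    | succ i ih =>
      intro a ha w hw
      rw [nrm, map_mul, Module.End.mul_apply, h1 i a ha w hw, ih a ha _ (hUinv a w hw), pow_succ,
        Module.End.mul_apply]
  obtain ⟨r, hr⟩ := exists_root_of_coprime Q hcop
  have hYsc : ∀ a ∈ Y, ∀ w ∈ U, ρ a w = (μ (nrm y 2 a) ^ r) • w := by
    intro a ha w hw
    have h1 : ∀ w ∈ U, ρ (a ^ 2) w = μ (nrm y 2 a) • w := by
      intro w hw
      rw [map_pow, ← hnρ 2 a ha w hw]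
      exact (mem_wtSpace.mp hw) _ (nrm_mem_center hcop hyp hQ hC a)
    have h2 : ∀ (i : ℕ), ∀ w ∈ U, ρ ((a ^ 2) ^ i) w = (μ (nrm y 2 a) ^ i) • w := by
      intro i
      induction i with
      | zero => intro w _; simp
      | succ i ih =>
        intro w hw
        rw [pow_succ (a ^ 2), map_mul, Module.End.mul_apply, h1 w hw, map_smul, ih w hw, smul_smul, pow_succ,
          mul_comm]
    have h3 := h2 r w hw
    rwa [hr a] at h3
  have hYτ : ∀ a ∈ Y, ∀ w ∈ U, ρ (τ₁ a) w = ρ a w := by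
    intro a ha w hw
    rw [hYsc _ (hτ₁Y a ha) w hw, hYsc a ha w hw]
    have h1 : y * τ₁ = τ₁ * y := by rw [hy, hτ₁, ← pow_add, ← pow_add, add_comm]
    rw [nrm_map y τ₁ h1, hPμ _ (nrm_mem_center hcop hyp hQ hC a)]
  -- the irreducible constituent
  have hUne : U ≠ ⊥ := by
    intro h
    rw [h, Submodule.mem_bot] at hvU
    exact hv0 hvU
  obtain ⟨W, hWU, hWne, hWinv, hWmin⟩ := exists_minimal_invariant
    (fun W => ∀ u, ∀ w ∈ W, ρ u w ∈ W) hUne hUinv
  haveI : Nontrivial W := (Submodule.nontrivial_iff_ne_bot).mpr hWne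
  set σ := subrep ρ W hWinv with hσ
  have hσcoe : ∀ u (w : W), ((σ u w : W) : V) = ρ u w := fun u w => rfl
  have hσirr := subrep_irr ρ W hWinv hWmin
  have hσY : ∀ a ∈ Y, ∃ c : K, σ a = c • 1 := by
    intro a ha
    refine ⟨μ (nrm y 2 a) ^ r, ?_⟩
    ext w
    rw [hσcoe, hYsc a ha w (hWU w.2)]
    rfl
  have hμ1of : ∀ z ∈ Z, ∀ w ∈ U, w ≠ 0 → ρ z w = w → μ z = 1 := by
    intro z hz w hw hw0 h2
    rw [(mem_wtSpace.mp hw) z hz] at h2
    have h3 : (μ z - 1) • w = 0 := by rw [sub_smul, h2, one_smul, sub_self]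
    exact sub_eq_zero.mp ((smul_eq_zero.mp h3).resolve_right hw0)
  have hσU : ∀ z ∈ Z, σ z = 1 → ∀ w ∈ U, ρ z w = w := by
    intro z hz h1 w hw
    obtain ⟨w₁, hw₁⟩ := exists_ne (0 : W)
    have h2 : ρ z (w₁ : V) = w₁ := by
      rw [← hσcoe, h1]; rfl
    have h4 := hμ1of z hz w₁ (hWU w₁.2) (fun h => hw₁ (Subtype.ext h)) h2
    rw [(mem_wtSpace.mp hw) z hz, h4, one_smul]
  have hcommρ : ∀ u t w, ρ (u * t * u⁻¹ * t⁻¹) (ρ t (ρ u w)) = ρ u (ρ t w) := by
    intro u t w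
    rw [← Module.End.mul_apply, ← Module.End.mul_apply, ← Module.End.mul_apply, ← map_mul, ← map_mul, ← map_mul]
    congr 2
    group
  have hnd : ∀ u, u ∉ Y → ∃ t, σ (u * t * u⁻¹ * t⁻¹) ≠ 1 := by
    intro u hu
    by_contra hcon
    push Not at hcon
    apply hu
    rw [hY, mem_commOn]
    intro t w hw
    rw [← hcommρ u t w]
    exact hσU _ (hQ u t) (hcon t) _ (hUinv t _ (hUinv u w hw))
  have hYfix : ∀ u ∈ Y, ∀ t, ∀ w ∈ U, ρ (u * t * u⁻¹ * t⁻¹) w = w := by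
    intro u hu t w hw
    have h2 : w = ρ t (ρ u (ρ u⁻¹ (ρ t⁻¹ w))) := by
      rw [← Module.End.mul_apply, ← Module.End.mul_apply, ← Module.End.mul_apply, ← map_mul, ← map_mul,
        ← map_mul]
      have : t * u * u⁻¹ * t⁻¹ = 1 := by group
      rw [this, map_one]; rfl
    have h3 := hcommρ u t (ρ u⁻¹ (ρ t⁻¹ w))
    rw [hY, mem_commOn] at hu
    rw [← h2, hu t _ (hUinv _ _ (hUinv _ _ hw)), ← h2] at h3
    exact h3
  have hYmem : ∀ u, u ∈ Y ↔ ∀ t, μ (u * t * u⁻¹ * t⁻¹) = 1 := by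
    intro u
    constructor
    · intro hu t
      exact hμ1of _ (hQ u t) v hvU hv0 (hYfix u hu t v hvU)
    · intro h
      rw [hY, mem_commOn]
      intro t w hw
      rw [← hcommρ u t w]
      rw [(mem_wtSpace.mp (hUinv t _ (hUinv u w hw))) _ (hQ u t), h t, one_smul]
  have hYne : Y ≠ ⊤ := by
    intro h
    have ha₀Y : a₀ ∈ Y := by rw [h]; exact mem_top a₀
    exact hμz₀ ((hYmem a₀).mp ha₀Y b₀)
  have hτσ : ∀ a ∈ Y, σ (τ₁ a) = σ a := by
    intro a ha
    ext w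
    rw [hσcoe, hσcoe, hYτ a ha w (hWU w.2)]
  obtain ⟨T, hT, hTN⟩ := exists_operator σ hσirr Y hσY hcomm hnd hcard τ₁ hτσ hN₁pos hτ₁N
  have hfree : ∀ i : ℕ, 0 < i → i < 2 ^ (m₁ + 1) → ∀ u, (τ₁ ^ i) u * u⁻¹ ∈ Y → u ∈ Y := by
    intro i hi0 hi u hu
    obtain ⟨s, hs⟩ := exists_pow_eq hp hτ₁N hi0 hi
    rw [hτ₁y] at hs
    have h1 : ∀ s : ℕ, (τ₁ ^ (i * s)) u * u⁻¹ ∈ Y := by
      intro s
      induction s with
      | zero => simp [Y.one_mem]
      | succ s ih =>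
        have h2 : (τ₁ ^ (i * (s + 1))) u * u⁻¹ = (τ₁ ^ (i * s)) ((τ₁ ^ i) u * u⁻¹) * ((τ₁ ^ (i * s)) u * u⁻¹) := by
          rw [mul_add, mul_one, pow_add, MulAut.mul_apply, map_mul, map_inv]
          group
        rw [h2]
        exact Y.mul_mem (mulAut_pow_char τ₁ Y hτ₁Y _ _ hu) ih
    have h2 := h1 s
    rw [hs] at h2
    apply mem_of_quot hcop hyp hQ hC Y hZY hyY
    have h3 := hYn.conj_mem _ h2 u⁻¹
    have h4 : u⁻¹ * (y u * u⁻¹) * u⁻¹⁻¹ = u⁻¹ * y u := by group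
    rwa [h4] at h3
  obtain ⟨h, ζ, hhinj, hζ, hhX, hhρ⟩ := exists_semi_embedding σ hσirr ρ τ₁ hN₁pos T hT hTN X₁ hX₁i hX₁N W.subtype (by
    intro h
    apply hWne
    rw [eq_bot_iff]
    intro w hw
    have := congrArg (fun f : W →ₗ[K] V => f ⟨w, hw⟩) h
    rw [Submodule.mem_bot]
    simpa using this) (fun u w => rfl)
  have hhU : ∀ w, h w ∈ U := by
    intro w
    rw [hU, mem_wtSpace]
    intro z hz
    rw [← hhρ]
    have h1 : σ z w = μ z • w := by
      apply Subtype.ext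
      rw [hσcoe, (mem_wtSpace.mp (hWU w.2)) z hz]
      rfl
    rw [h1, map_smul]
  have hT' : ∀ u, (ζ • T) * σ u = σ (τ₁ u) * (ζ • T) := by
    intro u
    rw [smul_mul_assoc, hT, mul_smul_comm]
  have hT'N : (ζ • T) ^ 2 ^ (m₁ + 1) = 1 := by rw [smul_pow, hζ, one_smul, hTN]
  have hle := core_commutant σ hσirr Y hσY hcomm hnd hcard τ₁ hτ₁Y hN₁pos hτ₁N hfree hYne (ζ • T) hT' hT'N
  have hidx := index_eq_sq σ hσirr Y hσY hcomm hnd hcard
  have harith := eigen_arith hN₁pos.ne' (by rw [Nat.cast_pow]; exact pow_ne_zero _ hpK) (ζ • T) hT'N hle (by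
    left
    intro w hw
    apply hhinj
    rw [map_zero]
    apply hno₁ _ (hhU w)
    rw [hhX, hw])
  have hD0 : 0 < finrank K W := finrank_pos
  have hD1 : finrank K W ≠ 1 := by
    intro h3
    rw [h3, one_pow] at hidx
    exact hYne (Subgroup.index_eq_one.mp hidx)
  have hdne : finrank K W = 2 ^ (m₁ + 1) - 1 := by
    rcases harith with h1 | h1
    · omega
    · exact h1
  have h4 : 2 ≤ m₁ + 1 := by
    by_contra hcon
    have h5 : m₁ = 0 := by omega
    rw [h5] at hdne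
    norm_num at hdne
    exact hD1 hdne
  obtain ⟨m₂, hm₂⟩ : ∃ m₂, m₁ = m₂ + 1 := ⟨m₁ - 1, by omega⟩
  have hN₁4 : 2 ^ (m₁ + 1) = 4 * 2 ^ m₂ := by rw [hm₂, pow_succ, pow_succ]; ring
  have h2K : (2 : K) ≠ 0 := by exact_mod_cast hpK
  obtain ⟨ω, hω⟩ := IsAlgClosed.exists_pow_nat_eq (-1 : K) (show 0 < 2 ^ m₂ from pow_pos (by norm_num) _)
  have hω1 : ω ^ 2 ^ (m₁ + 1) = 1 := by
    rw [hN₁4, mul_comm, pow_mul, hω]; ring
  have hωne : ω ≠ 1 := by
    rintro rfl
    rw [one_pow] at hω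
    apply h2K
    linear_combination hω
  obtain ⟨w, hw0, hw⟩ := exists_eigen_of_full hN₁pos.ne' (by rw [Nat.cast_pow]; exact pow_ne_zero _ hpK) (ζ • T) hT'N hle
    hdne (fun w hw => by
      apply hhinj
      rw [map_zero]
      apply hno₁ _ (hhU w)
      rw [hhX, hw]) ω hω1 hωne
  have hX₁w : X₁ (h w) = ω • h w := by rw [hhX, hw, map_smul]
  have hpw : ∀ j : ℕ, (X₁ ^ j) (h w) = ω ^ j • h w := by
    intro j
    induction j with
    | zero => simp
    | succ j ih => rw [pow_succ', Module.End.mul_apply, ih, map_smul, hX₁w, smul_smul, pow_succ]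
  have e1 : 2 ^ (n + 1) = P * 2 ^ (m₂ + 1) := by rw [← hPm₁, hm₂]
  have e2 : 2 ^ n = P * 2 ^ m₂ := by
    have h6 : 2 * 2 ^ n = 2 * (P * 2 ^ m₂) := by
      calc 2 * 2 ^ n = 2 ^ (n + 1) := by rw [pow_succ]; ring
        _ = P * 2 ^ (m₂ + 1) := e1
        _ = _ := by rw [pow_succ]; ring
    omega
  refine ⟨h w, fun h0 => hw0 (hhinj (by rw [h0, map_zero])), ?_, ?_⟩
  · rw [e1, pow_mul, ← hX₁, hpw, pow_succ, pow_mul, hω]
    simp
  · rw [e2, pow_mul, ← hX₁, hpw, hω]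
    simp

end

theorem gross_qgroup {G : Type*} [Group G] [Finite G] {q n : ℕ} [hqf : Fact q.Prime] (hpq : 2 ≠ q)
    (hpK : ((2 : ℕ) : K) ≠ 0) (hqK : (q : K) ≠ 0)
    (ρ : G →* Module.End K V) (hinj : Function.Injective ρ) {x : G} (hx : x ^ 2 ^ (n + 1 + 1) = 1)
    (Q₀ : Subgroup G) (hQ₀ : IsPGroup q Q₀) (hxQ : x ∈ normalizer (Q₀ : Set G))
    (hno : ∀ w, ρ x w = w → w = 0) (hne : ∃ u ∈ Q₀, x ^ 2 ^ (n + 1) * u ≠ u * x ^ 2 ^ (n + 1)) :
    ∃ w, w ≠ 0 ∧ ρ (x ^ 2 ^ (n + 1)) w = w ∧ ρ (x ^ 2 ^ n) w = -w := by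
  classical
  have hp : Nat.Prime 2 := Nat.prime_two
  have hq := hqf.out
  set y := x ^ 2 ^ (n + 1) with hy
  have hyp : y ^ 2 = 1 := by rw [hy, ← pow_mul, ← pow_succ, hx]
  set B := zpowers x with hB
  set A := zpowers y with hA
  have hAB : A ≤ B := by
    rw [hA, zpowers_le, hy]
    exact B.pow_mem (mem_zpowers x) _
  have hAn : B ≤ normalizer (A : Set G) := by
    rw [hA, hB, hy]
    exact le_normalizer_zpowers_pow x _
  have hAcard : Nat.card A ∣ 2 := by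
    rw [hA, Nat.card_zpowers]
    exact orderOf_dvd_of_pow_eq_one hyp
  have hAcop : (Nat.card A).Coprime q :=
    Nat.Coprime.coprime_dvd_left hAcard ((Nat.coprime_primes hp hq).mpr hpq)
  have hcomA : ∀ U : Subgroup G, ⁅U, A⁆ = ⊥ ↔ ∀ u ∈ U, y * u = u * y := by
    intro U
    rw [commutator_eq_bot_iff_le_centralizer]
    constructor
    · intro h u hu
      exact (mem_centralizer_iff.mp (h hu) y (mem_zpowers y))
    · intro h u hu
      rw [mem_centralizer_iff]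
      rintro _ ⟨i, rfl⟩
      exact (show Commute y u from h u hu).zpow_left i
  -- minimal Q
  obtain ⟨Q, hQmem, hQmin⟩ := WellFounded.has_min (wellFounded_lt (α := Subgroup G))
    {Q | Q ≤ Q₀ ∧ B ≤ normalizer (Q : Set G) ∧ ⁅Q, A⁆ ≠ ⊥} ⟨Q₀, le_rfl, by rw [hB, zpowers_le]; exact hxQ, by
      obtain ⟨u, hu, hne⟩ := hne
      intro h
      exact hne ((hcomA Q₀).mp h u hu)⟩
  obtain ⟨hQQ₀, hBQ, hQA⟩ := hQmem
  have hmin : ∀ U : Subgroup G, U < Q → B ≤ normalizer (U : Set G) → ⁅U, A⁆ = ⊥ := by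
    intro U hU hBU
    by_contra hcon
    exact hQmin U ⟨hU.le.trans hQQ₀, hBU, hcon⟩ hU
  have hQ : IsPGroup q Q := hQ₀.to_le hQQ₀
  obtain ⟨hQAQ, hcase, hΦ, _⟩ := hall_higman_reduction (p := q) B A Q hQ hBQ hAB hAn hAcop hQA hmin
  -- the action on Q
  have hxQ' : x ∈ normalizer (Q : Set G) := hBQ (mem_zpowers x)
  set τ : MulAut Q := Q.normalizerMonoidHom ⟨x, hxQ'⟩ with hτ
  have hτc : ∀ u : Q, ((τ u : Q) : G) = x * u * x⁻¹ := fun u => rfl
  have hτpow : ∀ (j : ℕ) (u : Q), (((τ ^ j) u : Q) : G) = x ^ j * u * (x ^ j)⁻¹ := by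
    intro j
    induction j with
    | zero => intro u; simp
    | succ j ih =>
      intro u
      rw [pow_succ', MulAut.mul_apply, hτc, ih, pow_succ']
      group
  have hτN : τ ^ 2 ^ (n + 1 + 1) = 1 := by
    ext u
    rw [hτpow, hx]
    simp
  have hτy : ∀ u : Q, (τ ^ 2 ^ (n + 1)) u = u ↔ y * u = u * y := by
    intro u
    rw [Subtype.ext_iff, hτpow, ← hy, mul_inv_eq_iff_eq_mul]
  set ρQ : Q →* Module.End K V := ρ.comp Q.subtype with hρQ
  have hρQinj : Function.Injective ρQ := hinj.comp Q.subtype_injective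
  have hX : ∀ u : Q, ρ x * ρQ u = ρQ (τ u) * ρ x := by
    intro u
    simp only [hρQ, MonoidHom.comp_apply, Subgroup.coe_subtype]
    rw [← map_mul, ← map_mul, hτc]
    congr 1
    group
  have hXN : ρ x ^ 2 ^ (n + 1 + 1) = 1 := by rw [← map_pow, hx, map_one]
  obtain ⟨e, he⟩ := hQ.exists_card_eq
  have hcop : (Nat.card Q).Coprime 2 := by
    rw [he]
    exact Nat.Coprime.pow_left _ ((Nat.coprime_primes hq hp).mpr hpq.symm)
  have hcard : (Nat.card Q : K) ≠ 0 := by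
    rw [he, Nat.cast_pow]
    exact pow_ne_zero _ hqK
  -- the abelian case
  have hab : ¬ ∀ a b : Q, a * b = b * a := by
    intro hab
    apply hQA
    rw [hcomA]
    intro u hu
    have h1 := star_fpf hcard (⊤ : Subgroup Q) ρQ (U := ⊤) (fun _ _ _ _ => Submodule.mem_top) (by
      intro a _ b _ w _
      rw [← Module.End.mul_apply, ← Module.End.mul_apply, ← map_mul, ← map_mul, hab]) τ (fun a _ => mem_top _)
      (ρ x) hX hp hτN hXN (fun _ _ => Submodule.mem_top) (fun w _ hw => hno w hw) ⟨u, hu⟩ (mem_top _)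
    have h2 : (τ ^ 2 ^ (n + 1)) ⟨u, hu⟩ = ⟨u, hu⟩ := by
      apply hρQinj
      exact LinearMap.ext (fun w => h1 w Submodule.mem_top)
    exact (hτy ⟨u, hu⟩).mp h2
  have hsp : Cfsg.IsSpecial q ↥Q := by
    rcases hcase with h | h
    · exfalso
      apply hab
      intro a b
      exact h.1.is_comm.comm a b
    · exact h
  obtain ⟨_, hfr, hder⟩ := hsp
  have hcomm : ∀ a b : Q, a * b * a⁻¹ * b⁻¹ ∈ center Q := by
    intro a b
    rw [← hder]
    exact commutator_mem_commutator (mem_top a) (mem_top b)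
  have hna : center Q ≠ ⊤ := by
    intro h
    apply hab
    intro a b
    have : b ∈ center Q := by rw [h]; exact mem_top b
    exact mem_center_iff.mp this a
  have hZlt : (center Q).map Q.subtype < Q := by
    refine lt_of_le_of_ne (map_subtype_le _) ?_
    intro h
    apply hna
    rw [eq_top_iff]
    intro u _
    have h1 : (u : G) ∈ (center Q).map Q.subtype := by rw [h]; exact u.2
    obtain ⟨v, hv, hvu⟩ := h1
    have : v = u := Subtype.ext hvu
    rwa [this] at hv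
  have hBZ : B ≤ normalizer (((center Q).map Q.subtype : Subgroup G) : Set G) :=
    hBQ.trans (normalizer_le_normalizer_map _)
  have hC : ∀ u, (τ ^ 2 ^ (n + 1)) u = u ↔ u ∈ center Q := by
    intro u
    rw [hτy]
    constructor
    · intro hu
      set U := Q ⊓ centralizer (A : Set G) with hU
      have h1 : (frattini ↥Q).map Q.subtype ≤ U := by
        rw [hfr, hU]
        refine le_inf hZlt.le ?_
        rw [← commutator_eq_bot_iff_le_centralizer]
        exact hmin _ hZlt hBZ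
      have h2 : B ≤ normalizer (U : Set G) := by
        apply le_normalizer_of_conj_mem
        intro a ha g hg
        rw [hU, mem_inf] at hg ⊢
        refine ⟨(mem_normalizer_iff.mp (hBQ ha) g).mp hg.1, ?_⟩
        rw [mem_centralizer_iff]
        intro b hb
        have h3 : a⁻¹ * b * a ∈ A := by
          have := (mem_normalizer_iff.mp (hAn (B.inv_mem ha)) b).mp hb
          rwa [inv_inv] at this
        have h4 := mem_centralizer_iff.mp hg.2 _ h3
        calc b * (a * g * a⁻¹) = a * ((a⁻¹ * b * a) * g) * a⁻¹ := by group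
          _ = a * (g * (a⁻¹ * b * a)) * a⁻¹ := by rw [h4]
          _ = _ := by group
      rcases hΦ U h1 inf_le_left h2 with h3 | h3
      · have h4 : (u : G) ∈ U := by
          rw [hU, mem_inf]
          refine ⟨u.2, ?_⟩
          rw [mem_centralizer_iff]
          rintro _ ⟨i, rfl⟩
          exact (show Commute y u from hu).zpow_left i
        rw [h3, hfr] at h4
        obtain ⟨v, hv, hvu⟩ := h4
        have : v = u := Subtype.ext hvu
        rwa [this] at hv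
      · exfalso
        apply hQA
        rw [commutator_eq_bot_iff_le_centralizer]
        intro g hg
        rw [← h3] at hg
        exact hg.2
    · intro hu
      exact (hcomA _).mp (hmin _ hZlt hBZ) u (mem_map_of_mem Q.subtype hu)
  obtain ⟨w, hw0, hw1, hw2⟩ := gross_special hpq hpK hcard hQ ρQ hρQinj τ hτN (ρ x) hX hXN hcomm hC hna hno
  exact ⟨w, hw0, by rw [map_pow]; exact hw1, by rw [map_pow]; exact hw2⟩

end Cfsg.Agent.H23
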