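import Mathlib
import Cfsg.Agent.H23.GR1

/-!
Gross: fixed-point-free automorphisms of 2-power order; the middle group.
-/

set_option linter.style.haveILetI false
set_option linter.unusedSectionVars false

namespace Cfsg.Agent.H23

open Module Subgroup

/-- restriction of an automorphism to an invariant subgroup -/
theorem exists_restr {Q : Type*} [Group Q] [Finite Q] (τ : MulAut Q) (S : Subgroup Q) (hS : ∀ a ∈ S, τ a ∈ S) :
    ∃ τ' : MulAut S, ∀ (j : ℕ) (a : S), (((τ' ^ j) a : S) : Q) = (τ ^ j) a := by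
  have hbij : Function.Bijective (fun a : S => (⟨τ (a : Q), hS a a.2⟩ : S)) := by
    apply Finite.injective_iff_bijective.mp
    intro a b hab
    exact Subtype.ext (τ.injective (congrArg Subtype.val hab))
  set f : S →* S :=
    { toFun := fun a => ⟨τ (a : Q), hS a a.2⟩
      map_one' := Subtype.ext (map_one τ)
      map_mul' := fun a b => Subtype.ext (map_mul τ (a : Q) (b : Q)) } with hf
  refine ⟨MulEquiv.ofBijective f hbij, ?_⟩
  intro j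
  induction j with
  | zero => intro a; rfl
  | succ j ih =>
    intro a
    rw [pow_succ', MulAut.mul_apply, pow_succ', MulAut.mul_apply, ← ih]
    rfl

theorem comm_mul_left_of_central {Q : Type*} [Group Q] (hQ : ∀ a b : Q, a * b * a⁻¹ * b⁻¹ ∈ center Q) (a b t : Q) :
    (a * b) * t * (a * b)⁻¹ * t⁻¹ = (a * t * a⁻¹ * t⁻¹) * (b * t * b⁻¹ * t⁻¹) := by
  have h1 := mem_center_iff.mp (hQ b t)
  calc (a * b) * t * (a * b)⁻¹ * t⁻¹ = (a * (b * t * b⁻¹ * t⁻¹)) * (t * a⁻¹ * t⁻¹) := by group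
    _ = (b * t * b⁻¹ * t⁻¹) * (a * (t * a⁻¹ * t⁻¹)) := by rw [h1 a]; simp only [mul_assoc]
    _ = (a * (t * a⁻¹ * t⁻¹)) * (b * t * b⁻¹ * t⁻¹) := (h1 _).symm
    _ = _ := by simp only [mul_assoc]

theorem comm_mul_right_of_central {Q : Type*} [Group Q] (hQ : ∀ a b : Q, a * b * a⁻¹ * b⁻¹ ∈ center Q) (a t t' : Q) :
    a * (t * t') * a⁻¹ * (t * t')⁻¹ = (a * t * a⁻¹ * t⁻¹) * (a * t' * a⁻¹ * t'⁻¹) := by
  have h1 := mem_center_iff.mp (hQ a t')
  calc a * (t * t') * a⁻¹ * (t * t')⁻¹ = (a * t * a⁻¹) * (a * t' * a⁻¹ * t'⁻¹) * t⁻¹ := by group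
    _ = (a * t * a⁻¹) * ((a * t' * a⁻¹ * t'⁻¹) * t⁻¹) := by simp only [mul_assoc]
    _ = (a * t * a⁻¹) * (t⁻¹ * (a * t' * a⁻¹ * t'⁻¹)) := by rw [h1 t⁻¹]
    _ = _ := by simp only [mul_assoc]

variable {K : Type*} [Field K] {Q : Type*} [Group Q] {V : Type*} [AddCommGroup V] [Module K V]
variable [FiniteDimensional K V] [IsAlgClosed K] [Finite Q]

theorem gross_S {n : ℕ} (hpK : ((2 : ℕ) : K) ≠ 0) (hcard : (Nat.card Q : K) ≠ 0) (hcop : (Nat.card Q).Coprime 2)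
    (ρ : Q →* Module.End K V) (hinj : Function.Injective ρ)
    (τ : MulAut Q) (hτN : τ ^ 2 ^ (n + 1 + 1) = 1) (X : Module.End K V) (hX : ∀ u, X * ρ u = ρ (τ u) * X)
    (hXN : X ^ 2 ^ (n + 1 + 1) = 1) (hQ : ∀ a b : Q, a * b * a⁻¹ * b⁻¹ ∈ center Q)
    (𝒟 : Subgroup (MulAut Q))
    (hΔ : ∀ δ ∈ 𝒟, ∃ Δ Δ' : Module.End K V, Δ * Δ' = 1 ∧ Δ' * Δ = 1 ∧ ∀ u, Δ * ρ u = ρ (δ u) * Δ)
    (hDZ : ∀ δ ∈ 𝒟, ∀ z ∈ center Q, δ z = z)
    (hDgen : 𝒟 ≤ closure {ε | ∃ δ ∈ 𝒟, ε = δ * τ ^ 2 ^ (n + 1) * δ⁻¹ * (τ ^ 2 ^ (n + 1))⁻¹})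
    (hD4 : ∀ Y L : Subgroup Q, center Q ≤ Y → (∀ δ ∈ 𝒟, ∀ a ∈ Y, δ a ∈ Y) → center Q ≤ L →
      (∀ δ ∈ 𝒟, ∀ a ∈ Y, a⁻¹ * δ a ∈ L) → Y ≤ L)
    (hno : ∀ w, X w = w → w = 0) {s : Q} (hs : s⁻¹ * (τ ^ 2 ^ (n + 1)) s ∈ center Q) :
    s⁻¹ * (τ ^ 2 ^ n) s ∈ center Q := by
  classical
  have hp : Nat.Prime 2 := Nat.prime_two
  have hN : 0 < 2 ^ (n + 1 + 1) := pow_pos hp.pos _
  set y := τ ^ 2 ^ (n + 1) with hy
  have hyp : y ^ 2 = 1 := by rw [hy, ← pow_mul, ← pow_succ, hτN]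
  set Z := center Q with hZ
  have hτZ : ∀ z ∈ Z, τ z ∈ Z := by
    intro z hz
    rw [hZ, mem_center_iff] at hz ⊢
    intro g
    have := hz (τ.symm g)
    have h2 := congrArg τ this
    simpa using h2
  have hτpZ : ∀ (j : ℕ), ∀ z ∈ Z, (τ ^ j) z ∈ Z := mulAut_pow_char τ Z hτZ
  have hτiZ : ∀ (j : ℕ), ∀ z ∈ Z, (τ ^ j)⁻¹ z ∈ Z := by
    intro j z hz
    rw [hZ, mem_center_iff] at hz ⊢
    intro g
    have := hz ((τ ^ j) g)
    have h2 := congrArg ((τ ^ j)⁻¹ : MulAut Q) this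
    simpa using h2
  have hρZ : ∀ z ∈ Z, ∀ u w, ρ z (ρ u w) = ρ u (ρ z w) := by
    intro z hz u w
    rw [← Module.End.mul_apply, ← Module.End.mul_apply, ← map_mul, ← map_mul, mem_center_iff.mp hz u]
  by_contra hcontra
  set u₀ := s⁻¹ * (τ ^ 2 ^ n) s with hu₀
  obtain ⟨t₀, ht₀⟩ : ∃ t, t * u₀ ≠ u₀ * t := by
    by_contra hcon
    push Not at hcon
    exact hcontra (mem_center_iff.mpr hcon)
  set z₀ := u₀ * t₀ * u₀⁻¹ * t₀⁻¹ with hz₀
  have hz₀Z : z₀ ∈ Z := hQ u₀ t₀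
  have hz₀1 : z₀ ≠ 1 := by
    intro h
    apply ht₀
    rw [hz₀, mul_inv_eq_one, mul_inv_eq_iff_eq_mul] at h
    exact h.symm
  obtain ⟨w₀, hw₀⟩ : ∃ w, ρ z₀ w ≠ w := by
    by_contra hcon
    push Not at hcon
    apply hz₀1
    apply hinj
    rw [map_one]
    exact LinearMap.ext hcon
  have hyZ : ∀ z ∈ Z, y z = z := by
    intro z hz
    have h1 := star_fpf hcard Z ρ (U := ⊤) (fun _ _ _ _ => Submodule.mem_top) (fun a ha b _ u _ => hρZ a ha b u)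
      τ hτZ X hX hp hτN hXN (fun _ _ => Submodule.mem_top) (fun w _ hw => hno w hw)
    exact hinj (LinearMap.ext (fun w => h1 z hz w Submodule.mem_top))
  obtain ⟨v, μ, _, hv0, hμ, hμz₀⟩ := exists_common_eigenvector_ne hcard (Z : Set Q) ρ (U := ⊤)
    (fun a _ u _ => Submodule.mem_top) (fun a ha b _ u _ => hρZ a ha b u) hz₀Z (w := w₀) Submodule.mem_top hw₀
  set U := wtSpace ρ Z μ with hU
  have hvU : v ∈ U := mem_wtSpace.mpr hμ
  have hUinv : ∀ u, ∀ w ∈ U, ρ u w ∈ U := by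
    intro u w hw
    rw [hU, mem_wtSpace] at hw ⊢
    intro z hz
    rw [hρZ z hz, hw z hz, map_smul]
  -- the period of μ
  have hSy : ∀ z ∈ Z, μ ((τ ^ 2 ^ (n + 1)) z) = μ z := by
    intro z hz
    rw [← hy, hyZ z hz]
  have hex : ∃ j : ℕ, 0 < j ∧ ∀ z ∈ Z, μ ((τ ^ j) z) = μ z := ⟨2 ^ (n + 1), pow_pos hp.pos _, hSy⟩
  set P := Nat.find hex with hPdef
  have hP0 : 0 < P := (Nat.find_spec hex).1
  have hPμ : ∀ z ∈ Z, μ ((τ ^ P) z) = μ z := (Nat.find_spec hex).2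
  have hPmin : ∀ j, 0 < j → (∀ z ∈ Z, μ ((τ ^ j) z) = μ z) → P ≤ j := fun j hj0 hj => Nat.find_min' hex ⟨hj0, hj⟩
  have hPq : ∀ q : ℕ, ∀ z ∈ Z, μ ((τ ^ (P * q)) z) = μ z := by
    intro q
    induction q with
    | zero => intro z _; simp
    | succ q ih =>
      intro z hz
      rw [mul_add, mul_one, pow_add, MulAut.mul_apply, ih _ (hτpZ P z hz), hPμ z hz]
  have hPdvd : P ∣ 2 ^ (n + 1) := by
    rw [Nat.dvd_iff_mod_eq_zero]
    by_contra hne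
    have h1 := hPmin (2 ^ (n + 1) % P) (Nat.pos_of_ne_zero hne) (by
      intro z hz
      have h2 := hPq (2 ^ (n + 1) / P) ((τ ^ (2 ^ (n + 1) % P)) z) (hτpZ _ z hz)
      rw [← MulAut.mul_apply, ← pow_add, Nat.div_add_mod, hSy z hz] at h2
      exact h2.symm)
    exact absurd (Nat.mod_lt (2 ^ (n + 1)) hP0) (not_lt.mpr h1)
  obtain ⟨k, hk, hPk⟩ := (Nat.dvd_prime_pow hp).mp hPdvd
  set m₁ := n + 1 - k with hm₁
  have hkm : k + (m₁ + 1) = n + 1 + 1 := by omega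
  have hPN₁ : P * 2 ^ (m₁ + 1) = 2 ^ (n + 1 + 1) := by rw [hPk, ← pow_add]; congr 1
  have hPm₁ : P * 2 ^ m₁ = 2 ^ (n + 1) := by rw [hPk, ← pow_add]; congr 1; omega
  have hN₁pos : 0 < 2 ^ (m₁ + 1) := pow_pos hp.pos _
  -- distinct weights
  have hdist : ∀ i j, i < P → j < P → i ≠ j → ∃ a ∈ (Z : Set Q), μ ((τ ^ i)⁻¹ a) ≠ μ ((τ ^ j)⁻¹ a) := by
    have hord : ∀ i j, i < j → j < P → ∃ a ∈ (Z : Set Q), μ ((τ ^ i)⁻¹ a) ≠ μ ((τ ^ j)⁻¹ a) := by
      intro i j hij hj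
      by_contra hcon
      push Not at hcon
      have h1 := hPmin (j - i) (by omega) (by
        intro z hz
        have h2 := hcon ((τ ^ j) z) (hτpZ j z hz)
        have h3 : (τ ^ i)⁻¹ ((τ ^ j) z) = (τ ^ (j - i)) z := by
          rw [← MulAut.mul_apply]
          congr 1
          rw [inv_mul_eq_iff_eq_mul, ← pow_add]
          congr 1; omega
        rw [h3, MulAut.inv_apply_self] at h2
        exact h2)
      omega
    intro i j hi hj hij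
    rcases lt_or_gt_of_ne hij with h | h
    · exact hord i j h hj
    · obtain ⟨a, ha, hne⟩ := hord j i h hi
      exact ⟨a, ha, hne.symm⟩
  set τ₁ := τ ^ P with hτ₁
  set X₁ := X ^ P with hX₁
  have hX₁i : ∀ u, X₁ * ρ u = ρ (τ₁ u) * X₁ := intertwine_pow ρ τ X hX P
  have hX₁N : X₁ ^ 2 ^ (m₁ + 1) = 1 := by rw [hX₁, ← pow_mul, hPN₁, hXN]
  have hτ₁N : τ₁ ^ 2 ^ (m₁ + 1) = 1 := by rw [hτ₁, ← pow_mul, hPN₁, hτN]
  have hτ₁y : τ₁ ^ 2 ^ m₁ = y := by rw [hτ₁, ← pow_mul, hPm₁]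
  have hX₁U : ∀ w ∈ U, X₁ w ∈ U := by
    intro w hw
    rw [hU, mem_wtSpace] at hw ⊢
    intro z hz
    have h1 := congrArg (fun f : Module.End K V => f w) (hX₁i ((τ ^ P)⁻¹ z))
    simp only [Module.End.mul_apply, hτ₁, MulAut.apply_inv_self] at h1
    rw [← h1, hw _ (hτiZ P z hz), map_smul]
    have h2 := hPμ ((τ ^ P)⁻¹ z) (hτiZ P z hz)
    rw [MulAut.apply_inv_self] at h2
    rw [h2]
  have hno₁ : ∀ u ∈ U, X₁ u = u → u = 0 := by
    intro u hu hfu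
    by_contra hu0
    refine orbit_sum_ne_zero (Z : Set Q) ρ X hP0 (fun j b => μ ((τ ^ j)⁻¹ b)) hdist hu0 ?_
      (hno _ (sum_orbit_fixed X hfu))
    intro j _ z hz
    have h1 := congrArg (fun f : Module.End K V => f u) (intertwine_pow ρ τ X hX j ((τ ^ j)⁻¹ z))
    simp only [Module.End.mul_apply, MulAut.apply_inv_self] at h1
    rw [← h1, (mem_wtSpace.mp hu) _ (hτiZ j z hz), map_smul]
  haveI : Nontrivial V := ⟨v, 0, hv0⟩
  -- the radical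
  set Y := commOn ρ U hUinv with hY
  have hZY : Z ≤ Y := by
    intro z hz
    rw [hY, mem_commOn]
    intro t w _
    exact hρZ z hz t w
  have hcomm : ∀ u t : Q, u * t * u⁻¹ * t⁻¹ ∈ Y := fun u t => hZY (hQ u t)
  haveI hYn : Y.Normal := normal_of_comm hcomm
  have hτ₁Y : ∀ a ∈ Y, τ₁ a ∈ Y := by
    intro a ha
    rw [hY, mem_commOn] at ha ⊢
    intro t w hw
    have hX₁c : X₁ ((X₁ ^ (2 ^ (m₁ + 1) - 1)) w) = w := by
      rw [← Module.End.mul_apply, ← pow_succ', Nat.sub_add_cancel hN₁pos, hX₁N]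
      rfl
    set w' := (X₁ ^ (2 ^ (m₁ + 1) - 1)) w with hw'
    have hw'U : w' ∈ U := pow_mem_of_inv X₁ hX₁U _ w hw
    have hi : ∀ u x, ρ (τ₁ u) (X₁ x) = X₁ (ρ u x) := by
      intro u x
      have := congrArg (fun f : Module.End K V => f x) (hX₁i u)
      simpa using this.symm
    obtain ⟨t', rfl⟩ := τ₁.surjective t
    rw [← hX₁c, hi, hi, hi, hi, ha t' w' hw'U]
  have hYcomm : ∀ a ∈ Y, ∀ b ∈ Y, ∀ u ∈ U, ρ a (ρ b u) = ρ b (ρ a u) := fun a ha b _ u hu => ha b u hu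
  have hstar := star_fpf hcard Y ρ (U := U) (fun a _ u hu => hUinv a u hu) hYcomm τ₁ hτ₁Y X₁ hX₁i hp hτ₁N hX₁N
    hX₁U hno₁
  rw [hτ₁y] at hstar
  have hyY : ∀ v ∈ Y, y v ∈ Y := by
    intro v hv
    rw [← hτ₁y]
    exact mulAut_pow_char τ₁ Y hτ₁Y _ v hv
  have hX₁surj : ∀ w ∈ U, ∃ w' ∈ U, X₁ w' = w := by
    intro w hw
    refine ⟨(X₁ ^ (2 ^ (m₁ + 1) - 1)) w, pow_mem_of_inv X₁ hX₁U _ w hw, ?_⟩
    rw [← Module.End.mul_apply, ← pow_succ', Nat.sub_add_cancel hN₁pos, hX₁N]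
    rfl
  have hi₁ : ∀ u x, ρ (τ₁ u) (X₁ x) = X₁ (ρ u x) := by
    intro u x
    have := congrArg (fun f : Module.End K V => f x) (hX₁i u)
    simpa using this.symm
  have hyy : ∀ a, y (y a) = a := by
    intro a
    rw [← MulAut.mul_apply, ← sq, hyp, MulAut.one_apply]
  have hμ1of : ∀ z ∈ Z, ∀ w ∈ U, w ≠ 0 → ρ z w = w → μ z = 1 := by
    intro z hz w hw hw0 h2
    rw [(mem_wtSpace.mp hw) z hz] at h2
    have h3 : (μ z - 1) • w = 0 := by rw [sub_smul, h2, one_smul, sub_self]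
    exact sub_eq_zero.mp ((smul_eq_zero.mp h3).resolve_right hw0)
  have hcommρ : ∀ u t w, ρ (u * t * u⁻¹ * t⁻¹) (ρ t (ρ u w)) = ρ u (ρ t w) := by
    intro u t w
    rw [← Module.End.mul_apply, ← Module.End.mul_apply, ← Module.End.mul_apply, ← map_mul, ← map_mul, ← map_mul]
    congr 2
    group
  have hYfix : ∀ u ∈ Y, ∀ t, ∀ w ∈ U, ρ (u * t * u⁻¹ * t⁻¹) w = w := by
    intro u hu t w hw
    have h2 : w = ρ t (ρ u (ρ u⁻¹ (ρ t⁻¹ w))) := by
      rw [← Module.End.mul_apply, ← Module.End.mul_apply, ← Module.End.mul_apply, ← map_mul, ← map_mul,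
        ← map_mul]
      have : t * u * u⁻¹ * t⁻¹ = 1 := by group
      rw [this, map_one]; rfl
    have h3 := hcommρ u t (ρ u⁻¹ (ρ t⁻¹ w))
    rw [hY, mem_commOn] at hu
    rw [← h2, hu t _ (hUinv _ _ (hUinv _ _ hw)), ← h2] at h3
    exact h3
  have hYmem : ∀ u, u ∈ Y ↔ ∀ t, μ (u * t * u⁻¹ * t⁻¹) = 1 := by
    intro u
    constructor
    · intro hu t
      exact hμ1of _ (hQ u t) v hvU hv0 (hYfix u hu t v hvU)
    · intro h
      rw [hY, mem_commOn]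
      intro t w hw
      rw [← hcommρ u t w]
      rw [(mem_wtSpace.mp (hUinv t _ (hUinv u w hw))) _ (hQ u t), h t, one_smul]
  have hYne : Y ≠ ⊤ := by
    intro h
    have ha₀Y : u₀ ∈ Y := by rw [h]; exact mem_top u₀
    exact hμz₀ ((hYmem u₀).mp ha₀Y t₀)
  have hYδ : ∀ δ ∈ 𝒟, ∀ a ∈ Y, δ a ∈ Y := by
    intro δ hδ a ha
    rw [hYmem] at ha ⊢
    intro t
    obtain ⟨t', rfl⟩ := δ.surjective t
    have h1 := hDZ δ hδ _ (hQ a t')
    rw [map_mul, map_mul, map_mul, map_inv, map_inv] at h1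
    rw [h1, ha t']
  have hΔU : ∀ δ ∈ 𝒟, ∀ Δ Δ' : Module.End K V, Δ * Δ' = 1 → Δ' * Δ = 1 → (∀ u, Δ * ρ u = ρ (δ u) * Δ) →
      (∀ w ∈ U, Δ w ∈ U) ∧ (∀ w ∈ U, Δ' w ∈ U) := by
    intro δ hδ Δ Δ' h1 h2 h3
    have h4 : ∀ z ∈ Z, Δ * ρ z = ρ z * Δ := by
      intro z hz
      rw [h3, hDZ δ hδ z hz]
    have h5 : ∀ z ∈ Z, Δ' * ρ z = ρ z * Δ' := by
      intro z hz
      calc Δ' * ρ z = Δ' * (ρ z * (Δ * Δ')) := by rw [h1, mul_one]
        _ = Δ' * ((ρ z * Δ) * Δ') := by simp only [mul_assoc]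
        _ = Δ' * ((Δ * ρ z) * Δ') := by rw [h4 z hz]
        _ = (Δ' * Δ) * (ρ z * Δ') := by simp only [mul_assoc]
        _ = _ := by rw [h2, one_mul]
    constructor
    · intro w hw
      rw [hU, mem_wtSpace] at hw ⊢
      intro z hz
      have h6 := congrArg (fun f : Module.End K V => f w) (h4 z hz)
      simp only [Module.End.mul_apply] at h6
      rw [← h6, hw z hz, map_smul]
    · intro w hw
      rw [hU, mem_wtSpace] at hw ⊢
      intro z hz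
      have h6 := congrArg (fun f : Module.End K V => f w) (h5 z hz)
      simp only [Module.End.mul_apply] at h6
      rw [← h6, hw z hz, map_smul]
  -- D commutes with Y on U
  have hδρ : ∀ δ ∈ 𝒟, ∀ a ∈ Y, ∀ w ∈ U, ρ (δ a) w = ρ a w := by
    set 𝒮 : Subgroup (MulAut Q) :=
      { carrier := {ε | (∀ a, ε a ∈ Y ↔ a ∈ Y) ∧ ∀ a ∈ Y, ∀ w ∈ U, ρ (ε a) w = ρ a w}
        mul_mem' := by
          rintro ε₁ ε₂ ⟨h1, h2⟩ ⟨h3, h4⟩
          refine ⟨fun a => ?_, fun a ha w hw => ?_⟩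
          · rw [MulAut.mul_apply, h1, h3]
          · rw [MulAut.mul_apply, h2 _ ((h3 a).mpr ha) w hw, h4 a ha w hw]
        one_mem' := ⟨fun a => Iff.rfl, fun a _ w _ => rfl⟩
        inv_mem' := by
          rintro ε ⟨h1, h2⟩
          have h3 : ∀ a, ε⁻¹ a ∈ Y ↔ a ∈ Y := by
            intro a
            have h4 := h1 (ε⁻¹ a)
            rw [MulAut.apply_inv_self] at h4
            exact h4.symm
          refine ⟨h3, fun a ha w hw => ?_⟩
          have h4 := h2 (ε⁻¹ a) ((h3 a).mpr ha) w hw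
          rw [MulAut.apply_inv_self] at h4
          exact h4.symm } with h𝒮
    have hmem𝒮 : ∀ ε, ε ∈ 𝒮 ↔ (∀ a, ε a ∈ Y ↔ a ∈ Y) ∧ ∀ a ∈ Y, ∀ w ∈ U, ρ (ε a) w = ρ a w := fun ε => Iff.rfl
    have hy𝒮 : y ∈ 𝒮 := by
      rw [hmem𝒮]
      refine ⟨fun a => ⟨fun h => ?_, fun h => hyY a h⟩, fun a ha w hw => hstar a ha w hw⟩
      have h1 := hyY _ h
      rwa [hyy] at h1
    have hle : 𝒟 ≤ 𝒮 := by
      refine hDgen.trans ?_
      rw [closure_le]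
      rintro _ ⟨δ, hδ, rfl⟩
      refine 𝒮.mul_mem ?_ (𝒮.inv_mem hy𝒮)
      have hδY : ∀ a, δ a ∈ Y ↔ a ∈ Y := by
        intro a
        refine ⟨fun h => ?_, fun h => hYδ δ hδ a h⟩
        have h1 := hYδ δ⁻¹ (𝒟.inv_mem hδ) _ h
        rwa [MulAut.inv_apply_self] at h1
      have hδY' : ∀ a, δ⁻¹ a ∈ Y ↔ a ∈ Y := by
        intro a
        have h1 := hδY (δ⁻¹ a)
        rw [MulAut.apply_inv_self] at h1
        exact h1.symm
      rw [hmem𝒮]
      refine ⟨fun a => ?_, fun a ha w hw => ?_⟩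
      · rw [MulAut.mul_apply, MulAut.mul_apply, hδY, hy𝒮.1, hδY']
      · obtain ⟨Δ, Δ', h1, h2, h3⟩ := hΔ δ hδ
        obtain ⟨h4, h5⟩ := hΔU δ hδ Δ Δ' h1 h2 h3
        have h6 : ∀ b w, ρ (δ b) w = Δ (ρ b (Δ' w)) := by
          intro b w
          have h7 : ρ (δ b) = Δ * ρ b * Δ' := by rw [h3, mul_assoc, h1, mul_one]
          rw [h7]; rfl
        rw [MulAut.mul_apply, MulAut.mul_apply, h6, hy𝒮.2 _ ((hδY' a).mpr ha) _ (h5 w hw), ← h6,
          MulAut.apply_inv_self]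
    intro δ hδ a ha w hw
    exact (hle hδ).2 a ha w hw
  -- Y acts by scalars
  have hYsc : ∀ a ∈ Y, ∃ c : K, ∀ w ∈ U, ρ a w = c • w := by
    set L : Subgroup Q :=
      { carrier := {a | ∃ c : K, ∀ w ∈ U, ρ a w = c • w}
        mul_mem' := by
          rintro a b ⟨c, hc⟩ ⟨d, hd⟩
          refine ⟨d * c, fun w hw => ?_⟩
          rw [map_mul, Module.End.mul_apply, hd w hw, map_smul, hc w hw, smul_smul]
        one_mem' := ⟨1, fun w _ => by rw [map_one, one_smul]; rfl⟩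
        inv_mem' := by
          rintro a ⟨c, hc⟩
          refine ⟨c⁻¹, fun w hw => ?_⟩
          have h1 := hc _ (hUinv a⁻¹ w hw)
          rw [← Module.End.mul_apply, ← map_mul, mul_inv_cancel, map_one, Module.End.one_apply] at h1
          by_cases hc0 : c = 0
          · rw [hc0, zero_smul] at h1
            rw [h1, map_zero, smul_zero]
          · have h2 := congrArg (fun z => c⁻¹ • z) h1
            simp only [smul_smul, inv_mul_cancel₀ hc0, one_smul] at h2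
            exact h2.symm } with hL
    have hmemL : ∀ a, a ∈ L ↔ ∃ c : K, ∀ w ∈ U, ρ a w = c • w := fun a => Iff.rfl
    intro a ha
    rw [← hmemL]
    refine hD4 Y L hZY hYδ (fun z hz => ⟨μ z, fun w hw => (mem_wtSpace.mp hw) z hz⟩) ?_ ha
    intro δ hδ b hb
    refine ⟨1, fun w hw => ?_⟩
    rw [map_mul, Module.End.mul_apply, hδρ δ hδ b hb w hw, ← Module.End.mul_apply, ← map_mul, inv_mul_cancel, map_one,
      one_smul]
    rfl
  have hYτ : ∀ a ∈ Y, ∀ w ∈ U, ρ (τ₁ a) w = ρ a w := by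
    intro a ha w hw
    obtain ⟨c, hc⟩ := hYsc a ha
    obtain ⟨w', hw', rfl⟩ := hX₁surj w hw
    rw [hi₁, hc w' hw', map_smul, hc _ hw]
  -- y acts nontrivially modulo Y
  have hy5 : ¬ ∀ a, a⁻¹ * y a ∈ Y := by
    intro hall
    set 𝒮 : Subgroup (MulAut Q) :=
      { carrier := {ε | (∀ a, ε a ∈ Y ↔ a ∈ Y) ∧ ∀ a, a⁻¹ * ε a ∈ Y}
        mul_mem' := by
          rintro ε₁ ε₂ ⟨h1, h2⟩ ⟨h3, h4⟩
          refine ⟨fun a => ?_, fun a => ?_⟩
          · rw [MulAut.mul_apply, h1, h3]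
          · rw [MulAut.mul_apply]
            have h5 := Y.mul_mem (h4 a) (h2 (ε₂ a))
            rwa [mul_assoc, mul_inv_cancel_left] at h5
        one_mem' := ⟨fun a => Iff.rfl, fun a => by rw [MulAut.one_apply, inv_mul_cancel]; exact Y.one_mem⟩
        inv_mem' := by
          rintro ε ⟨h1, h2⟩
          refine ⟨fun a => ?_, fun a => ?_⟩
          · have h4 := h1 (ε⁻¹ a)
            rw [MulAut.apply_inv_self] at h4
            exact h4.symm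
          · have h3 := Y.inv_mem (h2 (ε⁻¹ a))
            rw [MulAut.apply_inv_self, mul_inv_rev, inv_inv] at h3
            exact h3 } with h𝒮
    have hmem𝒮 : ∀ ε, ε ∈ 𝒮 ↔ (∀ a, ε a ∈ Y ↔ a ∈ Y) ∧ ∀ a, a⁻¹ * ε a ∈ Y := fun ε => Iff.rfl
    have hy𝒮 : y ∈ 𝒮 := by
      rw [hmem𝒮]
      refine ⟨fun a => ⟨fun h => ?_, fun h => hyY a h⟩, hall⟩
      have h1 := hyY _ h
      rwa [hyy] at h1
    have hle : 𝒟 ≤ 𝒮 := by
      refine hDgen.trans ?_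
      rw [closure_le]
      rintro _ ⟨δ, hδ, rfl⟩
      refine 𝒮.mul_mem ?_ (𝒮.inv_mem hy𝒮)
      have hδY : ∀ a, δ a ∈ Y ↔ a ∈ Y := by
        intro a
        refine ⟨fun h => ?_, fun h => hYδ δ hδ a h⟩
        have h1 := hYδ δ⁻¹ (𝒟.inv_mem hδ) _ h
        rwa [MulAut.inv_apply_self] at h1
      have hδY' : ∀ a, δ⁻¹ a ∈ Y ↔ a ∈ Y := by
        intro a
        have h1 := hδY (δ⁻¹ a)
        rw [MulAut.apply_inv_self] at h1
        exact h1.symm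
      rw [hmem𝒮]
      refine ⟨fun a => ?_, fun a => ?_⟩
      · rw [MulAut.mul_apply, MulAut.mul_apply, hδY, hy𝒮.1, hδY']
      · rw [MulAut.mul_apply, MulAut.mul_apply]
        have h1 := (hδY _).mpr (hy𝒮.2 (δ⁻¹ a))
        rw [map_mul, map_inv, MulAut.apply_inv_self] at h1
        exact h1
    exact hYne (eq_top_iff.mpr (hD4 ⊤ Y le_top (fun _ _ _ _ => mem_top _) hZY (fun δ hδ a _ => (hle hδ).2 a)))
  -- arithmetic of μ
  have hμ1 : μ 1 = 1 := hμ1of 1 Z.one_mem v hvU hv0 (by rw [map_one]; rfl)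
  have hμm : ∀ z ∈ Z, ∀ z' ∈ Z, μ (z * z') = μ z * μ z' := by
    intro z hz z' hz'
    have h3 : ρ (z * z') v = (μ z * μ z') • v := by
      rw [map_mul, Module.End.mul_apply, hμ z' hz', map_smul, hμ z hz, smul_smul, mul_comm]
    rw [hμ _ (Z.mul_mem hz hz')] at h3
    have h4 : (μ (z * z') - μ z * μ z') • v = 0 := by rw [sub_smul, h3, sub_self]
    exact sub_eq_zero.mp ((smul_eq_zero.mp h4).resolve_right hv0)
  have hβl : ∀ a b t, μ ((a * b) * t * (a * b)⁻¹ * t⁻¹) = μ (a * t * a⁻¹ * t⁻¹) * μ (b * t * b⁻¹ * t⁻¹) := by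
    intro a b t
    rw [comm_mul_left_of_central hQ, hμm _ (hQ a t) _ (hQ b t)]
  have hβr : ∀ a t t', μ (a * (t * t') * a⁻¹ * (t * t')⁻¹) = μ (a * t * a⁻¹ * t⁻¹) * μ (a * t' * a⁻¹ * t'⁻¹) := by
    intro a t t'
    rw [comm_mul_right_of_central hQ, hμm _ (hQ a t) _ (hQ a t')]
  have hβsymm : ∀ a t, μ (a * t * a⁻¹ * t⁻¹) = 1 → μ (t * a * t⁻¹ * a⁻¹) = 1 := by
    intro a t h
    have h1 := hμm _ (hQ a t) _ (hQ t a)
    have h2 : a * t * a⁻¹ * t⁻¹ * (t * a * t⁻¹ * a⁻¹) = 1 := by group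
    rw [h2, hμ1, h, one_mul] at h1
    exact h1.symm
  have hYr : ∀ a, ∀ c ∈ Y, μ (a * c * a⁻¹ * c⁻¹) = 1 := fun a c hc => hβsymm c a ((hYmem c).mp hc a)
  have hodd1 : ∀ z ∈ Z, μ z * μ z = 1 → μ z = 1 := by
    intro z hz h
    have h4 : ∀ j : ℕ, μ (z ^ j) = μ z ^ j := by
      intro j
      induction j with
      | zero => simp [hμ1]
      | succ j ih => rw [pow_succ, hμm _ (Z.pow_mem hz j) _ hz, ih, pow_succ]
    have h5 : μ z ^ Nat.card Q = 1 := by rw [← h4, pow_card_eq_one', hμ1]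
    have h6 : orderOf (μ z) ∣ Nat.gcd (Nat.card Q) 2 :=
      Nat.dvd_gcd (orderOf_dvd_of_pow_eq_one h5) (orderOf_dvd_of_pow_eq_one (by rw [sq, h]))
    rw [hcop, Nat.dvd_one, orderOf_eq_one_iff] at h6
    exact h6
  -- the subgroups S₁ and S₂
  have hQY : ∀ a b : Q ⧸ Y, a * b = b * a := by
    intro a b
    obtain ⟨a, rfl⟩ := QuotientGroup.mk_surjective a
    obtain ⟨b, rfl⟩ := QuotientGroup.mk_surjective b
    rw [← QuotientGroup.mk_mul, ← QuotientGroup.mk_mul, QuotientGroup.eq]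
    have := hcomm (b⁻¹) (a⁻¹)
    have h2 : b⁻¹ * a⁻¹ * b⁻¹⁻¹ * a⁻¹⁻¹ = (a * b)⁻¹ * (b * a) := by group
    rwa [h2] at this
  have hmky : ∀ a b : Q, (a : Q ⧸ Y) = b → ((y a : Q) : Q ⧸ Y) = y b := by
    intro a b h
    rw [QuotientGroup.eq] at h ⊢
    rw [← map_inv, ← map_mul]
    exact hyY _ h
  set S₁ : Subgroup Q :=
    { carrier := {a | ((y a : Q) : Q ⧸ Y) = a}
      mul_mem' := by
        intro a b ha hb
        rw [Set.mem_ofPred_eq] at *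
        rw [map_mul, QuotientGroup.mk_mul, ha, hb, QuotientGroup.mk_mul]
      one_mem' := by rw [Set.mem_ofPred_eq, map_one]
      inv_mem' := by
        intro a ha
        rw [Set.mem_ofPred_eq] at *
        rw [map_inv, QuotientGroup.mk_inv, ha, QuotientGroup.mk_inv] } with hS₁
  have hmemS₁ : ∀ a, a ∈ S₁ ↔ ((y a : Q) : Q ⧸ Y) = a := fun a => Iff.rfl
  set S₂ : Subgroup Q :=
    { carrier := {a | ((y a : Q) : Q ⧸ Y) = (a : Q ⧸ Y)⁻¹}
      mul_mem' := by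
        intro a b ha hb
        rw [Set.mem_ofPred_eq] at *
        rw [map_mul, QuotientGroup.mk_mul, ha, hb, QuotientGroup.mk_mul, mul_inv_rev, hQY]
      one_mem' := by rw [Set.mem_ofPred_eq, map_one, QuotientGroup.mk_one, inv_one]
      inv_mem' := by
        intro a ha
        rw [Set.mem_ofPred_eq] at *
        rw [map_inv, QuotientGroup.mk_inv, ha, QuotientGroup.mk_inv] } with hS₂
  have hmemS₂ : ∀ a, a ∈ S₂ ↔ ((y a : Q) : Q ⧸ Y) = (a : Q ⧸ Y)⁻¹ := fun a => Iff.rfl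
  obtain ⟨r, hr⟩ := exists_root_of_coprime Q hcop
  have hYS₂ : Y ≤ S₂ := by
    intro a ha
    rw [hmemS₂, (QuotientGroup.eq_one_iff a).mpr ha, (QuotientGroup.eq_one_iff (y a)).mpr (hyY a ha), inv_one]
  have hS₁₂ : ∀ a, a ∈ S₁ → a ∈ S₂ → a ∈ Y := by
    intro a h1 h2
    rw [hmemS₁] at h1
    rw [hmemS₂, h1] at h2
    have h3 : (a : Q ⧸ Y) ^ 2 = 1 := by
      rw [sq]
      nth_rewrite 1 [h2]
      rw [inv_mul_cancel]
    rw [← QuotientGroup.eq_one_iff, ← hr a, QuotientGroup.mk_pow, QuotientGroup.mk_pow, h3, one_pow]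
  have hdec : ∀ a, ∃ b ∈ S₁, ∃ c ∈ S₂, a = b * c := by
    intro a
    have hb0 : a * y a ∈ S₁ := by
      rw [hmemS₁, map_mul, hyy, QuotientGroup.mk_mul, QuotientGroup.mk_mul, hQY]
    have hc0 : a * (y a)⁻¹ ∈ S₂ := by
      rw [hmemS₂, map_mul, map_inv, hyy, QuotientGroup.mk_mul, QuotientGroup.mk_mul, QuotientGroup.mk_inv,
        QuotientGroup.mk_inv, mul_inv_rev, inv_inv]
    have hb := S₁.pow_mem hb0 r
    have hc := S₂.pow_mem hc0 r
    set b := (a * y a) ^ r with hbdef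
    set c := (a * (y a)⁻¹) ^ r with hcdef
    have h1 : ((b * c : Q) : Q ⧸ Y) = a := by
      have h2 : Commute ((a * y a : Q) : Q ⧸ Y) ((a * (y a)⁻¹ : Q) : Q ⧸ Y) := hQY _ _
      rw [QuotientGroup.mk_mul, hbdef, hcdef, QuotientGroup.mk_pow, QuotientGroup.mk_pow, ← h2.mul_pow,
        ← QuotientGroup.mk_mul]
      have h3 : ((a * y a * (a * (y a)⁻¹) : Q) : Q ⧸ Y) = ((a ^ 2 : Q) : Q ⧸ Y) := by
        simp only [QuotientGroup.mk_mul, QuotientGroup.mk_inv, sq]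
        rw [hQY (a : Q ⧸ Y) (((y a : Q) : Q ⧸ Y)⁻¹), mul_assoc, mul_inv_cancel_left]
      rw [h3, ← QuotientGroup.mk_pow, hr a]
    have h4 : (b * c)⁻¹ * a ∈ Y := QuotientGroup.eq.mp h1
    refine ⟨b, hb, b⁻¹ * a, ?_, by group⟩
    have h5 : b⁻¹ * a = c * ((b * c)⁻¹ * a) := by group
    rw [h5]
    exact S₂.mul_mem hc (hYS₂ h4)
  have hS12 : ∀ a ∈ S₁, ∀ b ∈ S₂, μ (a * b * a⁻¹ * b⁻¹) = 1 := by
    intro a ha b hb
    rw [hmemS₁] at ha
    rw [hmemS₂] at hb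
    have h1 : a⁻¹ * y a ∈ Y := QuotientGroup.eq.mp ha.symm
    have h2 : b * y b ∈ Y := by
      rw [← QuotientGroup.eq_one_iff, QuotientGroup.mk_mul, hb, mul_inv_cancel]
    have h3 := hyZ _ (hQ a b)
    rw [map_mul, map_mul, map_mul, map_inv, map_inv] at h3
    have h4 : y a = a * (a⁻¹ * y a) := by group
    have h5 : y b = b⁻¹ * (b * y b) := by group
    have h6 : μ (a * b * a⁻¹ * b⁻¹) = μ (a * b⁻¹ * a⁻¹ * b⁻¹⁻¹) := by
      rw [← h3, h4, h5, hβl, hβr, hYr a _ h2, (hYmem _).mp h1, mul_one, mul_one]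
    apply hodd1 _ (hQ a b)
    nth_rewrite 1 [h6]
    rw [← hβr a b⁻¹ b]
    have h7 : a * (b⁻¹ * b) * a⁻¹ * (b⁻¹ * b)⁻¹ = 1 := by group
    rw [h7, hμ1]
  have hcommU : ∀ a ∈ S₁, ∀ b ∈ S₂, ∀ w ∈ U, ρ a (ρ b w) = ρ b (ρ a w) := by
    intro a ha b hb w hw
    rw [← hcommρ a b w, (mem_wtSpace.mp (hUinv b _ (hUinv a w hw))) _ (hQ a b), hS12 a ha b hb, one_smul]
  -- restriction to S₂
  have hy₁ : y * τ₁ = τ₁ * y := by rw [hy, hτ₁, ← pow_add, ← pow_add, add_comm]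
  have hy₁a : ∀ a, y (τ₁ a) = τ₁ (y a) := by
    intro a
    rw [← MulAut.mul_apply, hy₁, MulAut.mul_apply]
  have hτ₁S₂ : ∀ a ∈ S₂, τ₁ a ∈ S₂ := by
    intro a ha
    rw [hmemS₂] at ha ⊢
    have h2 : a * y a ∈ Y := by
      rw [← QuotientGroup.eq_one_iff, QuotientGroup.mk_mul, ha, mul_inv_cancel]
    have h3 := hτ₁Y _ h2
    rw [map_mul] at h3
    rw [hy₁a, eq_inv_iff_mul_eq_one, hQY, ← QuotientGroup.mk_mul]
    exact (QuotientGroup.eq_one_iff _).mpr h3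
  have hτ₁S₁ : ∀ a ∈ S₁, τ₁ a ∈ S₁ := by
    intro a ha
    rw [hmemS₁] at ha ⊢
    have h2 : a⁻¹ * y a ∈ Y := QuotientGroup.eq.mp ha.symm
    have h3 := hτ₁Y _ h2
    rw [map_mul, map_inv] at h3
    rw [hy₁a]
    exact (QuotientGroup.eq.mpr h3).symm
  obtain ⟨τ₂, hτ₂⟩ := exists_restr τ₁ S₂ hτ₁S₂
  have hτ₂1 : ∀ a : S₂, ((τ₂ a : S₂) : Q) = τ₁ a := by
    intro a
    have := hτ₂ 1 a
    rwa [pow_one, pow_one] at this
  have hτ₂N : τ₂ ^ 2 ^ (m₁ + 1) = 1 := by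
    ext a
    rw [hτ₂, hτ₁N]
    rfl
  set ρ₂ : S₂ →* Module.End K V := ρ.comp S₂.subtype with hρ₂
  have hρ₂a : ∀ (u : S₂) w, ρ₂ u w = ρ (u : Q) w := fun u w => rfl
  have hUne : U ≠ ⊥ := by
    intro h
    rw [h, Submodule.mem_bot] at hvU
    exact hv0 hvU
  obtain ⟨W, hWU, hWne, hWinv, hWmin⟩ := exists_minimal_invariant
    (fun W => ∀ u : S₂, ∀ w ∈ W, ρ₂ u w ∈ W) hUne (fun u w hw => hUinv u w hw)
  haveI : Nontrivial W := (Submodule.nontrivial_iff_ne_bot).mpr hWne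
  set σ := subrep ρ₂ W hWinv with hσ
  have hσcoe : ∀ (u : S₂) (w : W), ((σ u w : W) : V) = ρ (u : Q) w := fun u w => rfl
  have hσirr := subrep_irr ρ₂ W hWinv hWmin
  obtain ⟨w₁, hw₁⟩ := exists_ne (0 : W)
  have hw₁' : (w₁ : V) ≠ 0 := fun h => hw₁ (Subtype.ext h)
  set Y₂ := Y.subgroupOf S₂ with hY₂
  have hσY : ∀ a ∈ Y₂, ∃ c : K, σ a = c • 1 := by
    intro a ha
    obtain ⟨c, hc⟩ := hYsc a (mem_subgroupOf.mp ha)
    refine ⟨c, ?_⟩
    ext w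
    rw [hσcoe, hc w (hWU w.2)]
    rfl
  have hcomm₂ : ∀ u t : S₂, u * t * u⁻¹ * t⁻¹ ∈ Y₂ := fun u t => mem_subgroupOf.mpr (hcomm u t)
  have hnd : ∀ u, u ∉ Y₂ → ∃ t, σ (u * t * u⁻¹ * t⁻¹) ≠ 1 := by
    intro u hu
    by_contra hcon
    push Not at hcon
    apply hu
    rw [hY₂, mem_subgroupOf, hYmem]
    intro t
    obtain ⟨b, hb, c, hc, rfl⟩ := hdec t
    rw [hβr, hβsymm _ _ (hS12 b hb u u.2), one_mul]
    have h1 := congrArg (fun f : Module.End K W => ((f w₁ : W) : V)) (hcon ⟨c, hc⟩)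
    simp only [Module.End.one_apply] at h1
    rw [hσcoe] at h1
    exact hμ1of _ (hQ u c) _ (hWU w₁.2) hw₁' h1
  have hτσ : ∀ a ∈ Y₂, σ (τ₂ a) = σ a := by
    intro a ha
    ext w
    rw [hσcoe, hσcoe, hτ₂1, hYτ a (mem_subgroupOf.mp ha) w (hWU w.2)]
  have hcard₂ : (Nat.card S₂ : K) ≠ 0 := by
    intro h
    apply hcard
    rw [← S₂.card_mul_index, Nat.cast_mul, h, zero_mul]
  have hY₂ne : Y₂ ≠ ⊤ := by
    intro h
    apply hy5
    intro a
    obtain ⟨b, hb, c, hc, rfl⟩ := hdec a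
    have hcY : c ∈ Y := by
      have h1 : (⟨c, hc⟩ : S₂) ∈ Y₂ := by rw [h]; exact mem_top _
      exact mem_subgroupOf.mp h1
    rw [hmemS₁] at hb
    rw [← QuotientGroup.eq, map_mul, QuotientGroup.mk_mul, QuotientGroup.mk_mul, hb,
      (QuotientGroup.eq_one_iff c).mpr hcY, (QuotientGroup.eq_one_iff (y c)).mpr (hyY c hcY)]
  have hτ₂Y : ∀ a ∈ Y₂, τ₂ a ∈ Y₂ := by
    intro a ha
    rw [hY₂, mem_subgroupOf] at ha ⊢
    rw [hτ₂1]
    exact hτ₁Y a ha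
  have hfree : ∀ i : ℕ, 0 < i → i < 2 ^ (m₁ + 1) → ∀ u, (τ₂ ^ i) u * u⁻¹ ∈ Y₂ → u ∈ Y₂ := by
    intro i hi0 hi u hu
    obtain ⟨s, hs⟩ := exists_pow_eq hp hτ₂N hi0 hi
    have h1 : ∀ s : ℕ, (τ₂ ^ (i * s)) u * u⁻¹ ∈ Y₂ := by
      intro s
      induction s with
      | zero => simp [Y₂.one_mem]
      | succ s ih =>
        have h2 : (τ₂ ^ (i * (s + 1))) u * u⁻¹ = (τ₂ ^ (i * s)) ((τ₂ ^ i) u * u⁻¹) * ((τ₂ ^ (i * s)) u * u⁻¹) := by
          rw [mul_add, mul_one, pow_add, MulAut.mul_apply, map_mul, map_inv]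
          group
        rw [h2]
        exact Y₂.mul_mem (mulAut_pow_char τ₂ Y₂ hτ₂Y _ _ hu) ih
    have h2 := h1 s
    rw [hs, hY₂, mem_subgroupOf, Subgroup.coe_mul, hτ₂, hτ₁y, Subgroup.coe_inv] at h2
    rw [hY₂, mem_subgroupOf]
    apply hS₁₂ _ _ u.2
    rw [hmemS₁]
    have h3 := (QuotientGroup.eq_one_iff _).mpr h2
    rw [QuotientGroup.mk_mul, QuotientGroup.mk_inv] at h3
    exact mul_inv_eq_one.mp h3
  obtain ⟨T, hT, hTN⟩ := exists_operator σ hσirr Y₂ hσY hcomm₂ hnd hcard₂ τ₂ hτσ hN₁pos hτ₂N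
  have hX₁ρ₂ : ∀ u, X₁ * ρ₂ u = ρ₂ (τ₂ u) * X₁ := by
    intro u
    have h1 := hX₁i (u : Q)
    rw [← hτ₂1] at h1
    exact h1
  obtain ⟨h, ζ, hhinj, hζ, hhX, hhρ⟩ := exists_semi_embedding σ hσirr ρ₂ τ₂ hN₁pos T hT hTN X₁ hX₁ρ₂ hX₁N W.subtype (by
    intro h
    apply hWne
    rw [eq_bot_iff]
    intro w hw
    have := congrArg (fun f : W →ₗ[K] V => f ⟨w, hw⟩) h
    rw [Submodule.mem_bot]
    simpa using this) (fun u w => rfl)
  have hZS₂ : Z ≤ S₂ := hZY.trans hYS₂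
  have hgU : ∀ g : W →ₗ[K] V, (∀ u w, g (σ u w) = ρ₂ u (g w)) → ∀ w, g w ∈ U := by
    intro g hg w
    rw [hU, mem_wtSpace]
    intro z hz
    have h2 := hg ⟨z, hZS₂ hz⟩ w
    rw [hρ₂a] at h2
    rw [← h2]
    have h1 : σ ⟨z, hZS₂ hz⟩ w = μ z • w := by
      apply Subtype.ext
      rw [hσcoe, (mem_wtSpace.mp (hWU w.2)) z hz]
      rfl
    rw [h1, map_smul]
  have hT' : ∀ u, (ζ • T) * σ u = σ (τ₂ u) * (ζ • T) := by
    intro u
    rw [smul_mul_assoc, hT, mul_smul_comm]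
  have hT'N : (ζ • T) ^ 2 ^ (m₁ + 1) = 1 := by rw [smul_pow, hζ, one_smul, hTN]
  have hle := core_commutant σ hσirr Y₂ hσY hcomm₂ hnd hcard₂ τ₂ hτ₂Y hN₁pos hτ₂N hfree hY₂ne (ζ • T) hT' hT'N
  have hle₀ := core_commutant σ hσirr Y₂ hσY hcomm₂ hnd hcard₂ τ₂ hτ₂Y hN₁pos hτ₂N hfree hY₂ne T hT hTN
  have hidx := index_eq_sq σ hσirr Y₂ hσY hcomm₂ hnd hcard₂
  have hN₁K : ((2 ^ (m₁ + 1) : ℕ) : K) ≠ 0 := by rw [Nat.cast_pow]; exact pow_ne_zero _ hpK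
  have hnoζ : ∀ w, (ζ • T) w = w → w = 0 := by
    intro w hw
    apply hhinj
    rw [map_zero]
    apply hno₁ _ (hgU h hhρ w)
    rw [hhX, hw]
  have harith := eigen_arith hN₁pos.ne' hN₁K (ζ • T) hT'N hle (Or.inl hnoζ)
  have hD0 : 0 < finrank K W := finrank_pos
  have hD1 : finrank K W ≠ 1 := by
    intro h3
    rw [h3, one_pow] at hidx
    exact hY₂ne (Subgroup.index_eq_one.mp hidx)
  have hdne : finrank K W = 2 ^ (m₁ + 1) - 1 := by
    rcases harith with h1 | h1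
    · omega
    · exact h1
  -- the space of homomorphisms
  set T' := T ^ (2 ^ (m₁ + 1) - 1) with hT'def
  have hTT' : T * T' = 1 := by rw [hT'def, ← pow_succ', Nat.sub_add_cancel hN₁pos, hTN]
  have hT'T : T' * T = 1 := by rw [hT'def, ← pow_succ, Nat.sub_add_cancel hN₁pos, hTN]
  have hT'Tw : ∀ w, T' (T w) = w := by
    intro w
    have := congrArg (fun f : Module.End K W => f w) hT'T
    simpa using this
  have hTT'w : ∀ w, T (T' w) = w := by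
    intro w
    have := congrArg (fun f : Module.End K W => f w) hTT'
    simpa using this
  have hT'N₁ : T' ^ 2 ^ (m₁ + 1) = 1 := by rw [hT'def, ← pow_mul, mul_comm, pow_mul, hTN, one_pow]
  have hT'σ : ∀ u w, T' (σ (τ₂ u) w) = σ u (T' w) := by
    intro u w
    have h1 := congrArg (fun f : Module.End K W => f (T' w)) (hT u)
    simp only [Module.End.mul_apply] at h1
    rw [hTT'w] at h1
    rw [← h1, hT'Tw]
  set H : Submodule K (W →ₗ[K] V) :=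
    { carrier := {g | ∀ u w, g (σ u w) = ρ₂ u (g w)}
      add_mem' := by
        intro a b ha hb u w
        rw [LinearMap.add_apply, ha, hb, LinearMap.add_apply, map_add]
      zero_mem' := by
        intro u w
        simp
      smul_mem' := by
        intro c a ha u w
        rw [LinearMap.smul_apply, ha, LinearMap.smul_apply, map_smul] } with hH
  have hmemH : ∀ g, g ∈ H ↔ ∀ u w, g (σ u w) = ρ₂ u (g w) := fun g => Iff.rfl
  set Ψ : Module.End K (W →ₗ[K] V) :=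
    { toFun := fun g => X₁ ∘ₗ g ∘ₗ T'
      map_add' := by
        intro a b
        ext w
        simp
      map_smul' := by
        intro c a
        ext w
        simp } with hΨ
  have hΨapp : ∀ g : W →ₗ[K] V, ∀ w, Ψ g w = X₁ (g (T' w)) := fun g w => rfl
  have hΨpow : ∀ (k : ℕ) (g : W →ₗ[K] V) (w : W), (Ψ ^ k) g w = (X₁ ^ k) (g ((T' ^ k) w)) := by
    intro k
    induction k with
    | zero => intro g w; simp
    | succ k ih =>
      intro g w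
      rw [pow_succ', Module.End.mul_apply, hΨapp, ih, pow_succ', Module.End.mul_apply, pow_succ (a := T'),
        Module.End.mul_apply]
  have hΨH : ∀ g ∈ H, Ψ g ∈ H := by
    intro g h3 u w
    rw [hmemH] at h3
    simp only [hΨapp]
    obtain ⟨u', rfl⟩ := τ₂.surjective u
    rw [hT'σ, h3, hρ₂a, hρ₂a, hτ₂1, hi₁]
  have hΨrN : (Ψ.restrict hΨH) ^ 2 ^ (m₁ + 1) = 1 := by
    rw [Module.End.pow_restrict]
    ext g w
    rw [LinearMap.coe_restrict_apply, hΨpow, hX₁N, hT'N₁]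
    simp
  have hHscal : ∀ g ∈ H, ∀ w, X₁ (g w) = ζ • g (T w) := by
    obtain ⟨ι, hι, b, c, hc, hcr⟩ := exists_eigenbasis_of_pow hN₁pos.ne' hN₁K (Ψ.restrict hΨH) hΨrN
    have hceq : ∀ i, c i = ζ := by
      intro i
      have hbH := (hmemH _).mp (b i).2
      have hbne : ((b i : H) : W →ₗ[K] V) ≠ 0 := fun h => b.ne_zero i (Subtype.ext h)
      have hbX : ∀ w, X₁ ((b i : W →ₗ[K] V) w) = c i • (b i : W →ₗ[K] V) (T w) := by
        intro w
        have h1 := congrArg (fun z : H => (z : W →ₗ[K] V) (T w)) (hc i)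
        simp only [LinearMap.coe_restrict_apply, hΨapp, hT'Tw] at h1
        exact h1
      have hbinj : Function.Injective (b i : W →ₗ[K] V) := by
        rw [← LinearMap.ker_eq_bot]
        rcases hσirr (LinearMap.ker (b i : W →ₗ[K] V)) (by
          intro u w hw
          rw [LinearMap.mem_ker] at hw ⊢
          rw [hbH, hw, map_zero]) with h | h
        · exact h
        · exact absurd (LinearMap.ker_eq_top.mp h) hbne
      refine missing_unique hN₁pos.ne' hN₁K T hTN hle₀ hdne (hcr i) hζ ?_ hnoζ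
      intro w hw
      apply hbinj
      rw [map_zero]
      apply hno₁ _ (hgU _ hbH w)
      rw [hbX, ← map_smul, ← LinearMap.smul_apply, hw]
    have hΨζ : Ψ.restrict hΨH = ζ • 1 := by
      apply b.ext
      intro i
      rw [hc, hceq]
      rfl
    intro g hg w
    have h1 := congrArg (fun f : Module.End K H => ((f ⟨g, hg⟩ : H) : W →ₗ[K] V) (T w)) hΨζ
    simp only [LinearMap.coe_restrict_apply, hΨapp, hT'Tw] at h1
    exact h1
  -- elements of S₁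
  have hkey : ∀ a ∈ S₁, ∀ g ∈ H, ∀ w, ρ (τ₁ a) (g w) = ρ a (g w) := by
    intro a ha g hg w
    have hg' : (ρ a) ∘ₗ g ∈ H := by
      rw [hmemH]
      intro u w
      rw [LinearMap.comp_apply, (hmemH g).mp hg, hρ₂a, hcommU a ha u u.2 _ (hgU g ((hmemH g).mp hg) w)]
      rfl
    have hζ0 : ζ ≠ 0 := by
      rintro rfl
      rw [zero_pow hN₁pos.ne'] at hζ
      exact zero_ne_one hζ
    obtain ⟨w', rfl⟩ : ∃ w', T w' = w := ⟨T' w, hTT'w w⟩
    have h1 := hHscal _ hg' w'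
    rw [LinearMap.comp_apply, LinearMap.comp_apply, ← hi₁, hHscal g hg w', map_smul] at h1
    exact smul_right_injective _ hζ0 h1
  have hS₁τ : ∀ a ∈ S₁, a⁻¹ * τ₁ a ∈ Y := by
    intro a ha
    set u := a⁻¹ * τ₁ a with hu
    have huS₁ : u ∈ S₁ := S₁.mul_mem (S₁.inv_mem ha) (hτ₁S₁ a ha)
    have hufix : ∀ g ∈ H, ∀ w, ρ u (g w) = g w := by
      intro g hg w
      rw [hu, map_mul, Module.End.mul_apply, hkey a ha g hg w, ← Module.End.mul_apply, ← map_mul, inv_mul_cancel, map_one]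
      rfl
    have hsub : W.subtype ∈ H := by
      rw [hmemH]
      intro u w
      rfl
    rw [hYmem]
    intro t
    obtain ⟨b, hb, c, hc, rfl⟩ := hdec t
    rw [hβr, hS12 u huS₁ c hc, mul_one]
    have hg' : (ρ b) ∘ₗ W.subtype ∈ H := by
      rw [hmemH]
      intro u w
      rw [LinearMap.comp_apply, (hmemH _).mp hsub, hρ₂a, hcommU b hb u u.2 _ (hgU _ ((hmemH _).mp hsub) w)]
      rfl
    have h1 := hufix _ hsub w₁
    have h2 := hufix _ hg' w₁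
    rw [LinearMap.comp_apply] at h2
    have h3 := hcommρ u b (W.subtype w₁)
    rw [h1, h2] at h3
    refine hμ1of _ (hQ u b) (ρ b (W.subtype w₁)) (hUinv b _ (hWU w₁.2)) ?_ h3
    intro h0
    apply hw₁'
    have h4 := congrArg (ρ b⁻¹) h0
    rw [← Module.End.mul_apply, ← map_mul, inv_mul_cancel, map_one, map_zero] at h4
    exact h4
  -- conclusion
  have hsS₁ : s ∈ S₁ := by
    rw [hmemS₁]
    exact (QuotientGroup.eq.mpr (hZY hs)).symm
  have h4 : 2 ≤ m₁ + 1 := by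
    by_contra hcon
    have h5 : m₁ = 0 := by omega
    rw [h5] at hdne
    norm_num at hdne
    exact hD1 hdne
  obtain ⟨m₂, hm₂⟩ : ∃ m₂, m₁ = m₂ + 1 := ⟨m₁ - 1, by omega⟩
  have e1 : 2 ^ (n + 1) = P * 2 ^ (m₂ + 1) := by rw [← hPm₁, hm₂]
  have e2 : 2 ^ n = P * 2 ^ m₂ := by
    have h6 : 2 * 2 ^ n = 2 * (P * 2 ^ m₂) := by
      calc 2 * 2 ^ n = 2 ^ (n + 1) := by rw [pow_succ]; ring
        _ = P * 2 ^ (m₂ + 1) := e1
        _ = _ := by rw [pow_succ]; ring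
    omega
  have hiter : ∀ j : ℕ, s⁻¹ * (τ₁ ^ j) s ∈ Y := by
    intro j
    induction j with
    | zero => simp [Y.one_mem]
    | succ j ih =>
      have h5 : s⁻¹ * (τ₁ ^ (j + 1)) s = (s⁻¹ * (τ₁ ^ j) s) * (τ₁ ^ j) (s⁻¹ * τ₁ s) := by
        rw [pow_succ, MulAut.mul_apply, map_mul, map_inv]; group
      rw [h5]
      exact Y.mul_mem ih (mulAut_pow_char τ₁ Y hτ₁Y j _ (hS₁τ s hsS₁))
  have hu₀Y : u₀ ∈ Y := by
    have h5 := hiter (2 ^ m₂)
    rw [hτ₁, ← pow_mul, ← e2] at h5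
    exact h5
  exact hμz₀ ((hYmem u₀).mp hu₀Y t₀)

end Cfsg.Agent.H23
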