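import Mathlib
import Cfsg.Agent.H23.SG4
import Cfsg.Agent.H1.RepOf
import Cfsg.Agent.H1.Chief
import Cfsg.Agent.H22.Fpf4
import Cfsg.Agent.H23.Coprime5

/-!
Shult-Gross: the group-theoretic form.
-/

set_option linter.style.haveILetI false
set_option linter.unusedSectionVars false

namespace Cfsg.Agent.H23

open Module Subgroup
open scoped commutatorElement Pointwise

universe u

theorem no_fixed_of_fpf {G : Type u} [Group G] [Finite G] {p r N : ℕ} [hp : Fact p.Prime]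
    [hr : Fact r.Prime] (hpr : p ≠ r) {V : Subgroup G} {x : G} (hx : x ^ p ^ N = 1)
    (hfV : ∀ v ∈ V, x * v = v * x → v = 1) {F M : Type*} [Field F] [CharP F r] [AddCommGroup M] [Module F M]
    (R : H1.RepOf V F M) (hxV : x ∈ normalizer (V : Set G)) (w : M) (hw : R.rep ⟨x, hxV⟩ w = w) : w = 0 := by
  set S : Subgroup (normalizer (V : Set G)) := zpowers ⟨x, hxV⟩ with hS
  have hcard : Nat.card S ∣ p ^ N := by
    rw [hS, Nat.card_zpowers, Subgroup.orderOf_mk]
    exact orderOf_dvd_of_pow_eq_one hx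
  have hcardF : (Nat.card S : F) ≠ 0 := by
    apply H1.cast_ne_zero_of_not_dvd (ℓ := r)
    intro h
    exact hpr ((Nat.prime_dvd_prime_iff_eq hr.out hp.out).mp (hr.out.dvd_of_dvd_pow (h.trans hcard))).symm
  have hfix : ∀ s ∈ S, R.rep s w = w := by
    intro s hs
    obtain ⟨i, hi⟩ := mem_powers_iff_mem_zpowers.mpr hs
    rw [← hi]
    simp only [map_pow]
    clear hi hs
    induction i with
    | zero => simp
    | succ i ih => rw [pow_succ, Module.End.mul_apply, hw, ih]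
  have h1 := R.mem_span_fixed S hcardF hfix
  have h2 : (R.ι '' {v : V | ∀ s ∈ S, (s : G) * v * (s : G)⁻¹ = v}) ⊆ {0} := by
    rintro _ ⟨v, hv, rfl⟩
    have h4 := hv ⟨x, hxV⟩ (mem_zpowers _)
    have h5 := hfV v v.2 (mul_inv_eq_iff_eq_mul.mp h4)
    have h6 : v = 1 := Subtype.ext h5
    rw [h6, R.ι_one]
    rfl
  have h3 := Submodule.span_mono (R := F) h2 h1
  rw [Submodule.span_zero_singleton, Submodule.mem_bot] at h3
  exact h3

/-- lifting of fixed points for a fixed-point-free conjugation -/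
theorem fix_lift_conj {G : Type*} [Group G] [Finite G] {x : G} {D N : Subgroup G} (hxD : x ∈ normalizer (D : Set G))
    (_hND : N ≤ D) (hxN : x ∈ normalizer (N : Set G)) (hf : ∀ u ∈ D, x * u = u * x → u = 1) {u : G} (hu : u ∈ D)
    (h : u⁻¹ * (x * u * x⁻¹) ∈ N) : u ∈ N := by
  set τ : MulAut D := D.normalizerMonoidHom ⟨x, hxD⟩ with hτ
  have hτc : ∀ u : D, ((τ u : D) : G) = x * u * x⁻¹ := fun u => rfl
  have h1 := H22.Fpf4.fix_lift (φ := τ) (N.subgroupOf D) (by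
    intro a ha
    rw [mem_subgroupOf] at ha ⊢
    rw [hτc]
    exact (mem_normalizer_iff.mp hxN _).mp ha) (by
    intro a ha
    have h2 := congrArg Subtype.val ha
    rw [hτc] at h2
    exact Subtype.ext (hf a a.2 (mul_inv_eq_iff_eq_mul.mp h2))) (g := ⟨u, hu⟩) (by
    rw [mem_subgroupOf]
    exact h)
  exact mem_subgroupOf.mp h1

theorem commutator_zpowers_le_of {G : Type*} [Group G] [Finite G] {D C : Subgroup G} [hC : C.Normal] {y : G}
    (h : ∀ u ∈ D, (y : G ⧸ C) * (u : G ⧸ C) = (u : G ⧸ C) * (y : G ⧸ C)) : ⁅D, zpowers y⁆ ≤ C := by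
  rw [commutator_le]
  rintro u hu _ ⟨i, rfl⟩
  rw [← QuotientGroup.eq_one_iff]
  have h1 : Commute (u : G ⧸ C) ((y : G ⧸ C) ^ i) := (show Commute (y : G ⧸ C) u from h u hu).symm.zpow_right i
  have h2 : ((⁅u, y ^ i⁆ : G) : G ⧸ C) = ⁅(u : G ⧸ C), (y : G ⧸ C) ^ i⁆ := by
    simp only [commutatorElement_def, QuotientGroup.mk_mul, QuotientGroup.mk_inv, QuotientGroup.mk_zpow]
  have h3 : (fun x => y ^ x) i = y ^ i := rfl
  rw [h3, h2, commutatorElement_eq_one_iff_commute.mpr h1]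

theorem sg_centralizes {G : Type u} [Group G] [Finite G] {p q r n : ℕ} [hp : Fact p.Prime] [hq : Fact q.Prime]
    [hr : Fact r.Prime] (hpq : p ≠ q) (hpr : p ≠ r) (hqr : q ≠ r) (hp2 : p ≠ 2) {x : G} (hx : x ^ p ^ (n + 1) = 1)
    {V D : Subgroup G} [hVn : V.Normal] (hV : Cfsg.IsElementaryAbelian r V) (hD : IsPGroup q D)
    (hxD : x ∈ normalizer (D : Set G)) (hfD : ∀ u ∈ D, x * u = u * x → u = 1)
    (hfV : ∀ v ∈ V, x * v = v * x → v = 1) : ⁅D, zpowers (x ^ p ^ n)⁆ ≤ centralizer (V : Set G) := by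
  obtain ⟨F, _, _, _, M, _, _, _, ⟨R⟩⟩ := H1.exists_repOf (X := G) hV
  set C := centralizer (V : Set G) with hC
  have hmemN : ∀ g : G, g ∈ normalizer (V : Set G) := fun g => by rw [normalizer_eq_top]; exact mem_top g
  set ρ : G →* Module.End F M :=
    { toFun := fun g => R.rep ⟨g, hmemN g⟩
      map_one' := map_one R.rep
      map_mul' := fun a b => map_mul R.rep ⟨a, hmemN a⟩ ⟨b, hmemN b⟩ } with hρ
  have hρapp : ∀ g, ρ g = R.rep ⟨g, hmemN g⟩ := fun g => rfl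
  have hCk : C ≤ ρ.ker := by
    intro g hg
    rw [MonoidHom.mem_ker, hρapp]
    exact R.rep_eq_one_of_mem_centralizer hg
  set ρ' : G ⧸ C →* Module.End F M := QuotientGroup.lift C ρ hCk with hρ'
  have hρ'inj : Function.Injective ρ' := by
    rw [injective_iff_map_eq_one]
    intro a ha
    obtain ⟨a, rfl⟩ := QuotientGroup.mk_surjective a
    rw [QuotientGroup.eq_one_iff]
    have h1 : R.rep ⟨a, hmemN a⟩ = 1 := ha
    exact R.mem_centralizer_of_rep_eq_one h1
  have hne : ∀ s : ℕ, s.Prime → s ≠ r → (s : F) ≠ 0 := by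
    intro s hs hsr h
    rw [CharP.cast_eq_zero_iff F r] at h
    exact hsr ((Nat.prime_dvd_prime_iff_eq hr.out hs).mp h).symm
  have hxnC : x ∈ normalizer (C : Set G) := by rw [normalizer_eq_top]; exact mem_top x
  have key := sg_qgroup (n := n) hpq hp2 (hne p hp.out hpr) (hne q hq.out hqr) ρ' hρ'inj (x := (x : G ⧸ C))
    (by rw [← QuotientGroup.mk_pow, hx]; rfl) (D.map (QuotientGroup.mk' C)) (hD.map _) (by
      rw [mem_normalizer_iff]
      have h0 : ∀ g : G ⧸ C, g ∈ D.map (QuotientGroup.mk' C) → (x : G ⧸ C) * g * (x : G ⧸ C)⁻¹ ∈ D.map (QuotientGroup.mk' C) := by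
        rintro _ ⟨d, hd, rfl⟩
        exact ⟨x * d * x⁻¹, (mem_normalizer_iff.mp hxD d).mp hd, rfl⟩
      have h0' : ∀ g : G ⧸ C, g ∈ D.map (QuotientGroup.mk' C) → (x : G ⧸ C)⁻¹ * g * (x : G ⧸ C) ∈ D.map (QuotientGroup.mk' C) := by
        rintro _ ⟨d, hd, rfl⟩
        refine ⟨x⁻¹ * d * x, ?_, rfl⟩
        have := (mem_normalizer_iff.mp (inv_mem hxD) d).mp hd
        rwa [inv_inv] at this
      intro g
      refine ⟨h0 g, fun h => ?_⟩
      have h1 := h0' _ h
      have h2 : (x : G ⧸ C)⁻¹ * ((x : G ⧸ C) * g * (x : G ⧸ C)⁻¹) * (x : G ⧸ C) = g := by group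
      rwa [h2] at h1) (by
      rintro _ ⟨d, hd, rfl⟩ h
      have h1 : (x : G ⧸ C) * (d : G ⧸ C) = (d : G ⧸ C) * (x : G ⧸ C) := h
      rw [← QuotientGroup.mk_mul, ← QuotientGroup.mk_mul] at h1
      have h2 := QuotientGroup.eq.mp h1.symm
      have h3 : (d * x)⁻¹ * (x * d) = x⁻¹ * (d⁻¹ * (x * d * x⁻¹)) * x⁻¹⁻¹ := by group
      rw [h3] at h2
      have h4 : d⁻¹ * (x * d * x⁻¹) ∈ C := by
        have h5 := (inferInstance : C.Normal).conj_mem _ h2 x
        have h6 : x * (x⁻¹ * (d⁻¹ * (x * d * x⁻¹)) * x⁻¹⁻¹) * x⁻¹ = d⁻¹ * (x * d * x⁻¹) := by group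
        rwa [h6] at h5
      have h5 : d⁻¹ * (x * d * x⁻¹) ∈ D ⊓ C :=
        mem_inf.2 ⟨D.mul_mem (D.inv_mem hd) ((mem_normalizer_iff.mp hxD d).mp hd), h4⟩
      have h6 := fix_lift_conj hxD inf_le_left (by
        rw [mem_normalizer_iff]
        intro g
        rw [mem_inf, mem_inf, mem_normalizer_iff.mp hxD g, mem_normalizer_iff.mp hxnC g]) hfD hd h5
      exact (QuotientGroup.eq_one_iff d).mpr (mem_inf.1 h6).2) (by
      intro w hw
      exact no_fixed_of_fpf hpr hx hfV R (hmemN x) w hw)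
  apply commutator_zpowers_le_of
  intro u hu
  have := key (u : G ⧸ C) ⟨u, hu, rfl⟩
  rw [QuotientGroup.mk_pow]
  exact this

end Cfsg.Agent.H23
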