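import Mathlib
import Cfsg.Agent.H23.SG5

/-!
Shult-Gross: the subgroup of order `p` acts trivially modulo the Fitting subgroup.
-/

set_option linter.style.haveILetI false
set_option linter.unusedSectionVars false

namespace Cfsg.Agent.H23

open Module Subgroup
open scoped commutatorElement Pointwise

universe u

theorem mem_normalizer_map_mk {G : Type*} [Group G] {x : G} {D : Subgroup G} {V : Subgroup G} [V.Normal]
    (hxD : x ∈ normalizer (D : Set G)) :
    (x : G ⧸ V) ∈ normalizer ((D.map (QuotientGroup.mk' V) : Subgroup (G ⧸ V)) : Set (G ⧸ V)) := by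
  rw [mem_normalizer_iff]
  have h0 : ∀ g : G ⧸ V, g ∈ D.map (QuotientGroup.mk' V) → (x : G ⧸ V) * g * (x : G ⧸ V)⁻¹ ∈ D.map (QuotientGroup.mk' V) := by
    rintro _ ⟨d, hd, rfl⟩
    exact ⟨x * d * x⁻¹, (mem_normalizer_iff.mp hxD d).mp hd, rfl⟩
  have h0' : ∀ g : G ⧸ V, g ∈ D.map (QuotientGroup.mk' V) → (x : G ⧸ V)⁻¹ * g * (x : G ⧸ V) ∈ D.map (QuotientGroup.mk' V) := by
    rintro _ ⟨d, hd, rfl⟩
    refine ⟨x⁻¹ * d * x, ?_, rfl⟩
    have := (mem_normalizer_iff.mp (inv_mem hxD) d).mp hd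
    rwa [inv_inv] at this
  intro g
  refine ⟨h0 g, fun h => ?_⟩
  have h1 := h0' _ h
  have h2 : (x : G ⧸ V)⁻¹ * ((x : G ⧸ V) * g * (x : G ⧸ V)⁻¹) * (x : G ⧸ V) = g := by group
  rwa [h2] at h1

/-- a `q`-subgroup of a normal subgroup which is (central `V`)-by-`q` lies in `O_q`. -/
theorem le_pCore_of_central {G : Type*} [Group G] [Finite G] {q : ℕ} [hq : Fact q.Prime] {V C D : Subgroup G} [V.Normal]
    (hC : C.Normal) (hVZ : C ≤ centralizer (V : Set G))
    (hCq : C.map (QuotientGroup.mk' V) ≤ Cfsg.pCore q (G ⧸ V)) (hDC : D ≤ C) (hD : IsPGroup q D) :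
    D ≤ Cfsg.pCore q G := by
  have hnil : Group.IsNilpotent C := by
    set f : C →* (Cfsg.pCore q (G ⧸ V)) :=
      ((QuotientGroup.mk' V).comp C.subtype).codRestrict _ (fun c => hCq ⟨c, c.2, rfl⟩) with hf
    haveI : Group.IsNilpotent (Cfsg.pCore q (G ⧸ V)) := (H1.pCore_isPGroup q (G ⧸ V)).isNilpotent
    refine Subgroup.isNilpotent_of_ker_le_center f ?_
    intro c hc
    have h1 : (QuotientGroup.mk' V) (c : G) = 1 := congrArg Subtype.val (MonoidHom.mem_ker.mp hc)
    have h2 : (c : G) ∈ V := (QuotientGroup.eq_one_iff _).mp h1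
    rw [mem_center_iff]
    intro g
    apply Subtype.ext
    exact (mem_centralizer_iff.mp (hVZ g.2) c h2).symm
  have hD' : IsPGroup q (D.subgroupOf C) := hD.comap_of_injective _ C.subtype_injective
  obtain ⟨P, hP⟩ := hD'.exists_le_sylow
  have htfae : Group.IsNilpotent C ↔ ∀ (p : ℕ) (_ : Fact p.Prime) (P : Sylow p C), (P : Subgroup C).Normal :=
    (Group.isNilpotent_of_finite_tfae (G := C)).out 0 3
  haveI hPn : (P : Subgroup C).Normal := htfae.mp hnil q hq P
  haveI : (P : Subgroup C).Characteristic := Sylow.characteristic_of_normal P hPn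
  haveI := hC
  haveI : ((P : Subgroup C).map C.subtype).Normal := inferInstance
  refine le_trans ?_ (H1.le_pCore (N := (P : Subgroup C).map C.subtype) inferInstance (P.isPGroup'.map _))
  intro d hd
  exact ⟨⟨d, hDC hd⟩, hP (mem_subgroupOf.mpr hd), rfl⟩

theorem sg_core {p n : ℕ} [hp : Fact p.Prime] (hp2 : p ≠ 2) (N : ℕ) : ∀ (Γ : Type u) [Group Γ] [Finite Γ]
    (G : Subgroup Γ) [G.Normal] (_ : Group.IsSolvable G) (x : Γ) (_ : x ^ p ^ (n + 1) = 1)
    (_ : (Nat.card G).Coprime p) (_ : ∀ g ∈ G, x * g = g * x → g = 1) (q : ℕ) [Fact q.Prime] (_ : p ≠ q)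
    (Q : Subgroup Γ) (_ : Q ≤ G) (_ : IsPGroup q Q) (_ : x ∈ normalizer (Q : Set Γ)), Nat.card Γ = N →
    ⁅Q, zpowers (x ^ p ^ n)⁆ ≤ Cfsg.pCore q Γ := by
  induction N using Nat.strong_induction_on with
  | _ N ih =>
  intro Γ _ _ G hGn hsol x hx hcopG hfG q hqf hpq Q hQG hQ hxQ hcard
  classical
  have hq := hqf.out
  by_cases hG1 : G = ⊥
  · have hQ1 : Q = ⊥ := by rw [eq_bot_iff, ← hG1]; exact hQG
    rw [hQ1, commutator_bot_left]
    exact bot_le
  obtain ⟨V, hVn, hV1, hVG, hVmin⟩ := H1.exists_minimal_normal_le hGn hG1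
  haveI := hVn
  haveI hVsol : Group.IsSolvable V := by
    haveI := hsol
    exact Group.isSolvable_of_isSolvable_injective (f := Subgroup.inclusion hVG) (Subgroup.inclusion_injective hVG)
  obtain ⟨hVab, r, hr, hVr, hVexp⟩ := H1.minimal_normal_solvable hVn hV1 hVmin hVsol
  haveI : Fact r.Prime := ⟨hr⟩
  set y := x ^ p ^ n with hy
  set A := zpowers y with hA
  have hyx : y ∈ zpowers x := (zpowers x).pow_mem (mem_zpowers x) _
  have hAcard : Nat.card A ∣ p ^ 1 := by
    rw [hA, Nat.card_zpowers, pow_one]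
    apply orderOf_dvd_of_pow_eq_one
    rw [hy, ← pow_mul, ← pow_succ, hx]
  have hAQ : A ≤ normalizer (Q : Set Γ) := by
    rw [hA, zpowers_le, hy]
    exact pow_mem hxQ _
  obtain ⟨e, he⟩ := hQ.exists_card_eq
  have hcopAQ : (Nat.card A).Coprime (Nat.card Q) := by
    rw [he]
    exact Nat.Coprime.coprime_dvd_left hAcard (Nat.Coprime.pow _ _ ((Nat.coprime_primes hp.out hq).mpr hpq))
  set D := ⁅Q, A⁆ with hD
  have hDQ : D ≤ Q := commutator_le_of_le_normalizer hAQ
  have hDA : ⁅D, A⁆ = D := commutator_commutator_eq hAQ hcopAQ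
  have hDq : IsPGroup q D := hQ.to_le hDQ
  have hxA : x ∈ normalizer (A : Set Γ) := le_normalizer_zpowers_pow x _ (mem_zpowers x)
  have hxD : x ∈ normalizer (D : Set Γ) := by
    rw [H1.mem_normalizer_iff_conj_smul, hD, conj_smul_commutator, H1.mem_normalizer_iff_conj_smul.mp hxQ,
      H1.mem_normalizer_iff_conj_smul.mp hxA]
  have hrp : p ≠ r := by
    rintro rfl
    obtain ⟨m, hm⟩ := hVr.exists_card_eq
    have h1 : m ≠ 0 := by
      rintro rfl
      rw [pow_zero, Subgroup.card_eq_one] at hm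
      exact hV1 hm
    have h2 : p ∣ Nat.card G := (hm ▸ dvd_pow_self p h1 : p ∣ Nat.card V).trans (card_dvd_of_le hVG)
    have h3 := Nat.dvd_gcd h2 (dvd_refl p)
    rw [hcopG] at h3
    exact hp.out.one_lt.ne' (Nat.dvd_one.mp h3)
  -- induction
  have hlt : Nat.card (Γ ⧸ V) < N := by
    rw [← hcard, ← Subgroup.index_eq_card]
    have h1 := V.card_mul_index
    have h2 : 1 < Nat.card V := by
      rw [Subgroup.one_lt_card_iff_ne_bot]; exact hV1
    have h3 : 0 < V.index := Nat.pos_of_ne_zero Subgroup.index_ne_zero_of_finite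
    nlinarith
  have hDV : D.map (QuotientGroup.mk' V) ≤ Cfsg.pCore q (Γ ⧸ V) := by
    haveI := hsol
    haveI : Group.IsSolvable (G.map (QuotientGroup.mk' V)) := Group.isSolvable_of_surjective
      ((QuotientGroup.mk' V).subgroupMap_surjective G)
    haveI : (G.map (QuotientGroup.mk' V)).Normal := hGn.map _ (QuotientGroup.mk'_surjective V)
    have h1 := ih _ hlt (Γ ⧸ V) (G.map (QuotientGroup.mk' V)) inferInstance (x : Γ ⧸ V)
      (by rw [← QuotientGroup.mk_pow, hx]; rfl)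
      (Nat.Coprime.coprime_dvd_left (card_map_dvd G (QuotientGroup.mk' V)) hcopG) (by
        rintro _ ⟨g, hg, rfl⟩ h
        have h1 : (x : Γ ⧸ V) * (g : Γ ⧸ V) = (g : Γ ⧸ V) * (x : Γ ⧸ V) := h
        rw [← QuotientGroup.mk_mul, ← QuotientGroup.mk_mul] at h1
        have h2 := QuotientGroup.eq.mp h1.symm
        have h3 : (g * x)⁻¹ * (x * g) = x⁻¹ * (g⁻¹ * (x * g * x⁻¹)) * x⁻¹⁻¹ := by group
        rw [h3] at h2
        have h4 : g⁻¹ * (x * g * x⁻¹) ∈ V := by
          have h5 := hVn.conj_mem _ h2 x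
          have h6 : x * (x⁻¹ * (g⁻¹ * (x * g * x⁻¹)) * x⁻¹⁻¹) * x⁻¹ = g⁻¹ * (x * g * x⁻¹) := by group
          rwa [h6] at h5
        have h6 := fix_lift_conj (by rw [normalizer_eq_top]; exact mem_top x) hVG
          (by rw [normalizer_eq_top]; exact mem_top x) hfG hg h4
        exact (QuotientGroup.eq_one_iff g).mpr h6) q hpq (Q.map (QuotientGroup.mk' V)) (map_mono hQG) (hQ.map _)
      (mem_normalizer_map_mk hxQ) rfl
    refine le_trans (le_of_eq ?_) h1
    rw [hD, map_commutator, hA, MonoidHom.map_zpowers, hy, map_pow]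
    rfl
  by_cases hqr : q = r
  · subst hqr
    have h1 : IsPGroup q ((Cfsg.pCore q (Γ ⧸ V)).comap (QuotientGroup.mk' V)) :=
      (H1.pCore_isPGroup q (Γ ⧸ V)).comap_of_ker_isPGroup _ (by rw [QuotientGroup.ker_mk']; exact hVr)
    refine le_trans ?_ (H1.le_pCore (N := (Cfsg.pCore q (Γ ⧸ V)).comap (QuotientGroup.mk' V)) inferInstance h1)
    exact map_le_iff_le_comap.mp hDV
  · have h1 := sg_centralizes (V := V) hpq hrp hqr hp2 hx ⟨hVab, hVexp⟩ hDq hxD
      (fun u hu => hfG u (hQG (hDQ hu))) (fun v hv => hfG v (hVG hv))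
    rw [← hy, ← hA, hDA] at h1
    refine le_pCore_of_central (V := V)
      (C := (Cfsg.pCore q (Γ ⧸ V)).comap (QuotientGroup.mk' V) ⊓ centralizer (V : Set Γ)) inferInstance inf_le_right ?_
      (le_inf (map_le_iff_le_comap.mp hDV) h1) hDq
    exact (map_mono inf_le_left).trans (map_comap_le _ _)

end Cfsg.Agent.H23
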