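import Mathlib
import Cfsg.Agent.H23.SG6

/-!
Shult-Gross: automorphism form and chains.
-/

set_option linter.style.haveILetI false
set_option linter.unusedSectionVars false

namespace Cfsg.Agent.H23

open Module Subgroup
open scoped commutatorElement Pointwise

universe u

theorem quot_aut {G : Type*} [Group G] [Finite G] (σ : MulAut G) (hf : ∀ g : G, σ g = g → g = 1)
    (N : Subgroup G) [N.Normal] (hN : ∀ x ∈ N, σ x ∈ N) :
    ∃ τ : MulAut (G ⧸ N), (∀ (j : ℕ) (g : G), (τ ^ j) (g : G ⧸ N) = (((σ ^ j) g : G) : G ⧸ N)) ∧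
      ∀ x : G ⧸ N, τ x = x → x = 1 := by
  have hmap : N.map (σ : G ≃* G).toMonoidHom = N := by
    apply Subgroup.eq_of_le_of_card_ge
    · rintro _ ⟨x, hx, rfl⟩; exact hN x hx
    · rw [Subgroup.card_map_of_injective (σ : G ≃* G).injective]
  set τ : MulAut (G ⧸ N) := QuotientGroup.congr N N σ hmap with hτ
  have hτ1 : ∀ g : G, τ (g : G ⧸ N) = ((σ g : G) : G ⧸ N) := fun g => rfl
  refine ⟨τ, ?_, ?_⟩
  · intro j
    induction j with
    | zero => intro g; rfl
    | succ j ih =>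
      intro g
      rw [pow_succ', MulAut.mul_apply, ih, hτ1, pow_succ', MulAut.mul_apply]
  · intro x hx
    obtain ⟨g, rfl⟩ := QuotientGroup.mk_surjective x
    have h1 : ((σ g : G) : G ⧸ N) = (g : G ⧸ N) := hx
    have h2 : g⁻¹ * σ g ∈ N := QuotientGroup.eq.1 h1.symm
    exact (QuotientGroup.eq_one_iff g).2 (Cfsg.Agent.H22.Fpf4.fix_lift N hN hf h2)

/-- a fixed-point-free automorphism of `p`-power order acts on a `p'`-group -/
theorem coprime_of_fpf {G : Type*} [Group G] [Finite G] {p N : ℕ} [hp : Fact p.Prime] (σ : MulAut G)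
    (hσ : σ ^ p ^ N = 1) (hf : ∀ g : G, σ g = g → g = 1) : (Nat.card G).Coprime p := by
  have hP : IsPGroup p (zpowers σ) := by
    rintro ⟨g, i, rfl⟩
    refine ⟨N, ?_⟩
    apply Subtype.ext
    change (σ ^ i) ^ p ^ N = 1
    rw [← zpow_natCast, ← zpow_mul, mul_comm, zpow_mul, zpow_natCast, hσ, one_zpow]
  have h1 := hP.card_modEq_card_fixedPoints G
  have h2 : Nat.card (MulAction.fixedPoints (zpowers σ) G) = 1 := by
    rw [Nat.card_eq_one_iff_unique]
    refine ⟨⟨?_⟩, ⟨⟨1, ?_⟩⟩⟩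
    · rintro ⟨a, ha⟩ ⟨b, hb⟩
      have ha1 := hf a (ha ⟨σ, mem_zpowers σ⟩)
      have hb1 := hf b (hb ⟨σ, mem_zpowers σ⟩)
      exact Subtype.ext (ha1.trans hb1.symm)
    · rintro ⟨g, hg⟩
      change g 1 = 1
      exact map_one g
  rw [h2] at h1
  rw [Nat.coprime_comm, Nat.Prime.coprime_iff_not_dvd hp.out]
  intro h3
  have h4 : Nat.card G ≡ 0 [MOD p] := (Nat.modEq_zero_iff_dvd).mpr h3
  have h5 := h1.symm.trans h4
  rw [Nat.modEq_zero_iff_dvd] at h5
  exact hp.out.one_lt.ne' (Nat.dvd_one.mp h5)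

theorem sg_fitting {G : Type u} [Group G] [Finite G] (hG : Group.IsSolvable G) {p n : ℕ} [hp : Fact p.Prime]
    (hp2 : p ≠ 2) (σ : MulAut G) (hσ : σ ^ p ^ (n + 1) = 1) (hf : ∀ g : G, σ g = g → g = 1) (g : G) :
    g⁻¹ * (σ ^ p ^ n) g ∈ Cfsg.fittingSubgroup G := by
  classical
  haveI := hG
  have hcop := coprime_of_fpf σ hσ hf
  set Γ := G ⋊[(zpowers σ).subtype] (zpowers σ) with hΓ
  haveI : Finite Γ := Finite.of_equiv _ (SemidirectProduct.equivProd).symm
  set ι : G →* Γ := SemidirectProduct.inl with hι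
  have hιinj : Function.Injective ι := SemidirectProduct.inl_injective
  set x : Γ := SemidirectProduct.inr ⟨σ, mem_zpowers σ⟩ with hx
  have hconj : ∀ (j : ℕ) (g : G), x ^ j * ι g * (x ^ j)⁻¹ = ι ((σ ^ j) g) := by
    intro j g
    have h1 : x ^ j = SemidirectProduct.inr ((⟨σ, mem_zpowers σ⟩ : zpowers σ) ^ j) := by
      rw [hx, map_pow]
    rw [h1, hι, ← map_inv, ← SemidirectProduct.inl_aut]
    rfl
  have hxN : x ^ p ^ (n + 1) = 1 := by
    rw [hx, ← map_pow]
    have : (⟨σ, mem_zpowers σ⟩ : zpowers σ) ^ p ^ (n + 1) = 1 := Subtype.ext hσ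
    rw [this, map_one]
  set G' : Subgroup Γ := ι.range with hG'
  haveI hG'n : G'.Normal := by
    rw [hG', hι, SemidirectProduct.range_inl_eq_ker_rightHom]
    infer_instance
  haveI : Group.IsSolvable G' := Group.isSolvable_of_surjective (f := ι.rangeRestrict) ι.rangeRestrict_surjective
  have hcardG' : Nat.card G' = Nat.card G := Nat.card_congr (ι.ofInjective hιinj).symm.toEquiv
  have hcopG' : (Nat.card G').Coprime p := by rw [hcardG']; exact hcop
  have hfG' : ∀ g ∈ G', x * g = g * x → g = 1 := by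
    rintro _ ⟨g, rfl⟩ h
    have h1 := hconj 1 g
    rw [pow_one, pow_one, h, mul_inv_cancel_right] at h1
    rw [hf g (hιinj h1).symm, map_one]
  set y := x ^ p ^ n with hy
  set A := zpowers y with hA
  set X := zpowers x with hX
  have hXcard : Nat.card X ∣ p ^ (n + 1) := by
    rw [hX, Nat.card_zpowers]
    exact orderOf_dvd_of_pow_eq_one hxN
  have hXcop : (Nat.card X).Coprime (Nat.card G') :=
    Nat.Coprime.coprime_dvd_left hXcard (Nat.Coprime.pow_left _ hcopG'.symm)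
  have hXn : X ≤ normalizer (G' : Set Γ) := by rw [normalizer_eq_top]; exact le_top
  set Φ := Cfsg.fittingSubgroup Γ with hΦ
  haveI : Φ.Normal := inferInstance
  set C : Subgroup Γ := (centralizer ((A.map (QuotientGroup.mk' Φ) : Subgroup (Γ ⧸ Φ)) : Set (Γ ⧸ Φ))).comap (QuotientGroup.mk' Φ) with hC
  have hCmem : ∀ D : Subgroup Γ, ⁅D, A⁆ ≤ Φ ↔ D ≤ C := by
    intro D
    rw [hC, ← map_le_iff_le_comap, ← commutator_eq_bot_iff_le_centralizer, ← map_commutator,
      H1.map_mk'_eq_bot_iff]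
  have hGC : G' ≤ C := by
    have h0 : C.relIndex G' = 1 := by
      by_contra hne
      obtain ⟨q, hq, hqd⟩ := Nat.exists_prime_and_dvd hne
      haveI : Fact q.Prime := ⟨hq⟩
      obtain ⟨P, hP, hXP⟩ := exists_invariant_sylow hXn hXcop (Or.inr inferInstance) q
      have hpq : p ≠ q := by
        rintro rfl
        have h1 : p ∣ Nat.card G' := hqd.trans (Subgroup.relIndex_dvd_card _ _)
        have h3 := Nat.dvd_gcd h1 (dvd_refl p)
        rw [hcopG'] at h3
        exact hq.one_lt.ne' (Nat.dvd_one.mp h3)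
      have h1 := sg_core hp2 _ Γ G' inferInstance x hxN hcopG' hfG' q hpq P hP.le hP.isPGroup
        (hXP (mem_zpowers x)) rfl
      have h2 : Cfsg.pCore q Γ ≤ Φ :=
        H1.le_fitting inferInstance (H1.pCore_isPGroup q Γ).isNilpotent
      have h3 : P ≤ C := (hCmem P).mp (h1.trans h2)
      apply hP.not_dvd
      exact hqd.trans (Subgroup.relIndex_dvd_of_le_left G' h3)
    exact Subgroup.relIndex_eq_one.mp h0
  have h1 : ⁅G', A⁆ ≤ Φ := (hCmem G').mpr hGC
  have h2 : ι (g⁻¹ * (σ ^ p ^ n) g) ∈ Φ := by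
    rw [map_mul, ← hconj, map_inv]
    have h3 : (ι g)⁻¹ * (x ^ p ^ n * ι g * (x ^ p ^ n)⁻¹) = ⁅(ι g)⁻¹, y⁆ := by
      rw [← hy, commutatorElement_def, inv_inv]
      simp only [mul_assoc]
    rw [h3]
    exact h1 (commutator_mem_commutator (G'.inv_mem ⟨g, rfl⟩) (mem_zpowers y))
  have h3 : Φ.comap ι ≤ Cfsg.fittingSubgroup G := by
    apply H1.le_fitting inferInstance
    haveI := H1.fitting_isNilpotent Γ
    have hinj : Function.Injective ((ι.comp (Φ.comap ι).subtype).codRestrict Φ (fun c => c.2)) := by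
      intro a b hab
      have h4 := congrArg Subtype.val hab
      exact Subtype.ext (hιinj h4)
    refine Subgroup.isNilpotent_of_ker_le_center ((ι.comp (Φ.comap ι).subtype).codRestrict Φ (fun c => c.2)) ?_
    rw [(MonoidHom.ker_eq_bot_iff _).mpr hinj]
    exact bot_le
  exact h3 h2

/-- extending a chain of the quotient by a nilpotent normal subgroup -/
theorem chain_of_quot {G : Type*} [Group G] {n : ℕ} (N : Subgroup G) [N.Normal] (hN : Group.IsNilpotent N)
    (h : ∃ F : Fin (n + 1) → Subgroup (G ⧸ N), F 0 = ⊥ ∧ F (Fin.last n) = ⊤ ∧ Monotone F ∧ (∀ i, (F i).Normal) ∧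
      ∀ i : Fin n, ∃ k : ℕ, (F i.succ).lowerCentralSeries k ≤ F i.castSucc) :
    ∃ F : Fin (n + 1 + 1) → Subgroup G, F 0 = ⊥ ∧ F (Fin.last (n + 1)) = ⊤ ∧ Monotone F ∧ (∀ i, (F i).Normal) ∧
      ∀ i : Fin (n + 1), ∃ k : ℕ, (F i.succ).lowerCentralSeries k ≤ F i.castSucc := by
  obtain ⟨F', h0, h1, hmono, hnorm, hnil⟩ := h
  refine ⟨Fin.cons ⊥ (fun i => (F' i).comap (QuotientGroup.mk' N)), Fin.cons_zero _ _, ?_, ?_, ?_, ?_⟩
  · rw [← Fin.succ_last, Fin.cons_succ, h1]
    exact comap_top _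
  · rw [Fin.monotone_iff_le_succ]
    intro i
    refine Fin.cases ?_ (fun j => ?_) i
    · simp
    · rw [← Fin.succ_castSucc, Fin.cons_succ, Fin.cons_succ]
      exact comap_mono (hmono (Fin.castSucc_le_succ j))
  · intro i
    refine Fin.cases ?_ (fun j => ?_) i
    · rw [Fin.cons_zero]; infer_instance
    · rw [Fin.cons_succ]
      haveI := hnorm j
      infer_instance
  · intro i
    refine Fin.cases ?_ (fun j => ?_) i
    · obtain ⟨k, hk⟩ := (Subgroup.isNilpotent_iff_lowerCentralSeries N).mp hN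
      refine ⟨k, ?_⟩
      rw [Fin.cons_succ, h0]
      have h2 : (⊥ : Subgroup (G ⧸ N)).comap (QuotientGroup.mk' N) = N := by
        rw [MonoidHom.comap_bot, QuotientGroup.ker_mk']
      rw [h2, hk]
      exact bot_le
    · obtain ⟨k, hk⟩ := hnil j
      refine ⟨k, ?_⟩
      rw [← Fin.succ_castSucc, Fin.cons_succ, Fin.cons_succ, ← map_le_iff_le_comap, Subgroup.map_lowerCentralSeries,
        map_comap_eq_self_of_surjective (QuotientGroup.mk'_surjective N)]
      exact hk

end Cfsg.Agent.H23
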