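import Mathlib
import Cfsg.Agent.H23.GR2
import Cfsg.Agent.H23.SG7

/-!
Gross: fixed-point-free automorphisms of 2-power order; group-theoretic consequences.
-/

set_option linter.style.haveILetI false
set_option linter.unusedSectionVars false

namespace Cfsg.Agent.H23

open Module Subgroup
open scoped commutatorElement Pointwise

universe u

theorem exists_rep_quot {Γ : Type u} [Group Γ] [Finite Γ] {t : ℕ} [ht : Fact t.Prime] {V : Subgroup Γ}
    [hVn : V.Normal] (hV : Cfsg.IsElementaryAbelian t V) :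
    ∃ (F : Type) (_ : Field F) (_ : IsAlgClosed F) (_ : CharP F t) (M : Type u) (_ : AddCommGroup M)
      (_ : Module F M) (_ : FiniteDimensional F M) (ρ' : Γ ⧸ centralizer (V : Set Γ) →* Module.End F M),
      Function.Injective ρ' ∧
      (∀ g : Γ, ¬ t ∣ Nat.card (zpowers g) → (∀ v ∈ V, g * v = v * g → v = 1) → ∀ w, ρ' g w = w → w = 0) ∧
      (∀ g g' : Γ, ¬ t ∣ Nat.card (zpowers g) → (∀ v ∈ V, g * v = v * g → g' * v = v * g') →
        ∀ w, ρ' g w = w → ρ' g' w = w) := by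
  obtain ⟨F, i1, i2, i3, M, i4, i5, i6, ⟨R⟩⟩ := H1.exists_repOf (X := Γ) hV
  set C := centralizer (V : Set Γ) with hC
  have hmemN : ∀ g : Γ, g ∈ normalizer (V : Set Γ) := fun g => by rw [normalizer_eq_top]; exact mem_top g
  set ρ : Γ →* Module.End F M :=
    { toFun := fun g => R.rep ⟨g, hmemN g⟩
      map_one' := map_one R.rep
      map_mul' := fun a b => map_mul R.rep ⟨a, hmemN a⟩ ⟨b, hmemN b⟩ } with hρ
  have hρapp : ∀ g, ρ g = R.rep ⟨g, hmemN g⟩ := fun g => rfl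
  have hCk : C ≤ ρ.ker := by
    intro g hg
    rw [MonoidHom.mem_ker, hρapp]
    exact R.rep_eq_one_of_mem_centralizer hg
  set ρ' : Γ ⧸ C →* Module.End F M := QuotientGroup.lift C ρ hCk with hρ'
  have hspan : ∀ g : Γ, ¬ t ∣ Nat.card (zpowers g) → ∀ w, ρ' g w = w →
      w ∈ Submodule.span F (R.ι '' {v : V | g * v * g⁻¹ = v}) := by
    intro g hg w hw
    set S : Subgroup (normalizer (V : Set Γ)) := zpowers ⟨g, hmemN g⟩ with hS
    have hcardS : Nat.card S = Nat.card (zpowers g) := by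
      rw [hS, Nat.card_zpowers, Subgroup.orderOf_mk, Nat.card_zpowers]
    have hcardF : (Nat.card S : F) ≠ 0 := by
      rw [hcardS]
      exact H1.cast_ne_zero_of_not_dvd (ℓ := t) hg
    have hw' : R.rep ⟨g, hmemN g⟩ w = w := hw
    have hfix : ∀ s ∈ S, R.rep s w = w := by
      intro s hs
      obtain ⟨i, hi⟩ := mem_powers_iff_mem_zpowers.mpr hs
      rw [← hi]
      simp only [map_pow]
      clear hi hs
      induction i with
      | zero => simp
      | succ i ih => rw [pow_succ, Module.End.mul_apply, hw', ih]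
    have h1 := R.mem_span_fixed S hcardF hfix
    refine Submodule.span_mono ?_ h1
    rintro _ ⟨v, hv, rfl⟩
    exact ⟨v, hv ⟨g, hmemN g⟩ (mem_zpowers _), rfl⟩
  refine ⟨F, i1, i2, i3, M, i4, i5, i6, ρ', ?_, ?_, ?_⟩
  · rw [injective_iff_map_eq_one]
    intro a ha
    obtain ⟨a, rfl⟩ := QuotientGroup.mk_surjective a
    rw [QuotientGroup.eq_one_iff]
    have h1 : R.rep ⟨a, hmemN a⟩ = 1 := ha
    exact R.mem_centralizer_of_rep_eq_one h1
  · intro g hg hfix w hw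
    have h1 := hspan g hg w hw
    have h2 : (R.ι '' {v : V | g * v * g⁻¹ = v}) ⊆ {0} := by
      rintro _ ⟨v, hv, rfl⟩
      have h3 : (v : Γ) = 1 := hfix v v.2 (mul_inv_eq_iff_eq_mul.mp hv)
      have h4 : v = 1 := Subtype.ext h3
      rw [h4, R.ι_one]
      rfl
    have h3 := Submodule.span_mono (R := F) h2 h1
    rwa [Submodule.span_zero_singleton, Submodule.mem_bot] at h3
  · intro g g' hg hfix w hw
    have h1 := hspan g hg w hw
    have h2 : Submodule.span F (R.ι '' {v : V | g * v * g⁻¹ = v}) ≤ LinearMap.ker (ρ' g' - 1) := by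
      rw [Submodule.span_le]
      rintro _ ⟨v, hv, rfl⟩
      rw [SetLike.mem_coe, LinearMap.mem_ker, LinearMap.sub_apply, Module.End.one_apply]
      have h3 := hfix v v.2 (mul_inv_eq_iff_eq_mul.mp hv)
      have h4 : ρ' g' (R.ι v) = R.ι (V.normalizerMonoidHom ⟨g', hmemN g'⟩ v) := R.rep_ι ⟨g', hmemN g'⟩ v
      have h5 : V.normalizerMonoidHom ⟨g', hmemN g'⟩ v = v := by
        apply Subtype.ext
        rw [H1.RepOf.coe_hom, mul_inv_eq_iff_eq_mul]
        exact h3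
      rw [h4, h5, sub_self]
    have h3 := h2 h1
    rw [LinearMap.mem_ker, LinearMap.sub_apply, Module.End.one_apply] at h3
    exact sub_eq_zero.mp h3

theorem not_dvd_card_zpowers {G : Type*} [Group G] {p t N : ℕ} (hp : p.Prime) (ht : t.Prime) (hpt : p ≠ t) {x : G}
    (hx : x ^ p ^ N = 1) : ¬ t ∣ Nat.card (zpowers x) := by
  intro h
  rw [Nat.card_zpowers] at h
  exact hpt ((Nat.prime_dvd_prime_iff_eq ht hp).mp (ht.dvd_of_dvd_pow (h.trans (orderOf_dvd_of_pow_eq_one hx)))).symm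

theorem mk_comm_iff {G : Type*} [Group G] {C : Subgroup G} [hC : C.Normal] {x d : G} :
    (x : G ⧸ C) * (d : G ⧸ C) = (d : G ⧸ C) * (x : G ⧸ C) ↔ d⁻¹ * (x * d * x⁻¹) ∈ C := by
  rw [← QuotientGroup.mk_mul, ← QuotientGroup.mk_mul, eq_comm, QuotientGroup.eq]
  have h3 : (d * x)⁻¹ * (x * d) = x⁻¹ * (d⁻¹ * (x * d * x⁻¹)) * x⁻¹⁻¹ := by group
  rw [h3]
  constructor
  · intro h2
    have h5 := hC.conj_mem _ h2 x
    have h6 : x * (x⁻¹ * (d⁻¹ * (x * d * x⁻¹)) * x⁻¹⁻¹) * x⁻¹ = d⁻¹ * (x * d * x⁻¹) := by group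
    rwa [h6] at h5
  · intro h2
    exact hC.conj_mem _ h2 x⁻¹

theorem fix_lift_map {G : Type*} [Group G] [Finite G] {x : G} {D C : Subgroup G} [hC : C.Normal]
    (hxD : x ∈ normalizer (D : Set G)) (hf : ∀ u ∈ D, x * u = u * x → u = 1) :
    ∀ u ∈ D.map (QuotientGroup.mk' C), (x : G ⧸ C) * u = u * (x : G ⧸ C) → u = 1 := by
  rintro _ ⟨d, hd, rfl⟩ h
  have h1 : (x : G ⧸ C) * (d : G ⧸ C) = (d : G ⧸ C) * (x : G ⧸ C) := h
  rw [mk_comm_iff] at h1
  have hxC : x ∈ normalizer (C : Set G) := by rw [normalizer_eq_top]; exact mem_top x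
  have h5 : d⁻¹ * (x * d * x⁻¹) ∈ D ⊓ C :=
    mem_inf.2 ⟨D.mul_mem (D.inv_mem hd) ((mem_normalizer_iff.mp hxD d).mp hd), h1⟩
  have h6 := fix_lift_conj hxD inf_le_left (by
    rw [mem_normalizer_iff]
    intro g
    rw [mem_inf, mem_inf, mem_normalizer_iff.mp hxD g, mem_normalizer_iff.mp hxC g]) hf hd h5
  exact (QuotientGroup.eq_one_iff d).mpr (mem_inf.1 h6).2

theorem gross_level1 {G : Type u} [Group G] [Finite G] {q r n : ℕ} [hq : Fact q.Prime] [hr : Fact r.Prime]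
    (hq2 : 2 ≠ q) (hr2 : 2 ≠ r) (hqr : q ≠ r) {x : G} (hx : x ^ 2 ^ (n + 1 + 1) = 1) {V D : Subgroup G}
    [hVn : V.Normal] (hV : Cfsg.IsElementaryAbelian r V) (hD : IsPGroup q D) (hxD : x ∈ normalizer (D : Set G))
    (hfV : ∀ v ∈ V, x * v = v * x → v = 1)
    (hne : ¬ ⁅D, zpowers (x ^ 2 ^ (n + 1))⁆ ≤ centralizer (V : Set G)) :
    ∃ v ∈ V, x ^ 2 ^ (n + 1) * v = v * x ^ 2 ^ (n + 1) ∧ x ^ 2 ^ n * v ≠ v * x ^ 2 ^ n := by
  by_contra hcon
  push Not at hcon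
  obtain ⟨F, _, _, _, M, _, _, _, ρ', hinj, hA, hB⟩ := exists_rep_quot hV
  have hne' : ∀ s : ℕ, s.Prime → s ≠ r → (s : F) ≠ 0 := by
    intro s hs hsr h
    rw [CharP.cast_eq_zero_iff F r] at h
    exact hsr ((Nat.prime_dvd_prime_iff_eq hr.out hs).mp h).symm
  apply hne
  apply commutator_zpowers_le_of
  by_contra hcon2
  push Not at hcon2
  obtain ⟨u, hu, hne3⟩ := hcon2
  set C := centralizer (V : Set G) with hC
  obtain ⟨w, hw0, hw1, hw2⟩ := gross_qgroup (n := n) hq2 (hne' 2 Nat.prime_two hr2) (hne' q hq.out hqr) ρ' hinj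
    (x := (x : G ⧸ C)) (by rw [← QuotientGroup.mk_pow, hx]; rfl) (D.map (QuotientGroup.mk' C)) (hD.map _)
    (mem_normalizer_map_mk hxD) (hA x (not_dvd_card_zpowers Nat.prime_two hr.out hr2 hx) hfV)
    ⟨(u : G ⧸ C), ⟨u, hu, rfl⟩, by rw [← QuotientGroup.mk_pow]; exact hne3⟩
  rw [← QuotientGroup.mk_pow] at hw1 hw2
  have hy2 : (x ^ 2 ^ (n + 1)) ^ 2 ^ 1 = 1 := by rw [← pow_mul, ← pow_add, hx]
  have h1 := hB (x ^ 2 ^ (n + 1)) (x ^ 2 ^ n) (not_dvd_card_zpowers Nat.prime_two hr.out hr2 hy2) hcon w hw1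
  rw [h1] at hw2
  apply hw0
  have h2 : ((2 : ℕ) : F) • w = 0 := by
    rw [Nat.cast_ofNat, two_smul]
    nth_rewrite 1 [hw2]
    rw [neg_add_cancel]
  exact (smul_eq_zero.mp h2).resolve_left (hne' 2 Nat.prime_two hr2)

end Cfsg.Agent.H23
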