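import Mathlib
import Cfsg.Agent.H23.GR3

/-!
Gross: fixed-point-free automorphisms of 2-power order; three consecutive sections.
-/

set_option linter.style.haveILetI false
set_option linter.unusedSectionVars false

namespace Cfsg.Agent.H23

open Module Subgroup
open scoped commutatorElement Pointwise

universe u

theorem mem_zpowers_of_sq {G : Type*} [Group G] {y a : G} (hy : y ^ 2 = 1) (ha : a ∈ zpowers y) : a = 1 ∨ a = y := by
  obtain ⟨i, rfl⟩ := ha
  rcases Int.even_or_odd' i with ⟨k, rfl | rfl⟩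
  · left
    change y ^ (2 * k) = 1
    rw [zpow_mul, zpow_ofNat, hy, one_zpow]
  · right
    change y ^ (2 * k + 1) = y
    rw [zpow_add, zpow_mul, zpow_ofNat, hy, one_zpow, one_mul, zpow_one]

set_option maxHeartbeats 1000000 in
theorem gross_lin {K : Type*} [Field K] [IsAlgClosed K] {V : Type*} [AddCommGroup V] [Module K V]
    [FiniteDimensional K V] {E : Type u} [Group E] [Finite E] {q r n : ℕ} [hqf : Fact q.Prime] [hrf : Fact r.Prime]
    (hq2 : 2 ≠ q) (hr2 : 2 ≠ r) (hqr : q ≠ r) (h2K : ((2 : ℕ) : K) ≠ 0) (hrK : (r : K) ≠ 0)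
    (ρ : E →* Module.End K V) (hinj : Function.Injective ρ) {x : E} (hx : x ^ 2 ^ (n + 1 + 1) = 1)
    {S D : Subgroup E} (hS : IsPGroup r S) (hD : IsPGroup q D) (hxS : x ∈ normalizer (S : Set E))
    (hxD : x ∈ normalizer (D : Set E)) (hDS : D ≤ normalizer (S : Set E)) (hDA : ⁅D, zpowers (x ^ 2 ^ (n + 1))⁆ = D)
    (hfS : ∀ s ∈ S, x * s = s * x → s = 1) (hno : ∀ w, ρ x w = w → w = 0) : ⁅S, D⁆ = ⊥ := by
  classical
  by_contra hne
  set y := x ^ 2 ^ (n + 1) with hy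
  have hy2 : y ^ 2 = 1 := by rw [hy, ← pow_mul, ← pow_succ, hx]
  set A := zpowers y with hA
  set B := D ⊔ zpowers x with hB
  have hxB : x ∈ B := mem_sup_right (mem_zpowers x)
  have hDB : D ≤ B := le_sup_left
  have hAB : A ≤ B := by
    rw [hA, zpowers_le, hy]
    exact B.pow_mem hxB _
  have hBD : B ≤ normalizer (D : Set E) := by
    rw [hB, sup_le_iff, zpowers_le]
    exact ⟨le_normalizer, hxD⟩
  -- minimal
  obtain ⟨Q, hQmem, hQmin⟩ := WellFounded.has_min (wellFounded_lt (α := Subgroup E))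
    {Q | Q ≤ S ∧ B ≤ normalizer (Q : Set E) ∧ ⁅Q, D⁆ ≠ ⊥} ⟨S, le_rfl, by
      rw [hB, sup_le_iff, zpowers_le]; exact ⟨hDS, hxS⟩, hne⟩
  obtain ⟨hQS, hBQ, hQD⟩ := hQmem
  have hmin : ∀ U : Subgroup E, U < Q → B ≤ normalizer (U : Set E) → ⁅U, D⁆ = ⊥ := by
    intro U hU hBU
    by_contra hcon
    exact hQmin U ⟨hU.le.trans hQS, hBU, hcon⟩ hU
  have hQ : IsPGroup r Q := hS.to_le hQS
  obtain ⟨e, he⟩ := hQ.exists_card_eq
  obtain ⟨e', he'⟩ := hD.exists_card_eq
  have hcopD : (Nat.card D).Coprime r := by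
    rw [he']
    exact Nat.Coprime.pow_left _ ((Nat.coprime_primes hqf.out hrf.out).mpr hqr)
  obtain ⟨hQDQ, hcase, hΦ, _⟩ := hall_higman_reduction (p := r) B D Q hQ hBQ hDB hBD hcopD hQD hmin
  -- the action on Q
  have hxQ' : x ∈ normalizer (Q : Set E) := hBQ hxB
  set τ : MulAut Q := Q.normalizerMonoidHom ⟨x, hxQ'⟩ with hτ
  have hτc : ∀ u : Q, ((τ u : Q) : E) = x * u * x⁻¹ := fun u => rfl
  have hτpow : ∀ (j : ℕ) (u : Q), (((τ ^ j) u : Q) : E) = x ^ j * u * (x ^ j)⁻¹ := by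
    intro j
    induction j with
    | zero => intro u; simp
    | succ j ih =>
      intro u
      rw [pow_succ', MulAut.mul_apply, hτc, ih, pow_succ']
      group
  have hτN : τ ^ 2 ^ (n + 1 + 1) = 1 := by
    ext u
    rw [hτpow, hx]
    simp
  set ρQ : Q →* Module.End K V := ρ.comp Q.subtype with hρQ
  have hρQinj : Function.Injective ρQ := hinj.comp Q.subtype_injective
  have hX : ∀ u : Q, ρ x * ρQ u = ρQ (τ u) * ρ x := by
    intro u
    simp only [hρQ, MonoidHom.comp_apply, Subgroup.coe_subtype]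
    rw [← map_mul, ← map_mul, hτc]
    congr 1
    group
  have hXN : ρ x ^ 2 ^ (n + 1 + 1) = 1 := by rw [← map_pow, hx, map_one]
  have hcop : (Nat.card Q).Coprime 2 := by
    rw [he]
    exact Nat.Coprime.pow_left _ ((Nat.coprime_primes hrf.out Nat.prime_two).mpr hr2.symm)
  have hcard : (Nat.card Q : K) ≠ 0 := by
    rw [he, Nat.cast_pow]
    exact pow_ne_zero _ hrK
  -- abelian case
  have hab : ¬ ∀ a b : Q, a * b = b * a := by
    intro hab
    have hyQ : ⁅Q, A⁆ = ⊥ := by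
      rw [commutator_eq_bot_iff_le_centralizer]
      intro u hu
      have h1 := star_fpf hcard (⊤ : Subgroup Q) ρQ (U := ⊤) (fun _ _ _ _ => Submodule.mem_top) (by
        intro a _ b _ w _
        rw [← Module.End.mul_apply, ← Module.End.mul_apply, ← map_mul, ← map_mul, hab]) τ (fun a _ => mem_top _)
        (ρ x) hX Nat.prime_two hτN hXN (fun _ _ => Submodule.mem_top) (fun w _ hw => hno w hw) ⟨u, hu⟩ (mem_top _)
      have h2 : (τ ^ 2 ^ (n + 1)) ⟨u, hu⟩ = ⟨u, hu⟩ := by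
        apply hρQinj
        exact LinearMap.ext (fun w => h1 w Submodule.mem_top)
      have h3 : y * u = u * y := by
        have h4 := congrArg Subtype.val h2
        rw [hτpow, ← hy] at h4
        exact mul_inv_eq_iff_eq_mul.mp h4
      rw [mem_centralizer_iff]
      rintro _ ⟨i, rfl⟩
      exact (show Commute y u from h3).zpow_left i
    apply hQD
    have h1 : ⁅⁅A, Q⁆, D⁆ = ⊥ := by
      rw [commutator_comm A Q, hyQ, commutator_bot_left]
    have h2 : ⁅⁅Q, D⁆, A⁆ = ⊥ := by rw [hQDQ, hyQ]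
    have h3 := commutator_commutator_eq_bot_of_rotate h1 h2
    rw [hDA] at h3
    rw [commutator_comm]; exact h3
  have hsp : Cfsg.IsSpecial r ↥Q := by
    rcases hcase with h | h
    · exfalso
      apply hab
      intro a b
      exact h.1.is_comm.comm a b
    · exact h
  obtain ⟨_, hfr, hder⟩ := hsp
  have hcomm : ∀ a b : Q, a * b * a⁻¹ * b⁻¹ ∈ center Q := by
    intro a b
    rw [← hder]
    exact commutator_mem_commutator (mem_top a) (mem_top b)
  have hna : center Q ≠ ⊤ := by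
    intro h
    apply hab
    intro a b
    have : b ∈ center Q := by rw [h]; exact mem_top b
    exact mem_center_iff.mp this a
  set Z₀ : Subgroup E := (center Q).map Q.subtype with hZ₀
  have hZlt : Z₀ < Q := by
    refine lt_of_le_of_ne (map_subtype_le _) ?_
    intro h
    apply hna
    rw [eq_top_iff]
    intro u _
    have h1 : (u : E) ∈ (center Q).map Q.subtype := by rw [← hZ₀, h]; exact u.2
    obtain ⟨v, hv, hvu⟩ := h1
    have : v = u := Subtype.ext hvu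
    rwa [this] at hv
  have hNZ : normalizer (Q : Set E) ≤ normalizer (Z₀ : Set E) := normalizer_le_normalizer_map _
  have hBZ : B ≤ normalizer (Z₀ : Set E) := hBQ.trans hNZ
  have hZD : ⁅Z₀, D⁆ = ⊥ := hmin _ hZlt hBZ
  have hmemZ₀ : ∀ u : Q, (u : E) ∈ Z₀ ↔ u ∈ center Q := by
    intro u
    constructor
    · rintro ⟨v, hv, hvu⟩
      have : v = u := Subtype.ext hvu
      rwa [this] at hv
    · intro h
      exact ⟨u, h, rfl⟩
  have hCD : Q ⊓ centralizer (D : Set E) ≤ Z₀ := by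
    set U := Q ⊓ centralizer (D : Set E) with hU
    have h1 : (frattini ↥Q).map Q.subtype ≤ U := by
      rw [hfr, hU]
      refine le_inf hZlt.le ?_
      rw [← commutator_eq_bot_iff_le_centralizer]
      exact hZD
    have h2 : B ≤ normalizer (U : Set E) := by
      apply le_normalizer_of_conj_mem
      intro a ha g hg
      rw [hU, mem_inf] at hg ⊢
      refine ⟨(mem_normalizer_iff.mp (hBQ ha) g).mp hg.1, ?_⟩
      rw [mem_centralizer_iff]
      intro b hb
      have h3 : a⁻¹ * b * a ∈ D := by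
        have := (mem_normalizer_iff.mp (hBD (B.inv_mem ha)) b).mp hb
        rwa [inv_inv] at this
      have h4 := mem_centralizer_iff.mp hg.2 _ h3
      calc b * (a * g * a⁻¹) = a * ((a⁻¹ * b * a) * g) * a⁻¹ := by group
        _ = a * (g * (a⁻¹ * b * a)) * a⁻¹ := by rw [h4]
        _ = _ := by group
    rcases hΦ U h1 inf_le_left h2 with h3 | h3
    · rw [h3, hfr]
    · exfalso
      apply hQD
      rw [commutator_eq_bot_iff_le_centralizer]
      intro g hg
      rw [← h3] at hg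
      exact hg.2
  -- the group of automorphisms induced by D
  set N := normalizer (Q : Set E) with hN
  have hDN : D ≤ N := hDB.trans hBQ
  have hAN : A ≤ N := hAB.trans hBQ
  set D' : Subgroup N := D.subgroupOf N with hD'
  set A' : Subgroup N := A.subgroupOf N with hA'
  set Φ : N →* MulAut Q := Q.normalizerMonoidHom with hΦdef
  have hΦc : ∀ (g : N) (u : Q), ((Φ g u : Q) : E) = g * u * (g : E)⁻¹ := fun g u => rfl
  set 𝒟 : Subgroup (MulAut Q) := D'.map Φ with h𝒟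
  have hD'A' : ⁅D', A'⁆ = D' := by
    apply Subgroup.map_injective N.subtype_injective
    rw [map_commutator, hD', hA', subgroupOf_map_subtype, subgroupOf_map_subtype, inf_eq_left.mpr hDN,
      inf_eq_left.mpr hAN, hDA]
  have hxN : x ∈ N := hxQ'
  have hyN : y ∈ N := hAN (mem_zpowers y)
  have hΦx : Φ ⟨x, hxN⟩ = τ := rfl
  have hΦy : Φ ⟨y, hyN⟩ = τ ^ 2 ^ (n + 1) := by
    rw [← hΦx, ← map_pow]
    congr 1
  have hDgen : 𝒟 ≤ closure {ε | ∃ δ ∈ 𝒟, ε = δ * τ ^ 2 ^ (n + 1) * δ⁻¹ * (τ ^ 2 ^ (n + 1))⁻¹} := by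
    have h1 : 𝒟 = ⁅𝒟, A'.map Φ⁆ := by
      rw [h𝒟, ← map_commutator, hD'A']
    nth_rewrite 1 [h1]
    rw [commutator_le]
    rintro δ hδ _ ⟨⟨a, haN⟩, ha, rfl⟩
    rcases mem_zpowers_of_sq hy2 (mem_subgroupOf.mp ha) with h2 | h2
    · have h3 : a = 1 := h2
      subst h3
      have h4 : (⟨1, haN⟩ : N) = 1 := rfl
      rw [h4, map_one, commutatorElement_one_right]
      exact one_mem _
    · have h3 : a = y := h2
      subst h3
      apply Subgroup.subset_closure
      refine ⟨δ, hδ, ?_⟩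
      rw [commutatorElement_def]
      have h4 : Φ ⟨x ^ 2 ^ (n + 1), haN⟩ = τ ^ 2 ^ (n + 1) := hΦy
      rw [h4]
  have hmain : ∀ s : Q, s⁻¹ * (τ ^ 2 ^ (n + 1)) s ∈ center Q → s⁻¹ * (τ ^ 2 ^ n) s ∈ center Q := by
    intro s hs
    refine gross_S h2K hcard hcop ρQ hρQinj τ hτN (ρ x) hX hXN hcomm 𝒟 ?_ ?_ hDgen ?_ hno hs
    · rintro _ ⟨d, hd, rfl⟩
      refine ⟨ρ d, ρ (d : E)⁻¹, by rw [← map_mul, mul_inv_cancel, map_one],
        by rw [← map_mul, inv_mul_cancel, map_one], ?_⟩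
      intro u
      simp only [hρQ, MonoidHom.comp_apply, Subgroup.coe_subtype]
      rw [← map_mul, ← map_mul, hΦc]
      congr 1
      group
    · rintro _ ⟨d, hd, rfl⟩ z hz
      apply Subtype.ext
      rw [hΦc, mul_inv_eq_iff_eq_mul]
      have h1 := commutator_eq_bot_iff_le_centralizer.mp hZD ((hmemZ₀ z).mpr hz)
      exact mem_centralizer_iff.mp h1 d (mem_subgroupOf.mp hd)
    · intro Y L hZY hYD hZL hYL u hu
      set Y₁ : Subgroup E := Y.map Q.subtype with hY₁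
      have hDY : D ≤ normalizer (Y₁ : Set E) := by
        apply le_normalizer_of_conj_mem
        rintro d hd _ ⟨u, hu, rfl⟩
        exact ⟨Φ ⟨d, hDN hd⟩ u, hYD _ ⟨⟨d, hDN hd⟩, mem_subgroupOf.mpr hd, rfl⟩ u hu, rfl⟩
      have hY₁Q : Y₁ ≤ Q := map_subtype_le _
      have hcopY : (Nat.card D).Coprime (Nat.card Y₁) := by
        obtain ⟨f, hf⟩ := (hQ.to_le hY₁Q).exists_card_eq
        rw [hf]
        exact Nat.Coprime.pow_right _ hcopD
      obtain ⟨c, hc, m, hm, hcm⟩ := exists_centralizer_mul_commutator hDY hcopY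
        (Or.inr (isSolvable_of_isPGroup (hQ.to_le hY₁Q))) (g := (u : E)) ⟨u, hu, rfl⟩
      have hcZ : c ∈ Z₀ := hCD ⟨hY₁Q hc.1, hc.2⟩
      have hmL : m ∈ L.map Q.subtype := by
        have h1 : ⁅Y₁, D⁆ ≤ L.map Q.subtype := by
          rw [commutator_le]
          rintro _ ⟨a, ha, rfl⟩ d hd
          have h2 := hYL (Φ ⟨d, hDN hd⟩) ⟨⟨d, hDN hd⟩, mem_subgroupOf.mpr hd, rfl⟩ a⁻¹ (Y.inv_mem ha)
          refine ⟨_, h2, ?_⟩
          rw [inv_inv, Subgroup.coe_subtype, Subgroup.coe_mul, hΦc, commutatorElement_def]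
          simp only [InvMemClass.coe_inv, mul_assoc]
        exact h1 hm
      obtain ⟨m', hm', hmm'⟩ := hmL
      obtain ⟨c', hc', hcc'⟩ := hcZ
      have h3 : u = c' * m' := by
        apply Subtype.ext
        rw [Subgroup.coe_mul, hcm]
        exact congrArg₂ (· * ·) hcc'.symm hmm'.symm
      rw [h3]
      exact L.mul_mem (hZL hc') hm'
  -- the section Q / Z₀
  haveI hZ'n : (Z₀.subgroupOf N).Normal := normal_subgroupOf_of_le_normalizer hNZ
  haveI hS'n : (Q.subgroupOf N).Normal := normal_subgroupOf_of_le_normalizer le_rfl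
  set Z' := Z₀.subgroupOf N with hZ'
  set S' := Q.subgroupOf N with hS'
  set x' : N := ⟨x, hxN⟩ with hx'
  have hQN : Q ≤ N := le_normalizer
  set V₁ : Subgroup (N ⧸ Z') := S'.map (QuotientGroup.mk' Z') with hV₁
  haveI hV₁n : V₁.Normal := hS'n.map _ (QuotientGroup.mk'_surjective Z')
  have hV₁el : Cfsg.IsElementaryAbelian r V₁ := by
    refine ⟨⟨⟨?_⟩⟩, ?_⟩
    · rintro ⟨_, a, ha, rfl⟩ ⟨_, b, hb, rfl⟩
      apply Subtype.ext
      have ha' := mem_subgroupOf.mp ha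
      have hb' := mem_subgroupOf.mp hb
      have h1 : (QuotientGroup.mk' Z') a * (QuotientGroup.mk' Z') b = (QuotientGroup.mk' Z') b * (QuotientGroup.mk' Z') a := by
        rw [← map_mul, ← map_mul]
        change ((a * b : N) : N ⧸ Z') = ((b * a : N) : N ⧸ Z')
        rw [QuotientGroup.eq, hZ', mem_subgroupOf]
        have h2 := hcomm (⟨(b : E), hb'⟩ : Q)⁻¹ (⟨(a : E), ha'⟩ : Q)⁻¹
        have h3 := (hmemZ₀ _).mpr h2
        have h4 : (((a * b)⁻¹ * (b * a) : N) : E) =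
          (((⟨(b : E), hb'⟩ : Q)⁻¹ * (⟨(a : E), ha'⟩ : Q)⁻¹ * (⟨(b : E), hb'⟩ : Q)⁻¹⁻¹ * (⟨(a : E), ha'⟩ : Q)⁻¹⁻¹ : Q) : E) := by
          simp [mul_assoc]
        rw [h4]
        exact h3
      exact h1
    · rintro _ ⟨a, ha, rfl⟩
      have ha' := mem_subgroupOf.mp ha
      rw [← map_pow]
      change ((a ^ r : N) : N ⧸ Z') = 1
      rw [QuotientGroup.eq_one_iff, hZ', mem_subgroupOf]
      have h1 := H2.pow_mem_frattini hQ (⟨(a : E), ha'⟩ : Q)
      rw [hfr] at h1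
      exact (hmemZ₀ _).mpr h1
  set D₁ : Subgroup (N ⧸ Z') := D'.map (QuotientGroup.mk' Z') with hD₁
  have hD'q : IsPGroup q D' := hD.comap_of_injective _ N.subtype_injective
  have hD₁q : IsPGroup q D₁ := hD'q.map _
  have hx'N : x' ^ 2 ^ (n + 1 + 1) = 1 := Subtype.ext hx
  have hx'D : x' ∈ normalizer (D' : Set N) := by
    rw [mem_normalizer_iff]
    intro g
    rw [hD', mem_subgroupOf, mem_subgroupOf]
    exact mem_normalizer_iff.mp hxD g
  have hx'S : x' ∈ normalizer (S' : Set N) := by rw [normalizer_eq_top]; exact mem_top _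
  have hA'z : A' = zpowers (x' ^ 2 ^ (n + 1)) := by
    apply Subgroup.map_injective N.subtype_injective
    rw [hA', subgroupOf_map_subtype, inf_eq_left.mpr hAN, MonoidHom.map_zpowers, map_pow]
    rfl
  obtain ⟨v, hv, hv1, hv2⟩ := gross_level1 (n := n) (r := r) hq2 hr2 hqr (x := (x' : N ⧸ Z'))
    (by rw [← QuotientGroup.mk_pow, hx'N]; rfl) hV₁el hD₁q (mem_normalizer_map_mk hx'D)
    (fix_lift_map hx'S (by
      intro u hu h
      have h1 := congrArg Subtype.val h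
      exact Subtype.ext (hfS u (hQS (mem_subgroupOf.mp hu)) h1))) (by
    intro h
    have h1 : D₁ ≤ centralizer (V₁ : Set (N ⧸ Z')) := by
      refine le_trans (le_of_eq ?_) h
      have h2 : zpowers ((x' : N ⧸ Z') ^ 2 ^ (n + 1)) = A'.map (QuotientGroup.mk' Z') := by
        rw [hA'z, MonoidHom.map_zpowers, map_pow]
        rfl
      rw [h2, hD₁, ← map_commutator, hD'A']
    rw [← commutator_eq_bot_iff_le_centralizer, commutator_comm, hV₁, hD₁, ← map_commutator, H1.map_mk'_eq_bot_iff] at h1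
    have h2 : ⁅Q, D⁆ ≤ Z₀ := by
      have h3 := map_mono (f := N.subtype) h1
      rw [map_commutator, hS', hD', hZ', subgroupOf_map_subtype, subgroupOf_map_subtype, subgroupOf_map_subtype,
        inf_eq_left.mpr hDN, inf_eq_left.mpr hQN, inf_eq_left.mpr (hZlt.le.trans hQN)] at h3
      exact h3
    rw [hQDQ] at h2
    exact absurd h2 (not_le_of_gt hZlt))
  obtain ⟨s, hs, rfl⟩ := hv
  have hsQ : (s : E) ∈ Q := mem_subgroupOf.mp hs
  apply hv2
  have hpw : ∀ j : ℕ, ((x' : N ⧸ Z') ^ j * (QuotientGroup.mk' Z') s = (QuotientGroup.mk' Z') s * (x' : N ⧸ Z') ^ j) ↔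
      (⟨(s : E), hsQ⟩ : Q)⁻¹ * (τ ^ j) ⟨(s : E), hsQ⟩ ∈ center Q := by
    intro j
    rw [← QuotientGroup.mk_pow]
    change ((x' ^ j : N) : N ⧸ Z') * (s : N ⧸ Z') = (s : N ⧸ Z') * ((x' ^ j : N) : N ⧸ Z') ↔ _
    rw [mk_comm_iff, hZ', mem_subgroupOf, ← hmemZ₀]
    have e1 : (((⟨(s : E), hsQ⟩ : Q)⁻¹ * (τ ^ j) ⟨(s : E), hsQ⟩ : Q) : E) = (s : E)⁻¹ * (x ^ j * s * (x ^ j)⁻¹) := by
      rw [Subgroup.coe_mul, hτpow]
      rfl
    have e2 : ((s⁻¹ * (x' ^ j * s * (x' ^ j)⁻¹) : N) : E) = (s : E)⁻¹ * (x ^ j * s * (x ^ j)⁻¹) := rfl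
    rw [e1, e2]
  rw [hpw] at hv1 ⊢
  exact hmain _ hv1

theorem gross_group {Γ : Type u} [Group Γ] [Finite Γ] {q r t n : ℕ} [hqf : Fact q.Prime] [hrf : Fact r.Prime]
    [htf : Fact t.Prime] (hq2 : 2 ≠ q) (hr2 : 2 ≠ r) (ht2 : 2 ≠ t) (hqr : q ≠ r) (hrt : r ≠ t) {x : Γ}
    (hx : x ^ 2 ^ (n + 1 + 1) = 1) {V S D : Subgroup Γ} [hVn : V.Normal] (hV : Cfsg.IsElementaryAbelian t V)
    (hS : IsPGroup r S) (hD : IsPGroup q D) (hxS : x ∈ normalizer (S : Set Γ))
    (hxD : x ∈ normalizer (D : Set Γ)) (hDS : D ≤ normalizer (S : Set Γ)) (hDA : ⁅D, zpowers (x ^ 2 ^ (n + 1))⁆ = D)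
    (hfS : ∀ s ∈ S, x * s = s * x → s = 1) (hfV : ∀ v ∈ V, x * v = v * x → v = 1) :
    ⁅S, D⁆ ≤ centralizer (V : Set Γ) := by
  obtain ⟨F, _, _, _, M, _, _, _, ρ', hinj, hA, hB⟩ := exists_rep_quot hV
  have hne' : ∀ s : ℕ, s.Prime → s ≠ t → (s : F) ≠ 0 := by
    intro s hs hsr h
    rw [CharP.cast_eq_zero_iff F t] at h
    exact hsr ((Nat.prime_dvd_prime_iff_eq htf.out hs).mp h).symm
  set C := centralizer (V : Set Γ) with hC
  have h1 := gross_lin (n := n) hq2 hr2 hqr (hne' 2 Nat.prime_two ht2) (hne' r hrf.out hrt) ρ' hinj (x := (x : Γ ⧸ C))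
    (by rw [← QuotientGroup.mk_pow, hx]; rfl) (S := S.map (QuotientGroup.mk' C)) (D := D.map (QuotientGroup.mk' C))
    (hS.map _) (hD.map _) (mem_normalizer_map_mk hxS) (mem_normalizer_map_mk hxD)
    (by
      rintro _ ⟨d, hd, rfl⟩
      exact mem_normalizer_map_mk (hDS hd)) (by
      have h2 : zpowers ((x : Γ ⧸ C) ^ 2 ^ (n + 1)) = (zpowers (x ^ 2 ^ (n + 1))).map (QuotientGroup.mk' C) := by
        rw [MonoidHom.map_zpowers, map_pow]
        rfl
      rw [h2, ← map_commutator, hDA]) (fix_lift_map hxS hfS)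
    (hA x (not_dvd_card_zpowers Nat.prime_two htf.out ht2 hx) hfV)
  rw [← map_commutator, H1.map_mk'_eq_bot_iff] at h1
  exact h1

end Cfsg.Agent.H23
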