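import Mathlib
import Cfsg.Agent.H23.GR4

/-!
Gross: the subgroup of order 2 acts trivially modulo the second term of the Fitting series.
-/

set_option linter.style.haveILetI false
set_option linter.unusedSectionVars false

namespace Cfsg.Agent.H23

open Module Subgroup
open scoped commutatorElement Pointwise

universe u

theorem comm_le_iff {Γ : Type*} [Group Γ] {N : Subgroup Γ} [N.Normal] (H A : Subgroup Γ) :
    ⁅H, A⁆ ≤ N ↔
      H ≤ (centralizer ((A.map (QuotientGroup.mk' N) : Subgroup (Γ ⧸ N)) : Set (Γ ⧸ N))).comap (QuotientGroup.mk' N) := by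
  rw [← map_le_iff_le_comap, ← commutator_eq_bot_iff_le_centralizer, ← map_commutator, H1.map_mk'_eq_bot_iff]

theorem isPGroup_map_of_pow {Γ : Type*} [Group Γ] {N M : Subgroup Γ} [N.Normal] {r : ℕ} (h : ∀ m ∈ M, m ^ r ∈ N) :
    IsPGroup r (M.map (QuotientGroup.mk' N)) := by
  rintro ⟨_, m, hm, rfl⟩
  refine ⟨1, Subtype.ext ?_⟩
  change ((QuotientGroup.mk' N) m) ^ r ^ 1 = 1
  rw [pow_one, ← map_pow]
  exact (QuotientGroup.eq_one_iff _).mpr (h m hm)

theorem le_pCore_of_chief (k : ℕ) : ∀ (Γ : Type u) [Group Γ] [Finite Γ] (G : Subgroup Γ) [G.Normal]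
    (_ : Group.IsSolvable G) (q : ℕ) [Fact q.Prime] (D : Subgroup Γ) (_ : D ≤ G) (_ : IsPGroup q D)
    (_ : ∀ N M : Subgroup Γ, N.Normal → M.Normal → N ≤ M → M ≤ G → ⁅M, M⁆ ≤ N → ∀ r : ℕ, r.Prime → r ≠ q →
      (∀ m ∈ M, m ^ r ∈ N) → ⁅M, D⁆ ≤ N), Nat.card Γ = k → D ≤ Cfsg.pCore q Γ := by
  induction k using Nat.strong_induction_on with
  | _ k ih =>
  intro Γ _ _ G hGn hsol q hqf D hDG hD H hcard
  classical
  by_cases hG1 : G = ⊥
  · have hQ1 : D = ⊥ := by rw [eq_bot_iff, ← hG1]; exact hDG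
    rw [hQ1]
    exact bot_le
  obtain ⟨V, hVn, hV1, hVG, hVmin⟩ := H1.exists_minimal_normal_le hGn hG1
  haveI := hVn
  haveI hVsol : Group.IsSolvable V := by
    haveI := hsol
    exact Group.isSolvable_of_isSolvable_injective (f := Subgroup.inclusion hVG) (Subgroup.inclusion_injective hVG)
  obtain ⟨hVab, r, hr, hVr, hVexp⟩ := H1.minimal_normal_solvable hVn hV1 hVmin hVsol
  have hlt : Nat.card (Γ ⧸ V) < k := by
    rw [← hcard, ← Subgroup.index_eq_card]
    have h1 := V.card_mul_index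
    have h2 : 1 < Nat.card V := by
      rw [Subgroup.one_lt_card_iff_ne_bot]; exact hV1
    have h3 : 0 < V.index := Nat.pos_of_ne_zero Subgroup.index_ne_zero_of_finite
    nlinarith
  have hπ : Function.Surjective (QuotientGroup.mk' V) := QuotientGroup.mk'_surjective V
  have hDV : D.map (QuotientGroup.mk' V) ≤ Cfsg.pCore q (Γ ⧸ V) := by
    haveI := hsol
    haveI : Group.IsSolvable (G.map (QuotientGroup.mk' V)) := Group.isSolvable_of_surjective
      ((QuotientGroup.mk' V).subgroupMap_surjective G)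
    haveI : (G.map (QuotientGroup.mk' V)).Normal := hGn.map _ hπ
    refine ih _ hlt (Γ ⧸ V) (G.map (QuotientGroup.mk' V)) inferInstance q (D.map (QuotientGroup.mk' V))
      (map_mono hDG) (hD.map _) ?_ rfl
    intro N M hN hM hNM hMG hMM r hr hrq hpow
    have h1 := H (N.comap (QuotientGroup.mk' V)) (M.comap (QuotientGroup.mk' V)) inferInstance inferInstance
      (comap_mono hNM) (by
        refine (comap_mono hMG).trans ?_
        rw [comap_map_eq, QuotientGroup.ker_mk', sup_eq_left.mpr hVG]) (by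
        rw [← map_le_iff_le_comap, map_commutator, map_comap_eq_self_of_surjective hπ]
        exact hMM) r hr hrq (fun m hm => by
        rw [mem_comap, map_pow]
        exact hpow _ hm)
    have h2 := map_mono (f := QuotientGroup.mk' V) h1
    rwa [map_commutator, map_comap_eq_self_of_surjective hπ, map_comap_eq_self_of_surjective hπ] at h2
  by_cases hqr : r = q
  · subst hqr
    have h1 : IsPGroup r ((Cfsg.pCore r (Γ ⧸ V)).comap (QuotientGroup.mk' V)) :=
      (H1.pCore_isPGroup r (Γ ⧸ V)).comap_of_ker_isPGroup _ (by rw [QuotientGroup.ker_mk']; exact hVr)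
    refine le_trans ?_ (H1.le_pCore (N := (Cfsg.pCore r (Γ ⧸ V)).comap (QuotientGroup.mk' V)) inferInstance h1)
    exact map_le_iff_le_comap.mp hDV
  · have h1 : D ≤ centralizer (V : Set Γ) := by
      have h2 := H ⊥ V inferInstance hVn bot_le hVG (by
        rw [le_bot_iff, commutator_eq_bot_iff_le_centralizer]
        intro a ha
        rw [mem_centralizer_iff]
        intro b hb
        exact congrArg Subtype.val (hVab.is_comm.comm ⟨b, hb⟩ ⟨a, ha⟩)) r hr hqr (fun m hm => by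
        rw [mem_bot]; exact hVexp m hm)
      rw [le_bot_iff, commutator_comm, commutator_eq_bot_iff_le_centralizer] at h2
      exact h2
    refine le_pCore_of_central (V := V)
      (C := (Cfsg.pCore q (Γ ⧸ V)).comap (QuotientGroup.mk' V) ⊓ centralizer (V : Set Γ)) inferInstance inf_le_right ?_
      (le_inf (map_le_iff_le_comap.mp hDV) h1) hD
    exact (map_mono inf_le_left).trans (map_comap_le _ _)

theorem le_of_sq_mem {Γ : Type*} [Group Γ] [Finite Γ] {G N M : Subgroup Γ} (hodd : (Nat.card G).Coprime 2) (hMG : M ≤ G)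
    (h : ∀ m ∈ M, m ^ 2 ∈ N) : M ≤ N := by
  intro m hm
  obtain ⟨k, hk⟩ := exists_root_of_coprime G hodd
  have h1 := congrArg Subtype.val (hk ⟨m, hMG hm⟩)
  simp only [SubmonoidClass.coe_pow] at h1
  rw [← h1]
  exact N.pow_mem (h m hm) k

theorem gross_core {Γ : Type u} [Group Γ] [Finite Γ] {G : Subgroup Γ} [hGn : G.Normal] (hsol : Group.IsSolvable G)
    {n : ℕ} {x : Γ} (hx : x ^ 2 ^ (n + 1 + 1) = 1) (hodd : (Nat.card G).Coprime 2)
    (hfG : ∀ g ∈ G, x * g = g * x → g = 1) {q r : ℕ} [hqf : Fact q.Prime] [hrf : Fact r.Prime]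
    (hq2 : 2 ≠ q) (hr2 : 2 ≠ r) (hqr : q ≠ r) {S D : Subgroup Γ} (hSG : S ≤ G) (_hDG : D ≤ G) (hS : IsPGroup r S)
    (hD : IsPGroup q D) (hxS : x ∈ normalizer (S : Set Γ)) (hxD : x ∈ normalizer (D : Set Γ))
    (hDS : D ≤ normalizer (S : Set Γ)) (hDA : ⁅D, zpowers (x ^ 2 ^ (n + 1))⁆ = D) :
    ⁅S, D⁆ ≤ Cfsg.pCore r Γ := by
  have hSD : ⁅S, D⁆ ≤ S := commutator_le_of_le_normalizer hDS
  refine le_pCore_of_chief _ Γ G hsol r ⁅S, D⁆ (hSD.trans hSG) (hS.to_le hSD) ?_ rfl
  intro N M hN hM hNM hMG hMM t ht htr hpow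
  haveI : Fact t.Prime := ⟨ht⟩
  by_cases ht2 : 2 = t
  · subst ht2
    exact (commutator_le_left M _).trans (le_of_sq_mem hodd hMG hpow)
  have hπ : Function.Surjective (QuotientGroup.mk' N) := QuotientGroup.mk'_surjective N
  haveI : (M.map (QuotientGroup.mk' N)).Normal := hM.map _ hπ
  have hVel : Cfsg.IsElementaryAbelian t (M.map (QuotientGroup.mk' N)) := by
    refine ⟨⟨⟨?_⟩⟩, ?_⟩
    · rintro ⟨_, a, ha, rfl⟩ ⟨_, b, hb, rfl⟩
      apply Subtype.ext
      have h1 : ⁅M.map (QuotientGroup.mk' N), M.map (QuotientGroup.mk' N)⁆ = ⊥ := by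
        rw [← map_commutator, H1.map_mk'_eq_bot_iff]; exact hMM
      rw [commutator_eq_bot_iff_le_centralizer] at h1
      exact mem_centralizer_iff.mp (h1 ⟨b, hb, rfl⟩) _ ⟨a, ha, rfl⟩
    · rintro _ ⟨a, ha, rfl⟩
      rw [← map_pow]
      exact (QuotientGroup.eq_one_iff _).mpr (hpow a ha)
  have h1 := gross_group (n := n) (Γ := Γ ⧸ N) hq2 hr2 ht2 hqr htr.symm (x := (x : Γ ⧸ N))
    (by rw [← QuotientGroup.mk_pow, hx]; rfl) hVel (hS.map (QuotientGroup.mk' N)) (hD.map (QuotientGroup.mk' N))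
    (mem_normalizer_map_mk hxS) (mem_normalizer_map_mk hxD) (by
      rintro _ ⟨d, hd, rfl⟩
      exact mem_normalizer_map_mk (hDS hd)) (by
      have h2 : zpowers ((x : Γ ⧸ N) ^ 2 ^ (n + 1)) = (zpowers (x ^ 2 ^ (n + 1))).map (QuotientGroup.mk' N) := by
        rw [MonoidHom.map_zpowers, map_pow]
        rfl
      rw [h2, ← map_commutator, hDA]) (fix_lift_map hxS (fun s hs => hfG s (hSG hs)))
    (fix_lift_map (by rw [normalizer_eq_top]; exact mem_top x) (fun s hs => hfG s (hMG hs)))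
  rw [← map_commutator, ← commutator_eq_bot_iff_le_centralizer, ← map_commutator, H1.map_mk'_eq_bot_iff,
    commutator_comm] at h1
  exact h1

theorem mem_normalizer_sup {Γ : Type*} [Group Γ] {x : Γ} {A B : Subgroup Γ} (hA : x ∈ normalizer (A : Set Γ))
    (hB : x ∈ normalizer (B : Set Γ)) : x ∈ normalizer ((A ⊔ B : Subgroup Γ) : Set Γ) := by
  rw [H1.mem_normalizer_iff_conj_smul] at *
  rw [smul_sup, hA, hB]

theorem mem_normalizer_inf {Γ : Type*} [Group Γ] {x : Γ} {A B : Subgroup Γ} (hA : x ∈ normalizer (A : Set Γ))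
    (hB : x ∈ normalizer (B : Set Γ)) : x ∈ normalizer ((A ⊓ B : Subgroup Γ) : Set Γ) := by
  rw [mem_normalizer_iff] at *
  intro g
  rw [mem_inf, mem_inf, hA g, hB g]

theorem le_sup_of_sylow {Γ : Type*} [Group Γ] [Finite Γ] {q : ℕ} [hq : Fact q.Prime] {D J M : Subgroup Γ}
    [hM : M.Normal] (hD : IsSylowOf q D J) (hJ : IsPGroup q (J.map (QuotientGroup.mk' M))) : J ≤ D ⊔ M := by
  have h1 : (D ⊔ M).relIndex J = 1 := by
    by_contra hne
    obtain ⟨s, hs, hsd⟩ := Nat.exists_prime_and_dvd hne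
    have h2 : (D ⊔ M).relIndex J ∣ D.relIndex J := relIndex_dvd_of_le_left J le_sup_left
    have h3 : (D ⊔ M).relIndex J ∣ M.relIndex J := relIndex_dvd_of_le_left J le_sup_right
    have h4 : M.relIndex J = Nat.card (J.map (QuotientGroup.mk' M)) := by
      conv_lhs => rw [← QuotientGroup.ker_mk' M]
      exact relIndex_ker _ _
    obtain ⟨e, he⟩ := hJ.exists_card_eq
    have h5 : s ∣ q ^ e := by rw [← he, ← h4]; exact hsd.trans h3
    have h6 : s = q := (Nat.prime_dvd_prime_iff_eq hs hq.out).mp (hs.dvd_of_dvd_pow h5)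
    subst h6
    exact hD.not_dvd (hsd.trans h2)
  exact relIndex_eq_one.mp h1

theorem step_A {Γ : Type u} [Group Γ] [Finite Γ] {G : Subgroup Γ} [hGn : G.Normal] (hsol : Group.IsSolvable G)
    {n : ℕ} {x : Γ} (hx : x ^ 2 ^ (n + 1 + 1) = 1) (hodd : (Nat.card G).Coprime 2)
    (hfG : ∀ g ∈ G, x * g = g * x → g = 1) {q r : ℕ} [hqf : Fact q.Prime] [hrf : Fact r.Prime]
    (hq2 : 2 ≠ q) (hqr : r ≠ q) {D F N M : Subgroup Γ} [hN : N.Normal] [hM : M.Normal]
    (hF : Cfsg.pCore r Γ ⊓ G ≤ F) (hFN : F ≤ N) (hMG : M ≤ G) (hMM : ⁅M, M⁆ ≤ N) (hpow : ∀ m ∈ M, m ^ r ∈ N)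
    (hDG : D ≤ G) (hD : IsPGroup q D) (hxD : x ∈ normalizer (D : Set Γ))
    (hDA : ⁅D, zpowers (x ^ 2 ^ (n + 1))⁆ = D) : ⁅M, D⁆ ≤ N := by
  by_cases hr2 : 2 = r
  · subst hr2
    exact (commutator_le_left M _).trans (le_of_sq_mem hodd hMG hpow)
  haveI := hsol
  set y := x ^ 2 ^ (n + 1) with hy
  set A := zpowers y with hA
  set X := zpowers x with hX
  have hyX : y ∈ X := X.pow_mem (mem_zpowers x) _
  have hAX : A ≤ X := by rw [hA, zpowers_le]; exact hyX
  have hXcard : Nat.card X ∣ 2 ^ (n + 1 + 1) := by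
    rw [hX, Nat.card_zpowers]
    exact orderOf_dvd_of_pow_eq_one hx
  have hXcop : ∀ H : Subgroup Γ, H ≤ G → (Nat.card X).Coprime (Nat.card H) := by
    intro H hH
    exact Nat.Coprime.coprime_dvd_left hXcard (Nat.Coprime.pow_left _
      (Nat.Coprime.coprime_dvd_left (card_dvd_of_le hH) hodd).symm)
  have hXM : X ≤ normalizer (M : Set Γ) := by rw [normalizer_eq_top]; exact le_top
  obtain ⟨S, hS, hXS⟩ := exists_invariant_sylow hXM (hXcop M hMG) (Or.inr (H1.isSolvable_of_le hMG hsol)) r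
  set L := normalizer (S : Set Γ) with hL
  set J := L ⊓ (M ⊔ D) with hJ
  have hJG : J ≤ G := inf_le_right.trans (sup_le hMG hDG)
  have hxL : x ∈ L := hXS (mem_zpowers x)
  have hXJ : X ≤ normalizer (J : Set Γ) := by
    rw [hX, zpowers_le]
    exact mem_normalizer_inf (le_normalizer hxL) (mem_normalizer_sup (hXM (mem_zpowers x)) hxD)
  obtain ⟨D', hD', hXD'⟩ := exists_invariant_sylow hXJ (hXcop J hJG) (Or.inr (H1.isSolvable_of_le hJG hsol)) q
  -- Frattini argument
  have hDJ : D ≤ J ⊔ M := by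
    intro d hd
    have hdM : d ∈ normalizer (M : Set Γ) := by rw [normalizer_eq_top]; exact mem_top d
    obtain ⟨g, hg, h⟩ := hS.exists_conj (hS.conj hdM)
    have h1 : g⁻¹ * d ∈ L := by
      rw [hL, H1.mem_normalizer_iff_conj_smul, map_mul, mul_smul, ← h, ← mul_smul, ← map_mul, inv_mul_cancel, map_one,
        one_smul]
    have h2 : g⁻¹ * d ∈ J := mem_inf.2 ⟨h1, (M ⊔ D).mul_mem (mem_sup_left (M.inv_mem hg)) (mem_sup_right hd)⟩
    have h3 : d = g * (g⁻¹ * d) := by group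
    rw [h3]
    exact (J ⊔ M).mul_mem (mem_sup_right hg) (mem_sup_left h2)
  have hJmap : IsPGroup q (J.map (QuotientGroup.mk' M)) := by
    have h1 : J.map (QuotientGroup.mk' M) ≤ D.map (QuotientGroup.mk' M) := by
      refine (map_mono inf_le_right).trans ?_
      rw [Subgroup.map_sup, H1.map_mk'_eq_bot_iff.mpr le_rfl, bot_sup_eq]
    exact (hD.map _).to_le h1
  have hJD' : J ≤ D' ⊔ M := le_sup_of_sylow hD' hJmap
  have hAD' : A ≤ normalizer (D' : Set Γ) := hAX.trans hXD'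
  have hD'q := hD'.isPGroup
  have hcopA : (Nat.card A).Coprime (Nat.card D') :=
    Nat.Coprime.coprime_dvd_left (card_dvd_of_le hAX) (hXcop D' (hD'.le.trans hJG))
  set D'' := ⁅D', A⁆ with hD''
  have hD''D' : D'' ≤ D' := commutator_le_of_le_normalizer hAD'
  have hD''A : ⁅D'', A⁆ = D'' := commutator_commutator_eq hAD' hcopA
  have hxA : x ∈ normalizer (A : Set Γ) := le_normalizer_zpowers_pow x _ (mem_zpowers x)
  have hxD'' : x ∈ normalizer (D'' : Set Γ) := by
    rw [H1.mem_normalizer_iff_conj_smul, hD'', conj_smul_commutator,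
      H1.mem_normalizer_iff_conj_smul.mp (hXD' (mem_zpowers x)), H1.mem_normalizer_iff_conj_smul.mp hxA]
  have hDD'' : D ≤ D'' ⊔ M := by
    have h1 : D.map (QuotientGroup.mk' M) ≤ D''.map (QuotientGroup.mk' M) := by
      have h2 : D.map (QuotientGroup.mk' M) ≤ D'.map (QuotientGroup.mk' M) := by
        refine (map_mono (hDJ.trans (sup_le hJD' le_sup_right))).trans ?_
        rw [Subgroup.map_sup, H1.map_mk'_eq_bot_iff.mpr le_rfl, sup_bot_eq]
      conv_lhs => rw [← hDA]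
      rw [hD'', map_commutator, map_commutator]
      exact commutator_mono h2 le_rfl
    have h2 := map_le_iff_le_comap.mp h1
    rwa [comap_map_eq, QuotientGroup.ker_mk'] at h2
  have hD''L : D'' ≤ L := (hD''D'.trans hD'.le).trans inf_le_left
  have hD''G : D'' ≤ G := (hD''D'.trans hD'.le).trans hJG
  have hSG : S ≤ G := hS.le.trans hMG
  have h1 := gross_core hsol hx hodd hfG hq2 hr2 hqr.symm hSG hD''G hS.isPGroup (hD'q.to_le hD''D') hxL hxD'' hD''L hD''A
  have h2 : ⁅S, D''⁆ ≤ N := by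
    refine le_trans ?_ (hF.trans hFN)
    exact le_inf h1 ((commutator_le_of_le_normalizer hD''L).trans hSG)
  have hMS : M ≤ S ⊔ N := le_sup_of_sylow hS (isPGroup_map_of_pow hpow)
  have h3 : ⁅M, D''⁆ ≤ N := by
    rw [comm_le_iff] at h2 ⊢
    refine hMS.trans (sup_le h2 ?_)
    rw [← comm_le_iff]
    exact commutator_le_left N _
  have h4 : ⁅D'' ⊔ M, M⁆ ≤ N := by
    rw [comm_le_iff]
    refine sup_le ?_ ?_
    · rw [← comm_le_iff, commutator_comm]; exact h3
    · rw [← comm_le_iff]; exact hMM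
  rw [commutator_comm]
  exact (commutator_mono hDD'' le_rfl).trans h4

theorem gross_main {Γ : Type u} [Group Γ] [Finite Γ] {G : Subgroup Γ} [hGn : G.Normal] (hsol : Group.IsSolvable G)
    {n : ℕ} {x : Γ} (hx : x ^ 2 ^ (n + 1 + 1) = 1) (hodd : (Nat.card G).Coprime 2)
    (hfG : ∀ g ∈ G, x * g = g * x → g = 1) {q : ℕ} [hqf : Fact q.Prime] (hq2 : 2 ≠ q) {F : Subgroup Γ} [hFn : F.Normal]
    (hFG : F ≤ G) (hF : ∀ r : ℕ, r.Prime → Cfsg.pCore r Γ ⊓ G ≤ F) {Q : Subgroup Γ} (hQG : Q ≤ G) (hQ : IsPGroup q Q)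
    (hxQ : x ∈ normalizer (Q : Set Γ)) :
    (⁅Q, zpowers (x ^ 2 ^ (n + 1))⁆).map (QuotientGroup.mk' F) ≤ Cfsg.pCore q (Γ ⧸ F) := by
  set y := x ^ 2 ^ (n + 1) with hy
  set A := zpowers y with hA
  have hy2 : y ^ 2 = 1 := by rw [hy, ← pow_mul, ← pow_succ, hx]
  have hAcard : Nat.card A ∣ 2 := by
    rw [hA, Nat.card_zpowers]
    exact orderOf_dvd_of_pow_eq_one hy2
  have hAQ : A ≤ normalizer (Q : Set Γ) := by
    rw [hA, zpowers_le, hy]
    exact pow_mem hxQ _
  have hcopAQ : (Nat.card A).Coprime (Nat.card Q) :=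
    Nat.Coprime.coprime_dvd_left hAcard (Nat.Coprime.coprime_dvd_left (card_dvd_of_le hQG) hodd).symm
  set D := ⁅Q, A⁆ with hD
  have hDQ : D ≤ Q := commutator_le_of_le_normalizer hAQ
  have hDA : ⁅D, A⁆ = D := commutator_commutator_eq hAQ hcopAQ
  have hDq : IsPGroup q D := hQ.to_le hDQ
  have hxA : x ∈ normalizer (A : Set Γ) := le_normalizer_zpowers_pow x _ (mem_zpowers x)
  have hxD : x ∈ normalizer (D : Set Γ) := by
    rw [H1.mem_normalizer_iff_conj_smul, hD, conj_smul_commutator, H1.mem_normalizer_iff_conj_smul.mp hxQ,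
      H1.mem_normalizer_iff_conj_smul.mp hxA]
  have hDG : D ≤ G := hDQ.trans hQG
  have hπ : Function.Surjective (QuotientGroup.mk' F) := QuotientGroup.mk'_surjective F
  haveI := hsol
  haveI : Group.IsSolvable (G.map (QuotientGroup.mk' F)) := Group.isSolvable_of_surjective
    ((QuotientGroup.mk' F).subgroupMap_surjective G)
  haveI : (G.map (QuotientGroup.mk' F)).Normal := hGn.map _ hπ
  refine le_pCore_of_chief _ (Γ ⧸ F) (G.map (QuotientGroup.mk' F)) inferInstance q _ (map_mono hDG) (hDq.map _) ?_ rfl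
  intro N M hN hM hNM hMG hMM r hr hrq hpow
  haveI : Fact r.Prime := ⟨hr⟩
  have h1 := step_A (N := N.comap (QuotientGroup.mk' F)) (M := M.comap (QuotientGroup.mk' F)) (F := F) hsol hx hodd hfG
    hq2 hrq (hF r hr) (by
      conv_lhs => rw [← QuotientGroup.ker_mk' F]
      exact ker_le_comap _ _) (by
      refine (comap_mono hMG).trans ?_
      rw [comap_map_eq, QuotientGroup.ker_mk', sup_eq_left.mpr hFG]) (by
      rw [← map_le_iff_le_comap, map_commutator, map_comap_eq_self_of_surjective hπ]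
      exact hMM) (fun m hm => by
      rw [mem_comap, map_pow]
      exact hpow _ hm) hDG hDq hxD hDA
  have h2 := map_mono (f := QuotientGroup.mk' F) h1
  rwa [map_commutator, map_comap_eq_self_of_surjective hπ, map_comap_eq_self_of_surjective hπ] at h2

end Cfsg.Agent.H23
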