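import Mathlib
import Cfsg.Agent.H23.GR5

/-!
Gross: automorphism form.
-/

set_option linter.style.haveILetI false
set_option linter.unusedSectionVars false

namespace Cfsg.Agent.H23

open Module Subgroup
open scoped commutatorElement Pointwise

universe u

theorem isNilpotent_comap_of_injective {G H : Type*} [Group G] [Group H] (ι : G →* H) (hι : Function.Injective ι)
    (N : Subgroup H) (hN : Group.IsNilpotent N) : Group.IsNilpotent (N.comap ι) := by
  have hinj : Function.Injective ((ι.comp (N.comap ι).subtype).codRestrict N (fun c => c.2)) := by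
    intro a b hab
    have h4 := congrArg Subtype.val hab
    exact Subtype.ext (hι h4)
  haveI := hN
  refine Subgroup.isNilpotent_of_ker_le_center ((ι.comp (N.comap ι).subtype).codRestrict N (fun c => c.2)) ?_
  rw [(MonoidHom.ker_eq_bot_iff _).mpr hinj]
  exact bot_le

theorem gross_fitting {G : Type u} [Group G] [Finite G] (hG : Group.IsSolvable G) {n : ℕ}
    (σ : MulAut G) (hσ : σ ^ 2 ^ (n + 1 + 1) = 1) (hf : ∀ g : G, σ g = g → g = 1) (g : G) :
    ((g⁻¹ * (σ ^ 2 ^ (n + 1)) g : G) : G ⧸ Cfsg.fittingSubgroup G) ∈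
      Cfsg.fittingSubgroup (G ⧸ Cfsg.fittingSubgroup G) := by
  classical
  haveI := hG
  haveI : Fact (Nat.Prime 2) := ⟨Nat.prime_two⟩
  have hcop := coprime_of_fpf σ hσ hf
  set Γ := G ⋊[(zpowers σ).subtype] (zpowers σ) with hΓ
  haveI : Finite Γ := Finite.of_equiv _ (SemidirectProduct.equivProd).symm
  set ι : G →* Γ := SemidirectProduct.inl with hι
  have hιinj : Function.Injective ι := SemidirectProduct.inl_injective
  set x : Γ := SemidirectProduct.inr ⟨σ, mem_zpowers σ⟩ with hx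
  have hconj : ∀ (j : ℕ) (g : G), x ^ j * ι g * (x ^ j)⁻¹ = ι ((σ ^ j) g) := by
    intro j g
    have h1 : x ^ j = SemidirectProduct.inr ((⟨σ, mem_zpowers σ⟩ : zpowers σ) ^ j) := by
      rw [hx, map_pow]
    rw [h1, hι, ← map_inv, ← SemidirectProduct.inl_aut]
    rfl
  have hxN : x ^ 2 ^ (n + 1 + 1) = 1 := by
    rw [hx, ← map_pow]
    have : (⟨σ, mem_zpowers σ⟩ : zpowers σ) ^ 2 ^ (n + 1 + 1) = 1 := Subtype.ext hσ
    rw [this, map_one]
  set G' : Subgroup Γ := ι.range with hG'
  haveI hG'n : G'.Normal := by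
    rw [hG', hι, SemidirectProduct.range_inl_eq_ker_rightHom]
    infer_instance
  haveI hG'sol : Group.IsSolvable G' := Group.isSolvable_of_surjective (f := ι.rangeRestrict) ι.rangeRestrict_surjective
  have hcardG' : Nat.card G' = Nat.card G := Nat.card_congr (ι.ofInjective hιinj).symm.toEquiv
  have hcopG' : (Nat.card G').Coprime 2 := by rw [hcardG']; exact hcop
  have hfG' : ∀ g ∈ G', x * g = g * x → g = 1 := by
    rintro _ ⟨g, rfl⟩ h
    have h1 := hconj 1 g
    rw [pow_one, pow_one, h, mul_inv_cancel_right] at h1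
    rw [hf g (hιinj h1).symm, map_one]
  set y := x ^ 2 ^ (n + 1) with hy
  set A := zpowers y with hA
  set X := zpowers x with hX
  have hXcard : Nat.card X ∣ 2 ^ (n + 1 + 1) := by
    rw [hX, Nat.card_zpowers]
    exact orderOf_dvd_of_pow_eq_one hxN
  have hXcop : (Nat.card X).Coprime (Nat.card G') :=
    Nat.Coprime.coprime_dvd_left hXcard (Nat.Coprime.pow_left _ hcopG'.symm)
  have hXn : X ≤ normalizer (G' : Set Γ) := by rw [normalizer_eq_top]; exact le_top
  set Φ := Cfsg.fittingSubgroup Γ with hΦ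
  haveI : Φ.Normal := inferInstance
  set F := Φ ⊓ G' with hF
  haveI hFn : F.Normal := inferInstance
  set Ψ := (Cfsg.fittingSubgroup (Γ ⧸ F)).comap (QuotientGroup.mk' F) with hΨ
  haveI : Ψ.Normal := inferInstance
  have hpΦ : ∀ r : ℕ, r.Prime → Cfsg.pCore r Γ ⊓ G' ≤ F := by
    intro r hr
    haveI : Fact r.Prime := ⟨hr⟩
    exact inf_le_inf_right _ (H1.le_fitting inferInstance (H1.pCore_isPGroup r Γ).isNilpotent)
  have hGC : ⁅G', A⁆ ≤ Ψ := by
    rw [comm_le_iff]
    set C := (centralizer ((A.map (QuotientGroup.mk' Ψ) : Subgroup (Γ ⧸ Ψ)) : Set (Γ ⧸ Ψ))).comap (QuotientGroup.mk' Ψ)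
      with hC
    have h0 : C.relIndex G' = 1 := by
      by_contra hne
      obtain ⟨q, hq, hqd⟩ := Nat.exists_prime_and_dvd hne
      haveI : Fact q.Prime := ⟨hq⟩
      obtain ⟨P, hP, hXP⟩ := exists_invariant_sylow hXn hXcop (Or.inr inferInstance) q
      have hpq : 2 ≠ q := by
        rintro rfl
        have h1 : 2 ∣ Nat.card G' := hqd.trans (Subgroup.relIndex_dvd_card _ _)
        have h3 := Nat.dvd_gcd h1 (dvd_refl 2)
        rw [hcopG'] at h3
        exact hq.one_lt.ne' (Nat.dvd_one.mp h3)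
      have h1 := gross_main hG'sol hxN hcopG' hfG' hpq (F := F) inf_le_right hpΦ hP.le hP.isPGroup
        (hXP (mem_zpowers x))
      have h2 : Cfsg.pCore q (Γ ⧸ F) ≤ Cfsg.fittingSubgroup (Γ ⧸ F) :=
        H1.le_fitting inferInstance (H1.pCore_isPGroup q (Γ ⧸ F)).isNilpotent
      have h3 : ⁅P, A⁆ ≤ Ψ := map_le_iff_le_comap.mp (h1.trans h2)
      rw [comm_le_iff] at h3
      apply hP.not_dvd
      exact hqd.trans (Subgroup.relIndex_dvd_of_le_left G' h3)
    exact Subgroup.relIndex_eq_one.mp h0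
  have h2 : ι (g⁻¹ * (σ ^ 2 ^ (n + 1)) g) ∈ Ψ := by
    rw [map_mul, ← hconj, map_inv]
    have h3 : (ι g)⁻¹ * (x ^ 2 ^ (n + 1) * ι g * (x ^ 2 ^ (n + 1))⁻¹) = ⁅(ι g)⁻¹, y⁆ := by
      rw [← hy, commutatorElement_def, inv_inv]
      simp only [mul_assoc]
    rw [h3]
    exact hGC (commutator_mem_commutator (G'.inv_mem ⟨g, rfl⟩) (mem_zpowers y))
  -- comparison of the Fitting subgroups
  have hcmp1 : F.comap ι ≤ Cfsg.fittingSubgroup G := by
    refine (comap_mono inf_le_left).trans (H1.le_fitting inferInstance ?_)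
    exact isNilpotent_comap_of_injective ι hιinj Φ (H1.fitting_isNilpotent Γ)
  have hcmp2 : Cfsg.fittingSubgroup G ≤ F.comap ι := by
    have h3 : ((Cfsg.fittingSubgroup G).map ι).Normal := by
      constructor
      rintro _ ⟨a, ha, rfl⟩ γ
      have h4 : γ = ι γ.left * SemidirectProduct.inr γ.right := (SemidirectProduct.inl_left_mul_inr_right γ).symm
      have h5 : SemidirectProduct.inr γ.right * ι a * (SemidirectProduct.inr γ.right : Γ)⁻¹ = ι ((γ.right : MulAut G) a) := by
        rw [hι, ← map_inv, ← SemidirectProduct.inl_aut]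
        rfl
      have h6 : γ * ι a * γ⁻¹ = ι (γ.left * (γ.right : MulAut G) a * γ.left⁻¹) := by
        rw [map_mul, map_mul, map_inv, ← h5]
        calc γ * ι a * γ⁻¹ = (ι γ.left * SemidirectProduct.inr γ.right) * ι a *
              (ι γ.left * SemidirectProduct.inr γ.right)⁻¹ := by rw [← h4]
          _ = _ := by rw [mul_inv_rev]; simp only [mul_assoc]
      rw [h6]
      have h7 : (γ.right : MulAut G) a ∈ Cfsg.fittingSubgroup G :=
        (characteristic_iff_le_comap.mp (inferInstance : (Cfsg.fittingSubgroup G).Characteristic)) (γ.right : MulAut G) ha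
      exact ⟨_, (inferInstance : (Cfsg.fittingSubgroup G).Normal).conj_mem _ h7 _, rfl⟩
    have h4 : Group.IsNilpotent ((Cfsg.fittingSubgroup G).map ι) := by
      haveI := H1.fitting_isNilpotent G
      exact Group.nilpotent_of_surjective (ι.subgroupMap (Cfsg.fittingSubgroup G))
        (ι.subgroupMap_surjective (Cfsg.fittingSubgroup G))
    rw [← map_le_iff_le_comap, hF]
    refine le_inf (H1.le_fitting h3 h4) ?_
    rintro _ ⟨a, _, rfl⟩
    exact ⟨a, rfl⟩
  set j : G ⧸ Cfsg.fittingSubgroup G →* Γ ⧸ F := QuotientGroup.map _ F ι hcmp2 with hj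
  have hjinj : Function.Injective j := by
    rw [injective_iff_map_eq_one]
    intro a ha
    obtain ⟨a, rfl⟩ := QuotientGroup.mk_surjective a
    have h3 : ((ι a : Γ) : Γ ⧸ F) = 1 := ha
    rw [QuotientGroup.eq_one_iff] at h3 ⊢
    exact hcmp1 h3
  have h3 : (Cfsg.fittingSubgroup (Γ ⧸ F)).comap j ≤ Cfsg.fittingSubgroup (G ⧸ Cfsg.fittingSubgroup G) :=
    H1.le_fitting inferInstance (isNilpotent_comap_of_injective j hjinj _ (H1.fitting_isNilpotent _))
  exact h3 h2

theorem chain_zero {G : Type*} [Group G] [Subsingleton G] : ∃ F : Fin (0 + 1) → Subgroup G, F 0 = ⊥ ∧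
    F (Fin.last 0) = ⊤ ∧ Monotone F ∧ (∀ i, (F i).Normal) ∧
      ∀ i : Fin 0, ∃ k : ℕ, (F i.succ).lowerCentralSeries k ≤ F i.castSucc :=
  ⟨fun _ => ⊥, rfl, Subsingleton.elim _ _, fun _ _ _ => le_rfl, fun _ => inferInstance, fun i => i.elim0⟩

end Cfsg.Agent.H23
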