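import Mathlib
import Cfsg.Agent.H23.HHCore5
import Cfsg.Agent.H3.Core1

/-!
The semisimple (coprime characteristic) analogue of the Hall-Higman critical configuration.
-/

set_option linter.style.haveILetI false
set_option linter.unusedSectionVars false

namespace Cfsg.Agent.H23

open Module Subgroup

section arith

variable {K : Type*} [Field K] [IsAlgClosed K] {W : Type*} [AddCommGroup W] [Module K W] [FiniteDimensional K W]

/-- eigenbasis of an operator of finite order prime to the characteristic -/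
theorem exists_eigenbasis_of_pow {r : ℕ} (hr : r ≠ 0) (hrK : (r : K) ≠ 0) (T : Module.End K W) (hT : T ^ r = 1) :
    ∃ (ι : Type) (_ : Fintype ι) (b : Module.Basis ι K W) (c : ι → K), (∀ i, T (b i) = c i • b i) ∧
      ∀ i, c i ^ r = 1 := by
  have h1 : T * T ^ (r - 1) = 1 := by rw [← pow_succ', Nat.sub_add_cancel (Nat.pos_of_ne_zero hr), hT]
  have h2 : T ^ (r - 1) * T = 1 := by rw [← pow_succ, Nat.sub_add_cancel (Nat.pos_of_ne_zero hr), hT]
  set u : (Module.End K W)ˣ := ⟨T, T ^ (r - 1), h1, h2⟩ with hu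
  have hur : u ^ r = 1 := by
    apply Units.ext
    rw [Units.val_pow_eq_pow_val, hu]
    exact hT
  set A := zpowers u with hA
  haveI : Finite A := by
    rw [hA]
    exact Finite.of_equiv _ (finEquivZPowers (isOfFinOrder_iff_pow_eq_one.mpr ⟨r, Nat.pos_of_ne_zero hr, hur⟩))
  have hcard : Nat.card A ∣ r := by
    rw [hA, Nat.card_zpowers]
    exact orderOf_dvd_of_pow_eq_one hur
  haveI : NeZero (Nat.card A : K) := by
    constructor
    intro h
    apply hrK
    obtain ⟨s, hs⟩ := hcard
    rw [hs, Nat.cast_mul, h, zero_mul]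
  obtain ⟨ι, hι, b, μ, hμ⟩ := H3.exists_simul_eigenbasis (k := K) (A := A) ((Units.coeHom (Module.End K W)).comp A.subtype)
  refine ⟨ι, hι, b, fun i => (μ i ⟨u, mem_zpowers u⟩ : K), ?_, ?_⟩
  · intro i
    exact hμ ⟨u, mem_zpowers u⟩ i
  · intro i
    rw [← Units.val_pow_eq_pow_val, ← map_pow]
    have : (⟨u, mem_zpowers u⟩ : A) ^ r = 1 := Subtype.ext hur
    rw [this, map_one, Units.val_one]

theorem card_le_commutant {ι : Type} [Fintype ι] [DecidableEq ι] [DecidableEq K] (b : Module.Basis ι K W) (T : Module.End K W) (c : ι → K)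
    (hc : ∀ i, T (b i) = c i • b i) :
    Fintype.card {s : ι × ι // c s.1 = c s.2} ≤ finrank K (commutant (T - 1)) := by
  have hmem : ∀ s : {s : ι × ι // c s.1 = c s.2}, (b.coord s.1.2).smulRight (b s.1.1) ∈ commutant (T - 1) := by
    intro s
    rw [mem_commutant]
    apply b.ext
    intro j
    simp only [Module.End.mul_apply, LinearMap.sub_apply, Module.End.one_apply, LinearMap.smulRight_apply, map_sub,
      hc, map_smul]
    by_cases hj : j = s.1.2
    · subst hj
      rw [Module.Basis.coord_apply, Module.Basis.repr_self, Finsupp.single_eq_same]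
      simp only [one_smul, s.2]
    · rw [Module.Basis.coord_apply, Module.Basis.repr_self, Finsupp.single_eq_of_ne (Ne.symm hj)]
      simp
  have hli : LinearIndependent K (fun s : {s : ι × ι // c s.1 = c s.2} =>
      (⟨(b.coord s.1.2).smulRight (b s.1.1), hmem s⟩ : commutant (T - 1))) := by
    rw [Fintype.linearIndependent_iff]
    intro g hg s₀
    have h1 := congrArg (fun z : commutant (T - 1) => b.coord s₀.1.1 ((z : Module.End K W) (b s₀.1.2))) hg
    simp only [Submodule.coe_sum, Submodule.coe_smul, LinearMap.sum_apply, LinearMap.smul_apply,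
      LinearMap.smulRight_apply, map_sum, map_smul, Submodule.coe_zero, LinearMap.zero_apply, map_zero,
      Module.Basis.coord_apply, Module.Basis.repr_self, smul_eq_mul] at h1
    rw [Finset.sum_eq_single s₀] at h1
    · simpa using h1
    · intro s _ hs
      by_cases h2 : s.1.2 = s₀.1.2
      · have h3 : s.1.1 ≠ s₀.1.1 := by
          intro h3
          apply hs
          apply Subtype.ext
          exact Prod.ext h3 h2
        rw [Finsupp.single_eq_of_ne h3.symm]
        simp
      · rw [Finsupp.single_eq_of_ne h2]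
        simp
    · intro h; exact absurd (Finset.mem_univ _) h
  exact hli.fintype_card_le_finrank

theorem eigen_arith {r : ℕ} (hr : r ≠ 0) (hrK : (r : K) ≠ 0) (T : Module.End K W) (hT : T ^ r = 1)
    (hle : r * finrank K (commutant (T - 1)) ≤ r - 1 + (finrank K W) ^ 2)
    (hno : (∀ w, T w = w → w = 0) ∨ finrank K W < r) : finrank K W ≤ 1 ∨ finrank K W = r - 1 := by
  classical
  obtain ⟨ι, hι, b, c, hc, hcr⟩ := exists_eigenbasis_of_pow hr hrK T hT
  have hd : finrank K W = Fintype.card ι := finrank_eq_card_basis b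
  have hS := card_le_commutant b T c hc
  have hSd : Fintype.card ι ≤ Fintype.card {s : ι × ι // c s.1 = c s.2} := by
    apply Fintype.card_le_of_injective (fun i => (⟨(i, i), rfl⟩ : {s : ι × ι // c s.1 = c s.2}))
    intro i j hij
    exact congrArg (fun s : {s : ι × ι // c s.1 = c s.2} => s.1.1) hij
  set d := Fintype.card ι with hdd
  set S := Fintype.card {s : ι × ι // c s.1 = c s.2} with hSS
  rw [hd] at hle hno ⊢
  have h1 : r * S ≤ r - 1 + d ^ 2 := le_trans (Nat.mul_le_mul_left r hS) hle
  have hr1 : 1 ≤ r := Nat.pos_of_ne_zero hr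
  -- d ≤ r - 1
  have hdr : d ≤ r - 1 := by
    rcases hno with hno | hno
    · set Z : Finset K := (Finset.univ.image c) with hZ
      have hZcard : Z.card ≤ r - 1 := by
        have h2 : insert (1 : K) Z ⊆ (Polynomial.nthRoots r (1 : K)).toFinset := by
          intro z hz
          rw [Multiset.mem_toFinset, Polynomial.mem_nthRoots hr1]
          rcases Finset.mem_insert.mp hz with rfl | hz
          · exact one_pow r
          · obtain ⟨i, _, rfl⟩ := Finset.mem_image.mp hz
            exact hcr i
        have h3 : (1 : K) ∉ Z := by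
          intro h
          obtain ⟨i, _, hi⟩ := Finset.mem_image.mp h
          have h4 := hno (b i) (by rw [hc, hi, one_smul])
          exact b.ne_zero i h4
        have h4 := Finset.card_le_card h2
        rw [Finset.card_insert_of_notMem h3] at h4
        have h5 := (Multiset.toFinset_card_le (Polynomial.nthRoots r (1 : K))).trans (Polynomial.card_nthRoots r 1)
        omega
      have h2 : d = ∑ z ∈ Z, (Finset.univ.filter (fun i => c i = z)).card := by
        rw [hdd, ← Finset.card_univ]
        exact Finset.card_eq_sum_card_image c Finset.univ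
      have h3 : S = ∑ z ∈ Z, (Finset.univ.filter (fun i => c i = z)).card ^ 2 := by
        rw [hSS, Fintype.card_subtype]
        have h4 : (Finset.univ.filter (fun s : ι × ι => c s.1 = c s.2)) =
            Z.biUnion (fun z => (Finset.univ.filter (fun i => c i = z)) ×ˢ (Finset.univ.filter (fun i => c i = z))) := by
          ext s
          simp only [Finset.mem_filter, Finset.mem_univ, true_and, Finset.mem_biUnion, Finset.mem_product, hZ,
            Finset.mem_image]
          constructor
          · intro h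
            exact ⟨c s.1, ⟨s.1, rfl⟩, rfl, h.symm⟩
          · rintro ⟨z, _, h5, h6⟩
            rw [h5, h6]
        rw [h4, Finset.card_biUnion]
        · apply Finset.sum_congr rfl
          intro z _
          rw [Finset.card_product, sq]
        · intro z _ z' _ hzz'
          rw [Function.onFun, Finset.disjoint_left]
          intro s hs hs'
          simp only [Finset.mem_product, Finset.mem_filter, Finset.mem_univ, true_and] at hs hs'
          exact hzz' (hs.1.symm.trans hs'.1)
      have h4 : d ^ 2 ≤ Z.card * S := by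
        rw [h2, h3]
        exact sq_sum_le_card_mul_sum_sq
      have h5 : d ^ 2 ≤ (r - 1) * S := h4.trans (Nat.mul_le_mul_right S hZcard)
      obtain ⟨r', rfl⟩ : ∃ r', r = r' + 1 := ⟨r - 1, by omega⟩
      simp only [Nat.add_sub_cancel] at *
      by_contra hcon
      push Not at hcon
      nlinarith
    · omega
  by_contra hcon
  push Not at hcon
  obtain ⟨r', rfl⟩ : ∃ r', r = r' + 1 := ⟨r - 1, by omega⟩
  simp only [Nat.add_sub_cancel] at *
  have h6 : d < r' := lt_of_le_of_ne hdr hcon.2
  nlinarith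

end arith

section embed

variable {K : Type*} [Field K] {Q : Type*} [Group Q] {W : Type*} [AddCommGroup W] [Module K W]
  {U : Type*} [AddCommGroup U] [Module K U] [FiniteDimensional K W] [FiniteDimensional K U] [IsAlgClosed K]

/-- equivariant embedding up to a root of unity -/
theorem exists_semi_embedding (σ : Q →* Module.End K W)
    (hirr : ∀ S : Submodule K W, (∀ u, ∀ w ∈ S, σ u w ∈ S) → S = ⊥ ∨ S = ⊤)
    (ρ : Q →* Module.End K U) (τ : MulAut Q) {r : ℕ} (hr : 0 < r)
    (T : Module.End K W) (hT : ∀ u, T * σ u = σ (τ u) * T) (hTN : T ^ r = 1)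
    (X : Module.End K U) (hX : ∀ u, X * ρ u = ρ (τ u) * X) (hXN : X ^ r = 1)
    (h₀ : W →ₗ[K] U) (hh₀ : h₀ ≠ 0) (heq : ∀ u w, h₀ (σ u w) = ρ u (h₀ w)) :
    ∃ (h : W →ₗ[K] U) (ζ : K), Function.Injective h ∧ ζ ^ r = 1 ∧ (∀ w, X (h w) = h ((ζ • T) w)) ∧
      ∀ u w, h (σ u w) = ρ u (h w) := by
  classical
  set T' := T ^ (r - 1) with hT'
  have h1 : T * T' = 1 := by rw [hT', ← pow_succ', Nat.sub_add_cancel hr, hTN]
  have h2 : T' * T = 1 := by rw [hT', ← pow_succ, Nat.sub_add_cancel hr, hTN]
  have hT'N : T' ^ r = 1 := by rw [hT', ← pow_mul, mul_comm, pow_mul, hTN, one_pow]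
  have hT'σ : ∀ u, T' * σ (τ u) = σ u * T' := by
    intro u
    calc T' * σ (τ u) = T' * σ (τ u) * (T * T') := by rw [h1, mul_one]
      _ = T' * (σ (τ u) * T) * T' := by simp only [mul_assoc]
      _ = T' * (T * σ u) * T' := by rw [hT]
      _ = (T' * T) * (σ u * T') := by simp only [mul_assoc]
      _ = _ := by rw [h2, one_mul]
  -- the space of equivariant maps
  set H : Submodule K (W →ₗ[K] U) :=
    { carrier := {h | ∀ u w, h (σ u w) = ρ u (h w)}
      add_mem' := by
        intro a b ha hb u w
        rw [LinearMap.add_apply, ha, hb, LinearMap.add_apply, map_add]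
      zero_mem' := by
        intro u w
        simp
      smul_mem' := by
        intro c a ha u w
        rw [LinearMap.smul_apply, ha, LinearMap.smul_apply, map_smul] } with hH
  have hmemH : ∀ h, h ∈ H ↔ ∀ u w, h (σ u w) = ρ u (h w) := fun h => Iff.rfl
  set Ψ : Module.End K (W →ₗ[K] U) :=
    { toFun := fun h => X ∘ₗ h ∘ₗ T'
      map_add' := by
        intro a b
        ext w
        simp
      map_smul' := by
        intro c a
        ext w
        simp } with hΨ
  have hΨapp : ∀ h : W →ₗ[K] U, ∀ w, Ψ h w = X (h (T' w)) := fun h w => rfl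
  have hΨpow : ∀ (k : ℕ) (h : W →ₗ[K] U) (w : W), (Ψ ^ k) h w = (X ^ k) (h ((T' ^ k) w)) := by
    intro k
    induction k with
    | zero => intro h w; simp
    | succ k ih =>
      intro h w
      rw [pow_succ', Module.End.mul_apply, hΨapp, ih, pow_succ', Module.End.mul_apply, pow_succ (a := T'),
        Module.End.mul_apply]
  have hΨN : Ψ ^ r = 1 := by
    ext h w
    rw [hΨpow, hXN, hT'N]
    simp
  have hΨH : ∀ g ∈ H, Ψ g ∈ H := by
    intro g h3 u w
    rw [hmemH] at h3
    simp only [hΨapp]
    have h4 : T' (σ u w) = σ (τ.symm u) (T' w) := by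
      have := congrArg (fun f : Module.End K W => f w) (hT'σ (τ.symm u))
      simpa using this
    have h5 : ∀ x, X (ρ (τ.symm u) x) = ρ u (X x) := by
      intro x
      have := congrArg (fun f : Module.End K U => f x) (hX (τ.symm u))
      simpa using this
    rw [h4, h3, h5]
  haveI : Nontrivial H := ⟨⟨h₀, heq⟩, 0, fun h => hh₀ (congrArg Subtype.val h)⟩
  obtain ⟨ζ, hζ⟩ := Module.End.exists_eigenvalue (Ψ.restrict hΨH)
  obtain ⟨g, hg⟩ := hζ.exists_hasEigenvector
  have hgne : (g : W →ₗ[K] U) ≠ 0 := fun h => hg.2 (Subtype.ext h)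
  have hgeq : ∀ u w, (g : W →ₗ[K] U) (σ u w) = ρ u ((g : W →ₗ[K] U) w) := g.2
  have hΨg : Ψ (g : W →ₗ[K] U) = ζ • (g : W →ₗ[K] U) := by
    have := congrArg (fun z : H => (z : W →ₗ[K] U)) hg.apply_eq_smul
    simpa using this
  have hζr : ζ ^ r = 1 := by
    have h3 : ∀ k : ℕ, (Ψ ^ k) (g : W →ₗ[K] U) = ζ ^ k • (g : W →ₗ[K] U) := by
      intro k
      induction k with
      | zero => simp
      | succ k ih => rw [pow_succ', Module.End.mul_apply, ih, map_smul, hΨg, smul_smul, pow_succ]
    have h4 := h3 r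
    rw [hΨN, Module.End.one_apply] at h4
    have h5 : (ζ ^ r - 1) • (g : W →ₗ[K] U) = 0 := by rw [sub_smul, ← h4, one_smul, sub_self]
    rcases smul_eq_zero.mp h5 with h | h
    · exact sub_eq_zero.mp h
    · exact absurd h hgne
  refine ⟨g, ζ, ?_, hζr, ?_, hgeq⟩
  · rw [← LinearMap.ker_eq_bot]
    rcases hirr (LinearMap.ker (g : W →ₗ[K] U)) (by
      intro u w hw
      rw [LinearMap.mem_ker] at hw ⊢
      rw [hgeq, hw, map_zero]) with h | h
    · exact h
    · exact absurd (LinearMap.ker_eq_top.mp h) hgne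
  · intro w
    have h3 := congrArg (fun f : W →ₗ[K] U => f (T w)) hΨg
    simp only [hΨapp, LinearMap.smul_apply] at h3
    have h4 : T' (T w) = w := by
      have := congrArg (fun f : Module.End K W => f w) h2
      simpa using this
    rw [h4] at h3
    rw [h3, LinearMap.smul_apply, map_smul]

end embed

section star

variable {K : Type*} [Field K] {Q : Type*} [Group Q] {V : Type*} [AddCommGroup V] [Module K V]

/-- If `X` has prime order `r` and either no fixed vectors or `dim V < r` then abelian groups of order prime to the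
characteristic are centralized. -/
theorem star_semi [FiniteDimensional K V] [IsAlgClosed K] [Finite Q]
    (hcard : (Nat.card Q : K) ≠ 0) (A : Subgroup Q)
    (ρ : Q →* Module.End K V) {U : Submodule K V} (hinv : ∀ a ∈ A, ∀ u ∈ U, ρ a u ∈ U)
    (hcomm : ∀ a ∈ A, ∀ b ∈ A, ∀ u ∈ U, ρ a (ρ b u) = ρ b (ρ a u))
    (τ : MulAut Q) (hτA : ∀ a ∈ A, τ a ∈ A) (X : Module.End K V) (hX : ∀ u, X * ρ u = ρ (τ u) * X)
    {r : ℕ} (hr : r.Prime) (hτN : τ ^ r = 1) (hXN : X ^ r = 1)
    (hno : (∀ w, X w = w → w = 0) ∨ finrank K V < r) :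
    ∀ a ∈ A, ∀ u ∈ U, ρ (τ a) u = ρ a u := by
  classical
  by_contra hcon
  push Not at hcon
  obtain ⟨a, ha, w, hw, hne⟩ := hcon
  have hτpA : ∀ (j : ℕ), ∀ a ∈ A, (τ ^ j) a ∈ A := mulAut_pow_char τ A hτA
  have hτiA : ∀ (j : ℕ), ∀ a ∈ A, (τ ^ j)⁻¹ a ∈ A := by
    intro j a ha
    have h1 : (τ ^ j)⁻¹ = τ ^ (j * (r - 1)) := by
      rw [inv_eq_iff_mul_eq_one, ← pow_add]
      have : j + j * (r - 1) = r * j := by
        obtain ⟨r', rfl⟩ : ∃ r', r = r' + 1 := ⟨r - 1, by have := hr.pos; omega⟩
        simp only [Nat.add_sub_cancel]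
        ring
      rw [this, pow_mul, hτN, one_pow]
    rw [h1]
    exact hτpA _ a ha
  have hba : a⁻¹ * τ a ∈ A := A.mul_mem (A.inv_mem ha) (hτA a ha)
  obtain ⟨v, χ, hvU, hv0, hχ, hχ1⟩ := exists_common_eigenvector_ne hcard (A : Set Q) ρ hinv hcomm
    (a₀ := a⁻¹ * τ a) hba hw (by
      intro h
      apply hne
      have h1 := congrArg (ρ a) h
      rw [← Module.End.mul_apply, ← map_mul, mul_inv_cancel_left] at h1
      exact h1)
  have hχne : χ (τ a) ≠ χ a := by
    intro h
    apply hχ1
    have h1 : ρ (τ a) v = ρ a v := by rw [hχ _ (hτA a ha), hχ a ha, h]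
    have h2 : ρ (a⁻¹ * τ a) v = v := by
      rw [map_mul, Module.End.mul_apply, h1, ← Module.End.mul_apply, ← map_mul, inv_mul_cancel, map_one]
      rfl
    rw [hχ _ hba] at h2
    have h3 : (χ (a⁻¹ * τ a) - 1) • v = 0 := by rw [sub_smul, h2, one_smul, sub_self]
    exact sub_eq_zero.mp ((smul_eq_zero.mp h3).resolve_right hv0)
  -- distinctness
  have hkey : ∀ d, 0 < d → d < r → ∃ b ∈ A, χ ((τ ^ d) b) ≠ χ b := by
    intro d hd0 hdN
    by_contra hcon
    push Not at hcon
    have h1 : ∀ (s : ℕ), ∀ b ∈ A, χ ((τ ^ (d * s)) b) = χ b := by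
      intro s
      induction s with
      | zero => intro b _; simp
      | succ s ih =>
        intro b hb
        rw [mul_add, mul_one, pow_add, MulAut.mul_apply, ih _ (hτpA _ b hb), hcon b hb]
    obtain ⟨s, hs⟩ := exists_pow_eq (n := 0) hr (τ := τ) (by rw [zero_add, pow_one, hτN]) hd0
      (by rw [zero_add, pow_one]; exact hdN)
    rw [pow_zero, pow_one] at hs
    exact hχne (by rw [← hs]; exact h1 s a ha)
  have hdist : ∀ i j, i < r → j < r → i ≠ j → ∃ a ∈ (A : Set Q), χ ((τ ^ i)⁻¹ a) ≠ χ ((τ ^ j)⁻¹ a) := by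
    have hord : ∀ i j, i < j → j < r → ∃ a ∈ (A : Set Q), χ ((τ ^ i)⁻¹ a) ≠ χ ((τ ^ j)⁻¹ a) := by
      intro i j hij hj
      obtain ⟨b, hb, hbne⟩ := hkey (j - i) (by omega) (by omega)
      refine ⟨(τ ^ j) b, hτpA j b hb, ?_⟩
      have h1 : (τ ^ i)⁻¹ ((τ ^ j) b) = (τ ^ (j - i)) b := by
        rw [← MulAut.mul_apply]
        congr 1
        rw [inv_mul_eq_iff_eq_mul, ← pow_add]
        congr 1; omega
      rw [h1, MulAut.inv_apply_self]
      exact hbne
    intro i j hi hj hij
    rcases lt_or_gt_of_ne hij with h | h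
    · exact hord i j h hj
    · obtain ⟨a, ha, hne⟩ := hord j i h hi
      exact ⟨a, ha, hne.symm⟩
  have hwt : ∀ (j : ℕ), ∀ b ∈ (A : Set Q), ρ b ((X ^ j) v) = χ ((τ ^ j)⁻¹ b) • (X ^ j) v := by
    intro j b hb
    have h1 := congrArg (fun f : Module.End K V => f v) (intertwine_pow ρ τ X hX j ((τ ^ j)⁻¹ b))
    simp only [Module.End.mul_apply, MulAut.apply_inv_self] at h1
    rw [← h1, hχ _ (hτiA j b hb), map_smul]
  have hind : ∀ c : Fin r → K, ∑ j : Fin r, c j • (X ^ (j : ℕ)) v = 0 → ∀ j, c j • (X ^ (j : ℕ)) v = 0 := by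
    intro c hc j
    exact weight_indep (ι := Fin r) (A : Set Q) ρ (fun j b => χ ((τ ^ (j : ℕ))⁻¹ b)) (by
      intro i j hij
      exact hdist i j i.2 j.2 (fun h => hij (Fin.ext h))) Finset.univ
      (fun j : Fin r => c j • (X ^ (j : ℕ)) v) (by
        intro j _ b hb
        rw [map_smul, hwt j b hb, smul_comm]) hc j (Finset.mem_univ _)
  have hXne : ∀ j : ℕ, (X ^ j) v ≠ 0 := by
    intro j h
    apply hv0
    have h1 : (X ^ (j * (r - 1))) ((X ^ j) v) = v := by
      rw [← Module.End.mul_apply, ← pow_add]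
      have : j * (r - 1) + j = r * j := by
        obtain ⟨r', rfl⟩ : ∃ r', r = r' + 1 := ⟨r - 1, by have := hr.pos; omega⟩
        simp only [Nat.add_sub_cancel]
        ring
      rw [this, pow_mul, hXN, one_pow, Module.End.one_apply]
    rw [← h1, h, map_zero]
  rcases hno with hno | hno
  · have h1 : X (∑ j ∈ Finset.range r, (X ^ j) v) = ∑ j ∈ Finset.range r, (X ^ j) v := by
      rw [map_sum]
      have h2 : ∀ j, X ((X ^ j) v) = (X ^ (j + 1)) v := by
        intro j
        rw [pow_succ', Module.End.mul_apply]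
      simp only [h2]
      have h3 := Finset.sum_range_succ (fun j => (X ^ j) v) r
      have h4 := Finset.sum_range_succ' (fun j => (X ^ j) v) r
      rw [h3] at h4
      rw [hXN, pow_zero] at h4
      exact (add_right_cancel h4).symm
    have h2 := hno _ h1
    rw [Finset.sum_range] at h2
    have h3 := hind (fun _ => 1) (by simpa using h2) ⟨0, hr.pos⟩
    simp at h3
    exact hv0 h3
  · have hli : LinearIndependent K (fun j : Fin r => (X ^ (j : ℕ)) v) := by
      rw [Fintype.linearIndependent_iff]
      intro c hc j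
      exact (smul_eq_zero.mp (hind c hc j)).resolve_right (hXne j)
    have h1 := hli.fintype_card_le_finrank
    rw [Fintype.card_fin] at h1
    omega

end star

end Cfsg.Agent.H23
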