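import Mathlib
import Cfsg.Agent.H23.HHSemi

/-!
The semisimple analogue of the Hall-Higman critical configuration, continued.
-/

set_option linter.style.haveILetI false
set_option linter.unusedSectionVars false

namespace Cfsg.Agent.H23

open Module Subgroup

variable {K : Type*} [Field K] {Q : Type*} [Group Q] {V : Type*} [AddCommGroup V] [Module K V]
variable [FiniteDimensional K V] [IsAlgClosed K] [Finite Q]

theorem hh_special_semi {r : ℕ} [hrf : Fact r.Prime] (hrK : (r : K) ≠ 0) (hcard : (Nat.card Q : K) ≠ 0)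
    (hcop : (Nat.card Q).Coprime r)
    (ρ : Q →* Module.End K V) (hinj : Function.Injective ρ)
    (τ : MulAut Q) (hτN : τ ^ r = 1) (X : Module.End K V) (hX : ∀ u, X * ρ u = ρ (τ u) * X)
    (hXN : X ^ r = 1) (hQ : ∀ a b : Q, a * b * a⁻¹ * b⁻¹ ∈ center Q)
    (hC : ∀ u, τ u = u ↔ u ∈ center Q) (hna : center Q ≠ ⊤)
    (hno : (∀ w, X w = w → w = 0) ∨ finrank K V < r) :
    ∃ (Y : Subgroup Q) (μ : Q → K) (z₀ : Q) (v : V), z₀ ∈ center Q ∧ v ≠ 0 ∧ (∀ z ∈ center Q, ρ z v = μ z • v) ∧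
      μ z₀ ≠ 1 ∧ center Q ≤ Y ∧ (∀ u ∈ Y, ∀ t, ρ (u * t * u⁻¹ * t⁻¹) v = v) ∧ Y.index = (r - 1) ^ 2 ∧ 1 < r - 1 ∧
      r - 1 ≤ finrank K V ∧
      (finrank K V = r - 1 → ∀ S : Submodule K V, (∀ u, ∀ w ∈ S, ρ u w ∈ S) → S = ⊥ ∨ S = ⊤) := by
  classical
  have hr := hrf.out
  set Z := center Q with hZ
  have hτZ' : ∀ z ∈ Z, τ z = z := fun z hz => (hC z).mpr hz
  -- the element z₀
  obtain ⟨a₀, ha₀⟩ : ∃ a, a ∉ Z := by
    by_contra hcon
    push Not at hcon
    exact hna (eq_top_iff.mpr (fun a _ => hcon a))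
  obtain ⟨b₀, hb₀⟩ : ∃ b, b * a₀ ≠ a₀ * b := by
    by_contra hcon
    push Not at hcon
    exact ha₀ (mem_center_iff.mpr hcon)
  set z₀ := a₀ * b₀ * a₀⁻¹ * b₀⁻¹ with hz₀
  have hz₀Z : z₀ ∈ Z := hQ a₀ b₀
  have hz₀1 : z₀ ≠ 1 := by
    intro h
    apply hb₀
    rw [hz₀, mul_inv_eq_one, mul_inv_eq_iff_eq_mul] at h
    exact h.symm
  obtain ⟨w₀, hw₀⟩ : ∃ w, ρ z₀ w ≠ w := by
    by_contra hcon
    push Not at hcon
    apply hz₀1
    apply hinj
    rw [map_one]
    exact LinearMap.ext hcon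
  have hρZ : ∀ z ∈ Z, ∀ u w, ρ z (ρ u w) = ρ u (ρ z w) := by
    intro z hz u w
    rw [← Module.End.mul_apply, ← Module.End.mul_apply, ← map_mul, ← map_mul, mem_center_iff.mp hz u]
  obtain ⟨v, μ, _, hv0, hμ, hμz₀⟩ := exists_common_eigenvector_ne hcard (Z : Set Q) ρ (U := ⊤)
    (fun a _ u _ => Submodule.mem_top) (fun a ha b _ u _ => hρZ a ha b u) hz₀Z (w := w₀) Submodule.mem_top hw₀
  set U := wtSpace ρ Z μ with hU
  have hvU : v ∈ U := mem_wtSpace.mpr hμ
  have hUinv : ∀ u, ∀ w ∈ U, ρ u w ∈ U := by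
    intro u w hw
    rw [hU, mem_wtSpace] at hw ⊢
    intro z hz
    rw [hρZ z hz, hw z hz, map_smul]
  have hi : ∀ u x, ρ (τ u) (X x) = X (ρ u x) := by
    intro u x
    have := congrArg (fun f : Module.End K V => f x) (hX u)
    simpa using this.symm
  have hXU : ∀ w ∈ U, X w ∈ U := by
    intro w hw
    rw [hU, mem_wtSpace] at hw ⊢
    intro z hz
    have h1 := hi z w
    rw [hτZ' z hz, hw z hz, map_smul] at h1
    exact h1
  -- the radical
  set Y := commOn ρ U hUinv with hY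
  have hZY : Z ≤ Y := by
    intro z hz
    rw [hY, mem_commOn]
    intro t w _
    exact hρZ z hz t w
  have hcomm : ∀ u t : Q, u * t * u⁻¹ * t⁻¹ ∈ Y := fun u t => hZY (hQ u t)
  haveI hYn : Y.Normal := normal_of_comm hcomm
  have hτY : ∀ a ∈ Y, τ a ∈ Y := by
    intro a ha
    rw [hY, mem_commOn] at ha ⊢
    intro t w hw
    have hXc : X ((X ^ (r - 1)) w) = w := by
      rw [← Module.End.mul_apply, ← pow_succ', Nat.sub_add_cancel hr.one_le, hXN]
      rfl
    have hXp : ∀ (j : ℕ), ∀ w ∈ U, (X ^ j) w ∈ U := by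
      intro j
      induction j with
      | zero => intro w hw; simpa using hw
      | succ j ih =>
        intro w hw
        rw [pow_succ', Module.End.mul_apply]
        exact hXU _ (ih w hw)
    set w' := (X ^ (r - 1)) w with hw'
    have hw'U : w' ∈ U := hXp _ w hw
    obtain ⟨t', rfl⟩ := τ.surjective t
    rw [← hXc, hi, hi, hi, hi, ha t' w' hw'U]
  have hYcomm : ∀ a ∈ Y, ∀ b ∈ Y, ∀ u ∈ U, ρ a (ρ b u) = ρ b (ρ a u) := fun a ha b _ u hu => ha b u hu
  have hstar := star_semi hcard Y ρ (U := U) (fun a _ u hu => hUinv a u hu) hYcomm τ hτY X hX hr hτN hXN hno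
  have hnρ : ∀ (i : ℕ), ∀ a ∈ Y, ∀ w ∈ U, ρ (nrm τ i a) w = ((ρ a) ^ i) w := by
    have h1 : ∀ (i : ℕ), ∀ a ∈ Y, ∀ w ∈ U, ρ ((τ ^ i) a) w = ρ a w := by
      intro i
      induction i with
      | zero => intro a _ w _; simp
      | succ i ih =>
        intro a ha w hw
        rw [pow_succ, MulAut.mul_apply, ih _ (hτY a ha) w hw, hstar a ha w hw]
    intro i
    induction i with
    | zero => intro a _ w _; simp [nrm]
    | succ i ih =>
      intro a ha w hw
      rw [nrm, map_mul, Module.End.mul_apply, h1 i a ha w hw, ih a ha _ (hUinv a w hw), pow_succ,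
        Module.End.mul_apply]
  obtain ⟨s, hs⟩ := exists_root_of_coprime Q hcop
  have hYsc : ∀ a ∈ Y, ∀ w ∈ U, ρ a w = (μ (nrm τ r a) ^ s) • w := by
    intro a ha w hw
    have h1 : ∀ w ∈ U, ρ (a ^ r) w = μ (nrm τ r a) • w := by
      intro w hw
      rw [map_pow, ← hnρ r a ha w hw]
      exact (mem_wtSpace.mp hw) _ (nrm_mem_center hcop hτN hQ hC a)
    have h2 : ∀ (i : ℕ), ∀ w ∈ U, ρ ((a ^ r) ^ i) w = (μ (nrm τ r a) ^ i) • w := by
      intro i
      induction i with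
      | zero => intro w _; simp
      | succ i ih =>
        intro w hw
        rw [pow_succ (a ^ r), map_mul, Module.End.mul_apply, h1 w hw, map_smul, ih w hw, smul_smul, pow_succ,
          mul_comm]
    have h3 := h2 s w hw
    rwa [hs a] at h3
  have hUne : U ≠ ⊥ := by
    intro h
    rw [h, Submodule.mem_bot] at hvU
    exact hv0 hvU
  obtain ⟨W, hWU, hWne, hWinv, hWmin⟩ := exists_minimal_invariant
    (fun W => ∀ u, ∀ w ∈ W, ρ u w ∈ W) hUne hUinv
  haveI : Nontrivial W := (Submodule.nontrivial_iff_ne_bot).mpr hWne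
  set σ := subrep ρ W hWinv with hσ
  have hσcoe : ∀ u (w : W), ((σ u w : W) : V) = ρ u w := fun u w => rfl
  have hσirr := subrep_irr ρ W hWinv hWmin
  have hσY : ∀ a ∈ Y, ∃ c : K, σ a = c • 1 := by
    intro a ha
    refine ⟨μ (nrm τ r a) ^ s, ?_⟩
    ext w
    rw [hσcoe, hYsc a ha w (hWU w.2)]
    rfl
  have hσU : ∀ z ∈ Z, σ z = 1 → ∀ w ∈ U, ρ z w = w := by
    intro z hz h1 w hw
    obtain ⟨w₁, hw₁⟩ := exists_ne (0 : W)
    have h2 : ρ z (w₁ : V) = w₁ := by
      rw [← hσcoe, h1]; rfl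
    rw [(mem_wtSpace.mp (hWU w₁.2)) z hz] at h2
    have h3 : (μ z - 1) • (w₁ : V) = 0 := by rw [sub_smul, h2, one_smul, sub_self]
    have h4 : μ z = 1 := by
      rcases smul_eq_zero.mp h3 with h | h
      · exact sub_eq_zero.mp h
      · exact absurd (Subtype.ext h) hw₁
    rw [(mem_wtSpace.mp hw) z hz, h4, one_smul]
  have hcommρ : ∀ u t w, ρ (u * t * u⁻¹ * t⁻¹) (ρ t (ρ u w)) = ρ u (ρ t w) := by
    intro u t w
    rw [← Module.End.mul_apply, ← Module.End.mul_apply, ← Module.End.mul_apply, ← map_mul, ← map_mul, ← map_mul]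
    congr 2
    group
  have hnd : ∀ u, u ∉ Y → ∃ t, σ (u * t * u⁻¹ * t⁻¹) ≠ 1 := by
    intro u hu
    by_contra hcon
    push Not at hcon
    apply hu
    rw [hY, mem_commOn]
    intro t w hw
    rw [← hcommρ u t w]
    exact hσU _ (hQ u t) (hcon t) _ (hUinv t _ (hUinv u w hw))
  have hYfix : ∀ u ∈ Y, ∀ t, ∀ w ∈ U, ρ (u * t * u⁻¹ * t⁻¹) w = w := by
    intro u hu t w hw
    have h2 : w = ρ t (ρ u (ρ u⁻¹ (ρ t⁻¹ w))) := by
      rw [← Module.End.mul_apply, ← Module.End.mul_apply, ← Module.End.mul_apply, ← map_mul, ← map_mul,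
        ← map_mul]
      have : t * u * u⁻¹ * t⁻¹ = 1 := by group
      rw [this, map_one]; rfl
    have h3 := hcommρ u t (ρ u⁻¹ (ρ t⁻¹ w))
    rw [hY, mem_commOn] at hu
    rw [← h2, hu t _ (hUinv _ _ (hUinv _ _ hw)), ← h2] at h3
    exact h3
  have hYne : Y ≠ ⊤ := by
    intro h
    have h2 := hYfix a₀ (by rw [h]; exact mem_top a₀) b₀ v hvU
    rw [← hz₀, hμ z₀ hz₀Z] at h2
    have h3 : (μ z₀ - 1) • v = 0 := by rw [sub_smul, h2, one_smul, sub_self]
    rcases smul_eq_zero.mp h3 with h | h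
    · exact hμz₀ (sub_eq_zero.mp h)
    · exact hv0 h
  have hτσ : ∀ a ∈ Y, σ (τ a) = σ a := by
    intro a ha
    ext w
    rw [hσcoe, hσcoe, hstar a ha w (hWU w.2)]
  obtain ⟨T, hT, hTN⟩ := exists_operator σ hσirr Y hσY hcomm hnd hcard τ hτσ hr.pos hτN
  have hfree : ∀ i : ℕ, 0 < i → i < r → ∀ u, (τ ^ i) u * u⁻¹ ∈ Y → u ∈ Y := by
    intro i hi0 hi u hu
    obtain ⟨s, hs⟩ := exists_pow_eq (n := 0) hr (τ := τ) (by rw [zero_add, pow_one, hτN]) hi0
      (by rw [zero_add, pow_one]; exact hi)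
    rw [pow_zero, pow_one] at hs
    have h1 : ∀ s : ℕ, (τ ^ (i * s)) u * u⁻¹ ∈ Y := by
      intro s
      induction s with
      | zero => simp [Y.one_mem]
      | succ s ih =>
        have h2 : (τ ^ (i * (s + 1))) u * u⁻¹ = (τ ^ (i * s)) ((τ ^ i) u * u⁻¹) * ((τ ^ (i * s)) u * u⁻¹) := by
          rw [mul_add, mul_one, pow_add, MulAut.mul_apply, map_mul, map_inv]
          group
        rw [h2]
        exact Y.mul_mem (mulAut_pow_char τ Y hτY _ _ hu) ih
    have h2 := h1 s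
    rw [hs] at h2
    apply mem_of_quot hcop hτN hQ hC Y hZY hτY
    have h3 := hYn.conj_mem _ h2 u⁻¹
    have h4 : u⁻¹ * (τ u * u⁻¹) * u⁻¹⁻¹ = u⁻¹ * τ u := by group
    rwa [h4] at h3
  obtain ⟨h, ζ, hhinj, hζ, hhX, hhρ⟩ := exists_semi_embedding σ hσirr ρ τ hr.pos T hT hTN X hX hXN W.subtype (by
    intro h
    apply hWne
    rw [eq_bot_iff]
    intro w hw
    have := congrArg (fun f : W →ₗ[K] V => f ⟨w, hw⟩) h
    rw [Submodule.mem_bot]
    simpa using this) (fun u w => rfl)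
  have hT' : ∀ u, (ζ • T) * σ u = σ (τ u) * (ζ • T) := by
    intro u
    rw [smul_mul_assoc, hT, mul_smul_comm]
  have hT'N : (ζ • T) ^ r = 1 := by rw [smul_pow, hζ, one_smul, hTN]
  have hle := core_commutant σ hσirr Y hσY hcomm hnd hcard τ hτY hr.pos hτN hfree hYne (ζ • T) hT' hT'N
  have hWV : finrank K W ≤ finrank K V := Submodule.finrank_le W
  have hidx := index_eq_sq σ hσirr Y hσY hcomm hnd hcard
  have harith := eigen_arith hr.ne_zero hrK (ζ • T) hT'N hle (by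
    rcases hno with hno | hno
    · left
      intro w hw
      apply hhinj
      rw [map_zero]
      apply hno
      rw [hhX, hw]
    · right
      exact lt_of_le_of_lt hWV hno)
  have hdne : finrank K W = r - 1 := by
    rcases harith with h1 | h1
    · exfalso
      have h2 : 0 < finrank K W := finrank_pos
      have h3 : finrank K W = 1 := by omega
      rw [h3, one_pow] at hidx
      exact hYne (Subgroup.index_eq_one.mp hidx)
    · exact h1
  rw [hdne] at hidx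
  refine ⟨Y, μ, z₀, v, hz₀Z, hv0, hμ, hμz₀, hZY, fun u hu t => hYfix u hu t v hvU, hidx, ?_, by omega, ?_⟩
  · by_contra hcon
    have h2 : 0 < finrank K W := finrank_pos
    have h1 : r - 1 = 1 := by omega
    rw [h1, one_pow] at hidx
    exact hYne (Subgroup.index_eq_one.mp hidx)
  · intro hV S hS
    have hWtop : W = ⊤ := by
      apply Submodule.eq_top_of_finrank_eq
      rw [hdne, hV]
    have h1 := hWmin S (by rw [hWtop]; exact le_top) hS
    rwa [hWtop] at h1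

end Cfsg.Agent.H23
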