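import Mathlib
import Cfsg.Agent.H23.HHSemi2
import Cfsg.Agent.H23.HHMain

/-!
Action of an element of prime order `r` on a `q`-group, in characteristic different from `r` and `q`.
-/

set_option linter.style.haveILetI false
set_option linter.unusedSectionVars false

namespace Cfsg.Agent.H23

open Module Subgroup

variable {K : Type*} [Field K] {G : Type*} [Group G] {V : Type*} [AddCommGroup V] [Module K V]
variable [FiniteDimensional K V] [IsAlgClosed K] [Finite G]

theorem hh_qgroup_semi {r q : ℕ} [hrf : Fact r.Prime] [hqf : Fact q.Prime] (hrq : r ≠ q) (hrK : (r : K) ≠ 0)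
    (hqK : (q : K) ≠ 0)
    (ρ : G →* Module.End K V) (hinj : Function.Injective ρ) {x : G} (hxr : IsPGroup r (zpowers x)) {c : K}
    (hX1 : (c • ρ x) ^ r = 1)
    (Q₀ : Subgroup G) (hQ₀ : IsPGroup q Q₀) (hxQ : x ∈ normalizer (Q₀ : Set G))
    (hne : ∃ u ∈ Q₀, x * u ≠ u * x) (hno : (∀ w, (c • ρ x) w = w → w = 0) ∨ finrank K V < r) :
    (∃ m, 1 ≤ m ∧ r - 1 = q ^ m) ∧
      (¬ ∀ a ∈ Q₀, ∀ b ∈ Q₀, a * b = b * a) ∧ r - 1 ≤ finrank K V ∧
      (finrank K V = r - 1 → ∀ S : Submodule K V, (∀ u ∈ Q₀, ∀ w ∈ S, ρ u w ∈ S) → S = ⊥ ∨ S = ⊤) := by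
  classical
  have hr := hrf.out
  have hq := hqf.out
  set A := zpowers x with hA
  have hAn : A ≤ normalizer (A : Set G) := le_normalizer
  obtain ⟨e₀, he₀⟩ := hxr.exists_card_eq
  have hAcop : (Nat.card A).Coprime q := by
    rw [he₀]
    exact Nat.Coprime.pow_left _ ((Nat.coprime_primes hr hq).mpr hrq)
  have hcomA : ∀ U : Subgroup G, ⁅U, A⁆ = ⊥ ↔ ∀ u ∈ U, x * u = u * x := by
    intro U
    rw [commutator_eq_bot_iff_le_centralizer]
    constructor
    · intro h u hu
      exact (mem_centralizer_iff.mp (h hu) x (mem_zpowers x))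
    · intro h u hu
      rw [mem_centralizer_iff]
      rintro _ ⟨i, rfl⟩
      exact (show Commute x u from h u hu).zpow_left i
  -- `x^r` is central
  have hc0 : c ≠ 0 := by
    rintro rfl
    rw [zero_smul, zero_pow hr.ne_zero] at hX1
    obtain ⟨u, _, hu⟩ := hne
    apply hu
    apply hinj
    have h1 : ∀ φ : Module.End K V, φ = 0 := fun φ => by rw [← mul_one φ, ← hX1, mul_zero]
    rw [h1 (ρ (x * u)), h1 (ρ (u * x))]
  have hxrc : ∀ u : G, x ^ r * u = u * x ^ r := by
    intro u
    apply hinj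
    rw [smul_pow] at hX1
    have h1 : ρ x ^ r = (c ^ r)⁻¹ • 1 := by
      rw [← hX1, smul_smul, inv_mul_cancel₀ (pow_ne_zero _ hc0), one_smul]
    rw [map_mul, map_mul, map_pow, h1, smul_mul_assoc, mul_smul_comm, one_mul, mul_one]
  -- minimal Q
  obtain ⟨Q, hQmem, hQmin⟩ := WellFounded.has_min (wellFounded_lt (α := Subgroup G))
    {Q | Q ≤ Q₀ ∧ A ≤ normalizer (Q : Set G) ∧ ⁅Q, A⁆ ≠ ⊥} ⟨Q₀, le_rfl, by rw [hA, zpowers_le]; exact hxQ, by
      obtain ⟨u, hu, hne⟩ := hne
      intro h
      exact hne ((hcomA Q₀).mp h u hu)⟩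
  obtain ⟨hQQ₀, hBQ, hQA⟩ := hQmem
  have hmin : ∀ U : Subgroup G, U < Q → A ≤ normalizer (U : Set G) → ⁅U, A⁆ = ⊥ := by
    intro U hU hBU
    by_contra hcon
    exact hQmin U ⟨hU.le.trans hQQ₀, hBU, hcon⟩ hU
  have hQ : IsPGroup q Q := hQ₀.to_le hQQ₀
  obtain ⟨hQAQ, hcase, hΦ, _⟩ := hall_higman_reduction (p := q) A A Q hQ hBQ le_rfl hAn hAcop hQA hmin
  -- the action on Q
  have hxQ' : x ∈ normalizer (Q : Set G) := hBQ (mem_zpowers x)
  set τ : MulAut Q := Q.normalizerMonoidHom ⟨x, hxQ'⟩ with hτ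
  have hτc : ∀ u : Q, ((τ u : Q) : G) = x * u * x⁻¹ := fun u => rfl
  have hτpow : ∀ (j : ℕ) (u : Q), (((τ ^ j) u : Q) : G) = x ^ j * u * (x ^ j)⁻¹ := by
    intro j
    induction j with
    | zero => intro u; simp
    | succ j ih =>
      intro u
      rw [pow_succ', MulAut.mul_apply, hτc, ih, pow_succ']
      group
  have hτN : τ ^ r = 1 := by
    ext u
    rw [hτpow, hxrc, mul_inv_cancel_right]
    rfl
  have hτy : ∀ u : Q, τ u = u ↔ x * u = u * x := by
    intro u
    rw [Subtype.ext_iff, hτc, mul_inv_eq_iff_eq_mul]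
  set ρQ : Q →* Module.End K V := ρ.comp Q.subtype with hρQ
  have hρQinj : Function.Injective ρQ := hinj.comp Q.subtype_injective
  have hX : ∀ u : Q, (c • ρ x) * ρQ u = ρQ (τ u) * (c • ρ x) := by
    intro u
    simp only [hρQ, MonoidHom.comp_apply, Subgroup.coe_subtype]
    rw [smul_mul_assoc, mul_smul_comm, ← map_mul, ← map_mul, hτc]
    congr 2
    group
  obtain ⟨e, he⟩ := hQ.exists_card_eq
  have hcop : (Nat.card Q).Coprime r := by
    rw [he]
    exact Nat.Coprime.pow_left _ ((Nat.coprime_primes hq hr).mpr hrq.symm)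
  have hcard : (Nat.card Q : K) ≠ 0 := by
    rw [he, Nat.cast_pow]
    exact pow_ne_zero _ hqK
  -- the abelian case
  have hab : ¬ ∀ a b : Q, a * b = b * a := by
    intro hab
    apply hQA
    rw [hcomA]
    intro u hu
    have h1 := star_semi hcard (⊤ : Subgroup Q) ρQ (U := ⊤) (fun _ _ _ _ => Submodule.mem_top) (by
      intro a _ b _ w _
      rw [← Module.End.mul_apply, ← Module.End.mul_apply, ← map_mul, ← map_mul, hab]) τ (fun a _ => mem_top _)
      (c • ρ x) hX hr hτN hX1 hno ⟨u, hu⟩ (mem_top _)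
    have h2 : τ ⟨u, hu⟩ = ⟨u, hu⟩ := by
      apply hρQinj
      exact LinearMap.ext (fun w => h1 w Submodule.mem_top)
    exact (hτy ⟨u, hu⟩).mp h2
  have hsp : Cfsg.IsSpecial q ↥Q := by
    rcases hcase with h | h
    · exfalso
      apply hab
      intro a b
      exact h.1.is_comm.comm a b
    · exact h
  obtain ⟨_, hfr, hder⟩ := hsp
  have hcomm : ∀ a b : Q, a * b * a⁻¹ * b⁻¹ ∈ center Q := by
    intro a b
    rw [← hder]
    exact commutator_mem_commutator (mem_top a) (mem_top b)
  have hna : center Q ≠ ⊤ := by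
    intro h
    apply hab
    intro a b
    have : b ∈ center Q := by rw [h]; exact mem_top b
    exact mem_center_iff.mp this a
  have hZlt : (center Q).map Q.subtype < Q := by
    refine lt_of_le_of_ne (map_subtype_le _) ?_
    intro h
    apply hna
    rw [eq_top_iff]
    intro u _
    have h1 : (u : G) ∈ (center Q).map Q.subtype := by rw [h]; exact u.2
    obtain ⟨v, hv, hvu⟩ := h1
    have : v = u := Subtype.ext hvu
    rwa [this] at hv
  have hBZ : A ≤ normalizer (((center Q).map Q.subtype : Subgroup G) : Set G) :=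
    hBQ.trans (normalizer_le_normalizer_map _)
  have hC : ∀ u, τ u = u ↔ u ∈ center Q := by
    intro u
    rw [hτy]
    constructor
    · intro hu
      set U := Q ⊓ centralizer (A : Set G) with hU
      have h1 : (frattini ↥Q).map Q.subtype ≤ U := by
        rw [hfr, hU]
        refine le_inf hZlt.le ?_
        rw [← commutator_eq_bot_iff_le_centralizer]
        exact hmin _ hZlt hBZ
      have h2 : A ≤ normalizer (U : Set G) := by
        apply le_normalizer_of_conj_mem
        intro a ha g hg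
        rw [hU, mem_inf] at hg ⊢
        refine ⟨(mem_normalizer_iff.mp (hBQ ha) g).mp hg.1, ?_⟩
        rw [mem_centralizer_iff]
        intro b hb
        have h3 : a⁻¹ * b * a ∈ A := by
          have := (mem_normalizer_iff.mp (hAn (A.inv_mem ha)) b).mp hb
          rwa [inv_inv] at this
        have h4 := mem_centralizer_iff.mp hg.2 _ h3
        calc b * (a * g * a⁻¹) = a * ((a⁻¹ * b * a) * g) * a⁻¹ := by group
          _ = a * (g * (a⁻¹ * b * a)) * a⁻¹ := by rw [h4]
          _ = _ := by group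
      rcases hΦ U h1 inf_le_left h2 with h3 | h3
      · have h4 : (u : G) ∈ U := by
          rw [hU, mem_inf]
          refine ⟨u.2, ?_⟩
          rw [mem_centralizer_iff]
          rintro _ ⟨i, rfl⟩
          exact (show Commute x u from hu).zpow_left i
        rw [h3, hfr] at h4
        obtain ⟨v, hv, hvu⟩ := h4
        have : v = u := Subtype.ext hvu
        rwa [this] at hv
      · exfalso
        apply hQA
        rw [commutator_eq_bot_iff_le_centralizer]
        intro g hg
        rw [← h3] at hg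
        exact hg.2
    · intro hu
      exact (hcomA _).mp (hmin _ hZlt hBZ) u (mem_map_of_mem Q.subtype hu)
  obtain ⟨Y, μ, z₀, v, _, _, _, _, _, _, hidx, h1lt, hle, hirr⟩ :=
    hh_special_semi hrK hcard hcop ρQ hρQinj τ hτN (c • ρ x) hX hX1 hcomm hC hna hno
  refine ⟨?_, ?_, hle, ?_⟩
  · have h2 : Y.index ∣ q ^ e := by rw [← he]; exact Y.index_dvd_card
    rw [hidx] at h2
    have h3 : (r - 1) ∣ q ^ e := (dvd_pow_self _ two_ne_zero).trans h2
    obtain ⟨m, _, hm⟩ := (Nat.dvd_prime_pow hq).mp h3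
    refine ⟨m, ?_, hm⟩
    by_contra hcon
    have : m = 0 := by omega
    rw [this, pow_zero] at hm
    omega
  · intro hcom
    apply hab
    intro a b
    exact Subtype.ext (hcom a (hQQ₀ a.2) b (hQQ₀ b.2))
  · intro hV S hS
    exact hirr hV S (fun u w hw => hS u (hQQ₀ u.2) w hw)

end Cfsg.Agent.H23
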