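import Mathlib
import Cfsg.Agent.H23.HHSemi3
import Cfsg.Agent.H1.RepOf

/-!
Fixed-point-free modules: no fixed vectors after extension of scalars.
-/

set_option linter.style.haveILetI false
set_option linter.unusedSectionVars false

namespace Cfsg.Agent.H23

open Module Subgroup

universe u

theorem no_fixed_of_centralizer_eq_bot {G : Type u} [Group G] [Finite G] {p r : ℕ} [hp : Fact p.Prime]
    [hr : Fact r.Prime] (hpr : p ≠ r) {X V : Subgroup G} {x : G} (hx : orderOf x = r) (hX : X = zpowers x)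
    (hCV : V ⊓ centralizer (X : Set G) = ⊥) {F M : Type*} [Field F] [CharP F p] [AddCommGroup M] [Module F M]
    (R : H1.RepOf V F M) (hxV : x ∈ normalizer (V : Set G)) (w : M) (hw : R.rep ⟨x, hxV⟩ w = w) : w = 0 := by
  set S : Subgroup (normalizer (V : Set G)) := zpowers ⟨x, hxV⟩ with hS
  have hcard : Nat.card S = r := by
    rw [hS, Nat.card_zpowers, Subgroup.orderOf_mk, hx]
  have hcardF : (Nat.card S : F) ≠ 0 := by
    rw [hcard]
    apply H1.cast_ne_zero_of_not_dvd (ℓ := p)
    intro h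
    exact hpr ((Nat.prime_dvd_prime_iff_eq hp.out hr.out).mp h)
  have hfix : ∀ s ∈ S, R.rep s w = w := by
    intro s hs
    obtain ⟨i, hi⟩ := mem_powers_iff_mem_zpowers.mpr hs
    rw [← hi]
    simp only [map_pow]
    clear hi hs
    induction i with
    | zero => simp
    | succ i ih => rw [pow_succ, Module.End.mul_apply, hw, ih]
  have h1 := R.mem_span_fixed S hcardF hfix
  have h2 : (R.ι '' {v : V | ∀ s ∈ S, (s : G) * v * (s : G)⁻¹ = v}) ⊆ {0} := by
    rintro _ ⟨v, hv, rfl⟩
    have h3 : (v : G) ∈ V ⊓ centralizer (X : Set G) := by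
      rw [mem_inf, hX]
      refine ⟨v.2, ?_⟩
      rw [mem_centralizer_iff]
      rintro _ ⟨i, rfl⟩
      have h4 := hv (⟨x, hxV⟩ ^ i) (zpow_mem (mem_zpowers _) i)
      have h5 : (((⟨x, hxV⟩ : normalizer (V : Set G)) ^ i : normalizer (V : Set G)) : G) = x ^ i := rfl
      rw [h5] at h4
      exact mul_inv_eq_iff_eq_mul.mp h4
    rw [hCV, mem_bot] at h3
    have h4 : v = 1 := Subtype.ext h3
    rw [h4, R.ι_one]
    rfl
  have h3 := Submodule.span_mono (R := F) h2 h1
  rw [Submodule.span_zero_singleton, Submodule.mem_bot] at h3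
  exact h3

end Cfsg.Agent.H23
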