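import Mathlib
import Cfsg.Agent.H23.HHApp2
import Cfsg.Prelude.Def_LocalEven

/-!
Sections isomorphic to the wreath product of two groups of order `p`.
-/

set_option linter.style.haveILetI false
set_option linter.unusedSectionVars false

namespace Cfsg.Agent.H23

open Module Subgroup
open scoped commutatorElement

universe u

def WreathLike (p : ℕ) (W : Type*) [Group W] : Prop :=
  ∃ (B : Subgroup W) (t : W), B.Normal ∧ IsMulCommutative B ∧ (∀ b ∈ B, b ^ p = 1) ∧ Nat.card B = p ^ p ∧
    orderOf t = p ∧ t ∉ B ∧ Nat.card W = p ^ (p + 1) ∧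
    Nat.card ↥(B ⊓ Subgroup.centralizer ({t} : Set W)) = p

theorem WreathLike.of_equiv {p : ℕ} {W W' : Type*} [Group W] [Group W'] (e : W ≃* W') (h : WreathLike p W) :
    WreathLike p W' := by
  obtain ⟨B, t, h1, h2, h3, h4, h5, h6, h7, h8⟩ := h
  refine ⟨B.map e.toMonoidHom, e t, h1.map _ e.surjective, ?_, ?_, ?_, ?_, ?_, ?_, ?_⟩
  · constructor
    constructor
    rintro ⟨_, a, ha, rfl⟩ ⟨_, b, hb, rfl⟩
    apply Subtype.ext
    have := congrArg (fun z : B => e (z : W)) (h2.is_comm.comm ⟨a, ha⟩ ⟨b, hb⟩)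
    change e a * e b = e b * e a
    simpa using this
  · rintro _ ⟨b, hb, rfl⟩
    rw [← map_pow, h3 b hb, map_one]
  · rw [← h4]
    exact Subgroup.card_map_of_injective e.injective
  · rw [← h5]
    exact orderOf_injective e.toMonoidHom e.injective t
  · rintro ⟨b, hb, hbt⟩
    have : b = t := e.injective hbt
    rw [this] at hb
    exact h6 hb
  · rw [← h7]
    exact (Nat.card_congr e.toEquiv).symm
  · rw [← h8]
    have : B.map e.toMonoidHom ⊓ centralizer ({e t} : Set W') =
        (B ⊓ centralizer ({t} : Set W)).map e.toMonoidHom := by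
      ext w
      constructor
      · rintro ⟨⟨b, hb, rfl⟩, hw⟩
        refine ⟨b, ⟨hb, ?_⟩, rfl⟩
        have hw' := mem_centralizer_singleton_iff.mp hw
        refine mem_centralizer_singleton_iff.mpr ?_
        apply e.injective
        rw [map_mul, map_mul]
        exact hw'
      · rintro ⟨b, ⟨hb, hbt⟩, rfl⟩
        refine ⟨⟨b, hb, rfl⟩, ?_⟩
        have := congrArg e (mem_centralizer_singleton_iff.mp hbt)
        rw [map_mul, map_mul] at this
        exact mem_centralizer_singleton_iff.mpr this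
    rw [this]
    exact Subgroup.card_map_of_injective e.injective

theorem norm_formula {G : Type u} [Group G] {p : ℕ} {V : Subgroup G} [hVn : V.Normal]
    {M : Type u} [AddCommGroup M] [Module (ZMod p) M] (ρ : G →* Module.End (ZMod p) M) (ι : V → M)
    (hιm : ∀ v w, ι (v * w) = ι v + ι w) (hρ : ∀ (g : G) (v : V), ρ g (ι v) = ι ⟨g * v * g⁻¹, hVn.conj_mem v v.2 g⟩)
    (x : G) (v : V) (k : ℕ) : ∃ u : V, (u : G) = ((v : G) * x) ^ k * (x ^ k)⁻¹ ∧
        ι u = (∑ i ∈ Finset.range k, (ρ x) ^ i) (ι v) := by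
  induction k with
  | zero =>
    refine ⟨1, by simp, ?_⟩
    have : ι 1 = 0 := by
      have := hιm 1 1
      rw [mul_one] at this
      exact left_eq_add.mp this
    rw [this]; simp
  | succ k ih =>
    obtain ⟨u, hu, huι⟩ := ih
    refine ⟨v * ⟨x * u * x⁻¹, hVn.conj_mem u u.2 x⟩, ?_, ?_⟩
    · change (v : G) * (x * u * x⁻¹) = _
      rw [hu, pow_succ', pow_succ']
      group
    · rw [hιm, ← hρ, huι, Finset.sum_range_succ', LinearMap.add_apply, pow_zero, Module.End.one_apply, add_comm]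
      congr 1
      rw [LinearMap.sum_apply, LinearMap.sum_apply, map_sum]
      apply Finset.sum_congr rfl
      intro i _
      rw [pow_succ', Module.End.mul_apply]

/-- a functional detecting the bottom of a Jordan block of maximal size gives a cyclic quotient -/
theorem jordan_quotient {F : Type*} [Field F] {M : Type*} [AddCommGroup M] [Module F M] (ν : Module.End F M)
    {p : ℕ} (hν : ν ^ p = 0) {m₀ : M} (hm₀ : (ν ^ (p - 1)) m₀ ≠ 0) :
    ∃ Θ : M →ₗ[F] (Fin p → F), Function.Surjective Θ ∧ (∀ m (i j : Fin p), (j : ℕ) = i + 1 → Θ (ν m) i = Θ m j) ∧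
      (∀ m (i : Fin p), (i : ℕ) = p - 1 → Θ (ν m) i = 0) := by
  classical
  obtain ⟨θ, hθ⟩ : ∃ θ : Module.Dual F M, θ ((ν ^ (p - 1)) m₀) ≠ 0 := by
    by_contra hcon
    push Not at hcon
    exact hm₀ ((Module.forall_dual_apply_eq_zero_iff F _).mp hcon)
  set Θ : M →ₗ[F] (Fin p → F) := LinearMap.pi (fun j : Fin p => θ ∘ₗ (ν ^ (j : ℕ))) with hΘ
  have hΘa : ∀ m j, Θ m j = θ ((ν ^ (j : ℕ)) m) := fun m j => rfl
  refine ⟨Θ, ?_, ?_, ?_⟩
  · have hli : LinearIndependent F (fun i : Fin p => Θ ((ν ^ (i : ℕ)) m₀)) := by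
      rw [Fintype.linearIndependent_iff]
      intro c hc
      have key : ∀ (n : ℕ) (i : Fin p), (i : ℕ) = n → c i = 0 := by
        intro n
        induction n using Nat.strong_induction_on with
        | _ n ih =>
          intro i hi
          have hlt : p - 1 - (i : ℕ) < p := by have := i.2; omega
          have h1 := congrFun hc ⟨p - 1 - i, hlt⟩
          simp only [Finset.sum_apply, Pi.smul_apply, hΘa, smul_eq_mul, Pi.zero_apply,
            ← Module.End.mul_apply, ← pow_add] at h1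
          rw [Finset.sum_eq_single i] at h1
          · have h2 : p - 1 - (i : ℕ) + i = p - 1 := by have := i.2; omega
            rw [h2] at h1
            exact (mul_eq_zero.mp h1).resolve_right hθ
          · intro k _ hk
            rcases lt_or_gt_of_ne (fun h : (k : ℕ) = i => hk (Fin.ext h)) with h | h
            · rw [ih k (by omega) k rfl, zero_mul]
            · have h3 : p - 1 - (i : ℕ) + k = p + (k - i - 1) := by have := i.2; omega
              rw [h3, pow_add, hν, zero_mul, LinearMap.zero_apply, map_zero, mul_zero]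
          · intro h; exact absurd (Finset.mem_univ _) h
      intro i
      exact key i i rfl
    have hspan := hli.span_eq_top_of_card_eq_finrank' (by simp)
    rw [← LinearMap.range_eq_top, eq_top_iff, ← hspan, Submodule.span_le]
    rintro _ ⟨i, rfl⟩
    exact ⟨_, rfl⟩
  · intro m i j hij
    rw [hΘa, hΘa, hij, pow_succ, Module.End.mul_apply]
  · intro m i hi
    have h1 : (ν ^ (i : ℕ)) (ν m) = (ν ^ ((i : ℕ) + 1)) m := by
      rw [pow_succ, Module.End.mul_apply]
    have h2 : (i : ℕ) + 1 = p := by have := i.2; omega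
    rw [hΘa, h1, h2, hν, LinearMap.zero_apply, map_zero]

theorem wreath_section {X : Type u} [Group X] [Finite X] {p : ℕ} [hpf : Fact p.Prime] {V : Subgroup X}
    [hVn : V.Normal] (hV : Cfsg.IsElementaryAbelian p V) {x : X} (hgen : V ⊔ zpowers x = ⊤) (hxV : x ∉ V)
    (hxp : x ^ p ∈ V) {v₀ : X} (hv₀ : v₀ ∈ V) (hne : (v₀ * x) ^ p ≠ x ^ p) :
    ∃ (V₁ : Subgroup X) (_ : V₁.Normal), WreathLike p (X ⧸ V₁) := by
  classical
  have hp := hpf.out
  obtain ⟨M, i1, i2, i3, ρ, ι, hι, hιm, hρ, hker⟩ := exists_rep hV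
  have hι1 : ι 1 = 0 := by
    have := hιm 1 1
    rw [mul_one] at this
    exact left_eq_add.mp this
  set ν : Module.End (ZMod p) M := ρ x - 1 with hνdef
  have hρV : ∀ v ∈ V, ρ v = 1 := by
    intro v hv
    rw [← MonoidHom.mem_ker, hker, mem_centralizer_iff]
    intro w hw
    exact congrArg (fun z : V => (z : X)) (hV.1.is_comm.comm ⟨w, hw⟩ ⟨v, hv⟩)
  have hM : Nontrivial M := by
    refine ⟨⟨ι ⟨(v₀ * x) ^ p * (x ^ p)⁻¹, ?_⟩, 0, ?_⟩⟩
    · obtain ⟨u, hu, _⟩ := norm_formula ρ ι hιm hρ x ⟨v₀, hv₀⟩ p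
      rw [← hu]
      exact u.2
    · intro h
      rw [← hι1] at h
      have h1 := congrArg (fun z : V => (z : X)) (hι.1 h)
      exact hne (mul_inv_eq_one.mp h1)
  haveI : CharP (Module.End (ZMod p) M) p := charP_of_injective_algebraMap' (ZMod p) (A := Module.End (ZMod p) M) p
  have hν : ν ^ p = 0 := by
    have h1 := sub_pow_char_pow_of_commute (p := p) 1 (Commute.one_right (ρ x))
    rw [pow_one, one_pow, ← map_pow, hρV _ hxp, sub_self] at h1
    exact h1
  have hsum : ν ^ (p - 1) = ∑ i ∈ Finset.range p, (ρ x) ^ i := by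
    have := sub_one_pow_eq_sum (p := p) (ρ x) 1
    rwa [pow_one] at this
  have hm₀ : (ν ^ (p - 1)) (ι ⟨v₀, hv₀⟩) ≠ 0 := by
    obtain ⟨u, hu, huι⟩ := norm_formula ρ ι hιm hρ x ⟨v₀, hv₀⟩ p
    rw [hsum, ← huι]
    intro h
    rw [← hι1] at h
    have h1 := congrArg (fun z : V => (z : X)) (hι.1 h)
    simp only [hu] at h1
    exact hne (mul_inv_eq_one.mp h1)
  obtain ⟨Θ, hΘs, hΘ1, hΘ2⟩ := jordan_quotient ν hν hm₀
  have hΘν : ∀ m, Θ m = 0 → Θ (ν m) = 0 := by
    intro m hm
    funext i
    by_cases hi : (i : ℕ) = p - 1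
    · exact hΘ2 m i hi
    · have hlt : (i : ℕ) + 1 < p := by have := i.2; omega
      rw [hΘ1 m i ⟨i + 1, hlt⟩ rfl, hm]
      rfl
  have hΘρ : ∀ (k : ℕ) (m : M), Θ m = 0 → Θ (((ρ x) ^ k) m) = 0 := by
    intro k
    induction k with
    | zero => intro m hm; simpa using hm
    | succ k ih =>
      intro m hm
      rw [pow_succ', Module.End.mul_apply]
      have h1 : (ρ x) (((ρ x) ^ k) m) = ν (((ρ x) ^ k) m) + ((ρ x) ^ k) m := by
        rw [hνdef, LinearMap.sub_apply, Module.End.one_apply, sub_add_cancel]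
      rw [h1, map_add, ih m hm, hΘν _ (ih m hm), add_zero]
  have hρpow : ∀ h : X, ∃ k : ℕ, ρ h = (ρ x) ^ k := by
    intro h
    have h1 : h ∈ V ⊔ zpowers x := by rw [hgen]; exact mem_top h
    obtain ⟨v, hv, y, hy, rfl⟩ := mem_sup_of_normal_left.mp h1
    obtain ⟨k, rfl⟩ := mem_powers_iff_mem_zpowers.mpr hy
    refine ⟨k, ?_⟩
    simp only
    rw [map_mul, hρV v hv, one_mul, map_pow]
  -- the hom
  set g : V →* Multiplicative (Fin p → ZMod p) :=
    { toFun := fun v => Multiplicative.ofAdd (Θ (ι v))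
      map_one' := by rw [hι1, map_zero]; rfl
      map_mul' := by
        intro a b
        rw [hιm, map_add]
        rfl } with hg
  have hgs : Function.Surjective g := by
    intro c
    obtain ⟨m, hm⟩ := hΘs (Multiplicative.toAdd c)
    obtain ⟨v, rfl⟩ := hι.2 m
    exact ⟨v, by change Multiplicative.ofAdd (Θ (ι v)) = c; rw [hm]; rfl⟩
  set V₁ := g.ker.map V.subtype with hV₁
  have hV₁V : V₁ ≤ V := map_subtype_le _
  have hmemV₁ : ∀ v : V, (v : X) ∈ V₁ ↔ Θ (ι v) = 0 := by
    intro v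
    constructor
    · rintro ⟨w, hw, hwv⟩
      have : w = v := Subtype.ext hwv
      rw [this] at hw
      exact hw
    · intro h
      exact ⟨v, h, rfl⟩
  have hV₁n : V₁.Normal := by
    constructor
    intro n hn h
    have hnV : n ∈ V := hV₁V hn
    have h1 := (hmemV₁ ⟨n, hnV⟩).mp hn
    have h2 := hρ h ⟨n, hnV⟩
    obtain ⟨k, hk⟩ := hρpow h
    rw [hk] at h2
    have h3 := hΘρ k _ h1
    rw [h2] at h3
    exact (hmemV₁ _).mpr h3
  refine ⟨V₁, hV₁n, ?_⟩
  -- cardinalities
  have hcardC : Nat.card (Multiplicative (Fin p → ZMod p)) = p ^ p := by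
    have : Nat.card (Multiplicative (Fin p → ZMod p)) = Nat.card (Fin p → ZMod p) := rfl
    rw [this, Nat.card_fun, Nat.card_fin, Nat.card_zmod]
  have hcardcomap : ∀ E : Subgroup (Multiplicative (Fin p → ZMod p)),
      Nat.card (E.comap g) = Nat.card V₁ * Nat.card E := by
    intro E
    have h1 : Nat.card V₁ = Nat.card g.ker := Subgroup.card_map_of_injective V.subtype_injective
    have h2 := (E.comap g).card_mul_index
    rw [Subgroup.index_comap_of_surjective E hgs] at h2
    have h3 := g.ker.card_mul_index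
    rw [Subgroup.index_ker, MonoidHom.range_eq_top.mpr hgs, Subgroup.card_top] at h3
    have h4 := E.card_mul_index
    have h5 : E.index ≠ 0 := Subgroup.index_ne_zero_of_finite
    apply Nat.eq_of_mul_eq_mul_right (Nat.pos_of_ne_zero h5)
    rw [h2, ← h3, ← h4, h1, mul_assoc]
  have hcardV : Nat.card V = Nat.card V₁ * p ^ p := by
    have h1 := hcardcomap ⊤
    rw [comap_top, Subgroup.card_top, Subgroup.card_top, hcardC] at h1
    exact h1
  have hV₁pos : 0 < Nat.card V₁ := Nat.card_pos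
  set f := QuotientGroup.mk' V₁ with hf
  have hfs : Function.Surjective f := QuotientGroup.mk'_surjective V₁
  have hfker : ∀ a : X, f a = 1 ↔ a ∈ V₁ := fun a => QuotientGroup.eq_one_iff a
  have hcardmap : ∀ D : Subgroup X, V₁ ≤ D → Nat.card V₁ * Nat.card (D.map f) = Nat.card D := by
    intro D hD
    have := H1.card_map_mk'_mul V₁ D
    rwa [inf_of_le_right hD] at this
  -- the element t
  have hxcomm : ρ x (ι ⟨x ^ p, hxp⟩) = ι ⟨x ^ p, hxp⟩ := by
    rw [hρ]
    congr 1
    apply Subtype.ext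
    change x * x ^ p * x⁻¹ = x ^ p
    rw [← pow_succ', pow_succ, mul_inv_cancel_right]
  have hΘmx : ∀ i : Fin p, (i : ℕ) ≠ 0 → Θ (ι ⟨x ^ p, hxp⟩) i = 0 := by
    intro i hi
    have hlt : (i : ℕ) - 1 < p := by have := i.2; omega
    rw [← hΘ1 _ ⟨i - 1, hlt⟩ i (by simp only; omega)]
    have : ν (ι ⟨x ^ p, hxp⟩) = 0 := by
      rw [hνdef, LinearMap.sub_apply, Module.End.one_apply, hxcomm, sub_self]
    rw [this, map_zero]
    rfl
  have hΘνp : ∀ m, ∀ i : Fin p, (i : ℕ) ≠ 0 → Θ ((ν ^ (p - 1)) m) i = 0 := by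
    intro m i hi
    have hlt : (i : ℕ) - 1 < p := by have := i.2; omega
    rw [← hΘ1 _ ⟨i - 1, hlt⟩ i (by simp only; omega), ← Module.End.mul_apply, ← pow_succ',
      Nat.sub_add_cancel hp.one_le, hν]
    simp
  have h0 : (0 : ℕ) < p := hp.pos
  obtain ⟨m', hm'⟩ : ∃ m' : M, Θ ((ν ^ (p - 1)) m') = - Θ (ι ⟨x ^ p, hxp⟩) := by
    have h1 : ∃ m₁ : M, Θ ((ν ^ (p - 1)) m₁) ⟨0, h0⟩ ≠ 0 := by
      by_contra hcon
      push Not at hcon
      have h2 : ∀ m, Θ ((ν ^ (p - 1)) m) = 0 := by
        intro m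
        funext i
        by_cases hi : (i : ℕ) = 0
        · have : i = ⟨0, h0⟩ := Fin.ext hi
          rw [this]
          exact hcon m
        · exact hΘνp m i hi
      -- coordinate p-1 of a surjective map
      obtain ⟨m, hm⟩ := hΘs (Pi.single ⟨p - 1, by omega⟩ 1)
      have h3 : ∀ (k : ℕ) (m : M) (i : Fin p), (i : ℕ) + k ≤ p - 1 → ∀ j : Fin p, (j : ℕ) = i + k →
          Θ ((ν ^ k) m) i = Θ m j := by
        intro k
        induction k with
        | zero =>
          intro m i _ j hj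
          have : j = i := Fin.ext (by omega)
          rw [this]; simp
        | succ k ih =>
          intro m i hi j hj
          rw [pow_succ, Module.End.mul_apply]
          rw [ih (ν m) i (by omega) ⟨i + k, by omega⟩ rfl]
          exact hΘ1 m ⟨i + k, by omega⟩ j (by simp only; omega)
      have h4 := h3 (p - 1) m ⟨0, h0⟩ (by simp) ⟨p - 1, by omega⟩ (by simp)
      rw [h2, hm] at h4
      simp at h4
    obtain ⟨m₁, hm₁⟩ := h1
    refine ⟨(- Θ (ι ⟨x ^ p, hxp⟩) ⟨0, h0⟩ * (Θ ((ν ^ (p - 1)) m₁) ⟨0, h0⟩)⁻¹) • m₁, ?_⟩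
    rw [map_smul, map_smul]
    funext i
    by_cases hi : (i : ℕ) = 0
    · have : i = ⟨0, h0⟩ := Fin.ext hi
      rw [this, Pi.smul_apply, smul_eq_mul, mul_assoc, inv_mul_cancel₀ hm₁, mul_one]
      rfl
    · rw [Pi.smul_apply, hΘνp _ i hi, smul_zero, Pi.neg_apply, hΘmx i hi, neg_zero]
  obtain ⟨v', rfl⟩ := hι.2 m'
  have htp : ((v' : X) * x) ^ p ∈ V₁ := by
    obtain ⟨u, hu, huι⟩ := norm_formula ρ ι hιm hρ x v' p
    rw [← hsum] at huι
    have h1 : ((v' : X) * x) ^ p = ((u * ⟨x ^ p, hxp⟩ : V) : X) := by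
      rw [Subgroup.coe_mul, hu, inv_mul_cancel_right]
    rw [h1, hmemV₁, hιm, map_add, huι, hm', neg_add_cancel]
  set t := f ((v' : X) * x) with ht
  have htV : t ∉ V.map f := by
    rintro ⟨w, hw, hwt⟩
    apply hxV
    have h1 : ((v' : X) * x)⁻¹ * w ∈ V₁ := QuotientGroup.eq.mp hwt.symm
    have h2 : (v' : X) * x ∈ V := by
      have h3 := V.mul_mem (SetLike.mem_coe.mp hw) (V.inv_mem (hV₁V h1))
      have h4 : w * (((v' : X) * x)⁻¹ * w)⁻¹ = (v' : X) * x := by group
      rwa [h4] at h3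
    exact (V.mul_mem_cancel_left v'.2).mp h2
  have hmemV : ∀ w : X, f w ∈ V.map f ↔ w ∈ V := by
    intro w
    constructor
    · rintro ⟨a, ha, haw⟩
      have h1 : a⁻¹ * w ∈ V₁ := QuotientGroup.eq.mp haw
      exact (V.mul_mem_cancel_left (V.inv_mem ha)).mp (hV₁V h1)
    · intro h
      exact mem_map_of_mem f h
  refine ⟨V.map f, t, hVn.map f hfs, ?_, ?_, ?_, ?_, htV, ?_, ?_⟩
  · constructor
    constructor
    rintro ⟨_, a, ha, rfl⟩ ⟨_, b, hb, rfl⟩
    apply Subtype.ext
    have := congrArg (fun z : V => f (z : X)) (hV.1.is_comm.comm ⟨a, ha⟩ ⟨b, hb⟩)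
    change f a * f b = f b * f a
    simpa using this
  · rintro _ ⟨a, ha, rfl⟩
    rw [← map_pow, hV.2 a ha, map_one]
  · apply Nat.eq_of_mul_eq_mul_left hV₁pos
    rw [hcardmap V hV₁V, hcardV]
  · apply orderOf_eq_prime
    · rw [ht, ← map_pow, hfker]
      exact htp
    · intro h
      apply htV
      rw [h]
      exact one_mem _
  · -- card W
    have hidx : V.index = p := by
      have h1 : Nat.card (zpowers (x : X ⧸ V)) = p := by
        rw [Nat.card_zpowers]
        apply orderOf_eq_prime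
        · rw [← QuotientGroup.mk_pow, QuotientGroup.eq_one_iff]
          exact hxp
        · rw [Ne, QuotientGroup.eq_one_iff]
          exact hxV
      have h2 : zpowers (x : X ⧸ V) = ⊤ := by
        rw [eq_top_iff]
        intro a _
        obtain ⟨a, rfl⟩ := QuotientGroup.mk_surjective a
        have h3 : a ∈ V ⊔ zpowers x := by rw [hgen]; exact mem_top a
        obtain ⟨v, hv, y, ⟨k, rfl⟩, rfl⟩ := mem_sup_of_normal_left.mp h3
        refine ⟨k, ?_⟩
        simp only
        rw [QuotientGroup.mk_mul, (QuotientGroup.eq_one_iff v).mpr hv, one_mul, QuotientGroup.mk_zpow]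
      rw [h2, Subgroup.card_top] at h1
      exact h1
    have h1 := V.card_mul_index
    rw [hidx, hcardV] at h1
    have h2 := V₁.card_mul_index
    rw [Subgroup.index] at h2
    apply Nat.eq_of_mul_eq_mul_left hV₁pos
    rw [h2, ← h1, pow_succ, mul_assoc]
  · -- the centralizer
    set E : Subgroup (Multiplicative (Fin p → ZMod p)) :=
      { carrier := {c | ∀ i : Fin p, (i : ℕ) ≠ 0 → Multiplicative.toAdd c i = 0}
        mul_mem' := by
          intro a b ha hb i hi
          rw [toAdd_mul, Pi.add_apply, ha i hi, hb i hi, add_zero]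
        one_mem' := by
          intro i _
          rfl
        inv_mem' := by
          intro a ha i hi
          rw [toAdd_inv, Pi.neg_apply, ha i hi, neg_zero] } with hE
    have hmemE : ∀ c, c ∈ E ↔ ∀ i : Fin p, (i : ℕ) ≠ 0 → Multiplicative.toAdd c i = 0 := fun c => Iff.rfl
    have hsing : ∀ a : ZMod p, Multiplicative.ofAdd (Pi.single (⟨0, h0⟩ : Fin p) a : Fin p → ZMod p) ∈ E := by
      intro a i hi
      have hne0 : i ≠ (⟨0, h0⟩ : Fin p) := fun h => hi (congrArg Fin.val h)
      change (Pi.single (⟨0, h0⟩ : Fin p) a : Fin p → ZMod p) i = 0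
      rw [Pi.single_eq_of_ne hne0]
    have hcardE : Nat.card ↥E = p := by
      have e : E ≃ ZMod p :=
        { toFun := fun c => Multiplicative.toAdd (c : Multiplicative (Fin p → ZMod p)) ⟨0, h0⟩
          invFun := fun a => ⟨Multiplicative.ofAdd (Pi.single (⟨0, h0⟩ : Fin p) a : Fin p → ZMod p), hsing a⟩
          left_inv := by
            intro c
            apply Subtype.ext
            apply Multiplicative.toAdd.injective
            funext i
            change (Pi.single (⟨0, h0⟩ : Fin p) _ : Fin p → ZMod p) i = _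
            by_cases hi : (i : ℕ) = 0
            · have : i = ⟨0, h0⟩ := Fin.ext hi
              subst this
              rw [Pi.single_eq_same]
            · have hne0 : i ≠ (⟨0, h0⟩ : Fin p) := fun h => hi (congrArg Fin.val h)
              rw [Pi.single_eq_of_ne hne0]
              exact ((hmemE _).mp c.2 i hi).symm
          right_inv := by
            intro a
            change (Pi.single (⟨0, h0⟩ : Fin p) a : Fin p → ZMod p) ⟨0, h0⟩ = a
            rw [Pi.single_eq_same] }
      rw [Nat.card_congr e, Nat.card_zmod]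
    have hkey : ∀ (a : X) (ha : a ∈ V), f a * t = t * f a ↔ g ⟨a, ha⟩ ∈ E := by
      intro a ha
      set b : V := ⟨((v' : X) * x) * a * ((v' : X) * x)⁻¹, hVn.conj_mem a ha _⟩ with hb
      have hιb : ι b = ρ x (ι ⟨a, ha⟩) := by
        rw [hb, ← hρ ((v' : X) * x) ⟨a, ha⟩, map_mul, hρV v' v'.2, one_mul]
      have hινa : ι b = ν (ι ⟨a, ha⟩) + ι ⟨a, ha⟩ := by
        rw [hιb, hνdef, LinearMap.sub_apply, Module.End.one_apply, sub_add_cancel]
      have h1 : f a * t = t * f a ↔ f a = f b := by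
        have h2 : f b = t * f a * t⁻¹ := by
          rw [hb, ht, map_mul, map_mul, map_inv]
        rw [h2, eq_mul_inv_iff_mul_eq]
      have h3 : f a = f b ↔ Θ (ν (ι ⟨a, ha⟩)) = 0 := by
        have h4 : f a = f b ↔ (((⟨a, ha⟩ : V)⁻¹ * b : V) : X) ∈ V₁ := by
          rw [hf, QuotientGroup.mk'_apply, QuotientGroup.mk'_apply, QuotientGroup.eq]
          rfl
        have h5 : ι ((⟨a, ha⟩ : V)⁻¹ * b) = ν (ι ⟨a, ha⟩) := by
          have h6 := hιm ⟨a, ha⟩ ((⟨a, ha⟩ : V)⁻¹ * b)
          rw [mul_inv_cancel_left, hινa, add_comm] at h6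
          exact (add_left_cancel h6).symm
        rw [h4, hmemV₁, h5]
      rw [h1, h3, hmemE]
      constructor
      · intro h i hi
        have hlt : (i : ℕ) - 1 < p := by have := i.2; omega
        have h7 := congrFun h ⟨i - 1, hlt⟩
        rw [hΘ1 _ ⟨i - 1, hlt⟩ i (by simp only; omega)] at h7
        exact h7
      · intro h
        funext i
        by_cases hi : (i : ℕ) = p - 1
        · exact hΘ2 _ i hi
        · have hlt : (i : ℕ) + 1 < p := by have := i.2; omega
          rw [hΘ1 _ i ⟨i + 1, hlt⟩ rfl]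
          exact h ⟨i + 1, hlt⟩ (by simp)
    have hD : V.map f ⊓ centralizer ({t} : Set (X ⧸ V₁)) = ((E.comap g).map V.subtype).map f := by
      ext w
      constructor
      · rintro ⟨⟨a, ha, rfl⟩, hw⟩
        have hw' := mem_centralizer_singleton_iff.mp hw
        exact mem_map_of_mem f ⟨⟨a, ha⟩, (hkey a ha).mp hw', rfl⟩
      · rintro ⟨_, ⟨a, ha, rfl⟩, rfl⟩
        exact ⟨mem_map_of_mem f a.2, mem_centralizer_singleton_iff.mpr ((hkey a a.2).mpr ha)⟩
    rw [hD]
    have hle : V₁ ≤ (E.comap g).map V.subtype := by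
      rw [hV₁]
      apply Subgroup.map_mono
      intro a ha
      rw [mem_comap, (MonoidHom.mem_ker).mp ha]
      exact one_mem E
    apply Nat.eq_of_mul_eq_mul_left hV₁pos
    rw [hcardmap _ hle, Subgroup.card_map_of_injective V.subtype_injective, hcardcomap, hcardE]

end Cfsg.Agent.H23
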