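import Mathlib

set_option autoImplicit false
set_option linter.all false

/-!
Kreknin's theorem on `ZMod n`-graded Lie rings with trivial zero component, and the
Higman--Kreknin--Kostrikin nilpotency bound, in terms of families of additive subgroups.
-/

namespace Cfsg.Agent.H23.Kreknin

variable {L : Type*} [LieRing L] {n : ℕ}

/-- the graded bracket of two families -/
def fbr (X Y : ZMod n → AddSubgroup L) (k : ZMod n) : AddSubgroup L :=
  AddSubgroup.closure {z | ∃ i j, i + j = k ∧ ∃ x ∈ X i, ∃ y ∈ Y j, z = ⁅x, y⁆}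

theorem brk_mem_fbr {X Y : ZMod n → AddSubgroup L} {i j : ZMod n} {x y : L}
    (hx : x ∈ X i) (hy : y ∈ Y j) : ⁅x, y⁆ ∈ fbr X Y (i + j) :=
  AddSubgroup.subset_closure ⟨i, j, rfl, x, hx, y, hy, rfl⟩

theorem fbr_le {X Y : ZMod n → AddSubgroup L} {k : ZMod n} {H : AddSubgroup L}
    (h : ∀ i j, i + j = k → ∀ x ∈ X i, ∀ y ∈ Y j, ⁅x, y⁆ ∈ H) : fbr X Y k ≤ H := by
  rw [fbr, AddSubgroup.closure_le]
  rintro z ⟨i, j, hij, x, hx, y, hy, rfl⟩
  exact h i j hij x hx y hy

theorem fbr_mono {X Y X' Y' : ZMod n → AddSubgroup L} (hX : ∀ i, X i ≤ X' i) (hY : ∀ i, Y i ≤ Y' i)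
    (k : ZMod n) : fbr X Y k ≤ fbr X' Y' k :=
  fbr_le fun i j hij x hx y hy => hij ▸ brk_mem_fbr (hX i hx) (hY j hy)

/-- derived families -/
def D (M : ZMod n → AddSubgroup L) : ℕ → (ZMod n → AddSubgroup L)
  | 0 => M
  | s + 1 => fbr (D M s) (D M s)

/-- closed families -/
def Closed (M : ZMod n → AddSubgroup L) : Prop :=
  ∀ i j, ∀ x ∈ M i, ∀ y ∈ M j, ⁅x, y⁆ ∈ M (i + j)

theorem Closed.fbr_le {M : ZMod n → AddSubgroup L} (h : Closed M) (k : ZMod n) : fbr M M k ≤ M k :=
  Kreknin.fbr_le fun i j hij x hx y hy => hij ▸ h i j x hx y hy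

theorem Closed.fbr {M : ZMod n → AddSubgroup L} (h : Closed M) : Closed (fbr M M) :=
  fun i j x hx y hy => brk_mem_fbr (h.fbr_le i hx) (h.fbr_le j hy)

theorem Closed.D {M : ZMod n → AddSubgroup L} (h : Closed M) : ∀ s, Closed (D M s)
  | 0 => h
  | s + 1 => (Closed.D h s).fbr

theorem Closed.D_le_succ {M : ZMod n → AddSubgroup L} (h : Closed M) (s : ℕ) (k : ZMod n) :
    Kreknin.D M (s + 1) k ≤ Kreknin.D M s k := (h.D s).fbr_le k

theorem Closed.D_le {M : ZMod n → AddSubgroup L} (h : Closed M) : ∀ (s : ℕ) (k : ZMod n),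
    Kreknin.D M s k ≤ M k
  | 0, _ => le_rfl
  | s + 1, k => (h.D_le_succ s k).trans (h.D_le s k)

theorem D_add (M : ZMod n → AddSubgroup L) (a : ℕ) : ∀ b, D M (a + b) = D (D M a) b
  | 0 => rfl
  | b + 1 => by
      rw [← Nat.add_assoc]
      show fbr (D M (a + b)) (D M (a + b)) = fbr (D (D M a) b) (D (D M a) b)
      rw [D_add M a b]

/-- graded subring generated by a family -/
inductive Gen (Z : ZMod n → AddSubgroup L) : ZMod n → L → Prop
  | base {i : ZMod n} {x : L} (hx : x ∈ Z i) : Gen Z i x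
  | zero (i : ZMod n) : Gen Z i 0
  | add {i : ZMod n} {x y : L} (hx : Gen Z i x) (hy : Gen Z i y) : Gen Z i (x + y)
  | neg {i : ZMod n} {x : L} (hx : Gen Z i x) : Gen Z i (-x)
  | brk {i j k : ZMod n} {x y : L} (hx : Gen Z i x) (hy : Gen Z j y) (hk : i + j = k) :
      Gen Z k ⁅x, y⁆

theorem Gen.mono {Z Z' : ZMod n → AddSubgroup L} (h : ∀ i x, x ∈ Z i → Gen Z' i x) {i : ZMod n} {x : L}
    (hx : Gen Z i x) : Gen Z' i x := by
  induction hx with
  | base hx => exact h _ _ hx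
  | zero i => exact Gen.zero i
  | add _ _ h1 h2 => exact h1.add h2
  | neg _ h1 => exact h1.neg
  | brk _ _ hk h1 h2 => exact h1.brk h2 hk

theorem Gen.mem {Z M : ZMod n → AddSubgroup L} (hM : Closed M) (h : ∀ i, Z i ≤ M i) {i : ZMod n} {x : L}
    (hx : Gen Z i x) : x ∈ M i := by
  induction hx with
  | base hx => exact h _ hx
  | zero i => exact (M i).zero_mem
  | add _ _ h1 h2 => exact (M _).add_mem h1 h2
  | neg _ h1 => exact (M _).neg_mem h1
  | brk _ _ hk h1 h2 => exact hk ▸ hM _ _ _ h1 _ h2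

/-- as an additive subgroup -/
def U (Z : ZMod n → AddSubgroup L) (i : ZMod n) : AddSubgroup L where
  carrier := {x | Gen Z i x}
  zero_mem' := Gen.zero i
  add_mem' := fun h1 h2 => Gen.add h1 h2
  neg_mem' := fun h1 => Gen.neg h1

theorem mem_U {Z : ZMod n → AddSubgroup L} {i : ZMod n} {x : L} : x ∈ U Z i ↔ Gen Z i x := Iff.rfl

/-- truncated family -/
def tr (k : ℕ) (M : ZMod n → AddSubgroup L) (i : ZMod n) : AddSubgroup L :=
  if k ≤ i.val then M i else ⊥

theorem tr_le (k : ℕ) (M : ZMod n → AddSubgroup L) (i : ZMod n) : tr k M i ≤ M i := by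
  unfold tr; split_ifs <;> simp

theorem mem_tr {k : ℕ} {M : ZMod n → AddSubgroup L} {i : ZMod n} {x : L} (h : k ≤ i.val) (hx : x ∈ M i) :
    x ∈ tr k M i := by
  unfold tr; rwa [if_pos h]

/-- the bracket of something homogeneous with a generated element -/
theorem brk_gen {M : ZMod n → AddSubgroup L} (hM : Closed M) (k : ℕ) {i : ZMod n} {x : L}
    (hx : Gen (tr k M) i x) : ∀ (j : ZMod n) (y : L), y ∈ M j → ⁅y, x⁆ ∈ fbr M (tr k M) (j + i) := by
  induction hx with
  | base hx => intro j y hy; exact brk_mem_fbr hy hx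
  | zero i => intro j y hy; rw [lie_zero]; exact AddSubgroup.zero_mem _
  | add _ _ h1 h2 => intro j y hy; rw [lie_add]; exact AddSubgroup.add_mem _ (h1 j y hy) (h2 j y hy)
  | neg _ h1 => intro j y hy; rw [lie_neg]; exact AddSubgroup.neg_mem _ (h1 j y hy)
  | @brk i1 i2 k' x1 x2 hx1 hx2 hk h1 h2 =>
      intro j y hy
      have e : ⁅y, ⁅x1, x2⁆⁆ = ⁅⁅y, x1⁆, x2⁆ - ⁅⁅y, x2⁆, x1⁆ := by
        rw [leibniz_lie, sub_eq_add_neg, lie_skew]
      rw [e]
      have m1 : x1 ∈ M i1 := hx1.mem hM (tr_le k M)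
      have m2 : x2 ∈ M i2 := hx2.mem hM (tr_le k M)
      refine AddSubgroup.sub_mem _ ?_ ?_
      · have := h2 (j + i1) ⁅y, x1⁆ (hM _ _ _ hy _ m1)
        rwa [show j + k' = j + i1 + i2 by rw [← hk]; ring]
      · have := h1 (j + i2) ⁅y, x2⁆ (hM _ _ _ hy _ m2)
        rwa [show j + k' = j + i2 + i1 by rw [← hk]; ring]

variable [NeZero n]

theorem val_big {a b : ZMod n} {k : ℕ} (hk : k < n) (hab : a + b = (k : ZMod n)) (hb : k < b.val) :
    k < a.val := by
  by_contra hcon
  push Not at hcon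
  have h1 := ZMod.val_lt a
  have h2 := ZMod.val_lt b
  have h3 : (a + b).val = (a.val + b.val) % n := ZMod.val_add a b
  rw [hab, ZMod.val_natCast, Nat.mod_eq_of_lt hk] at h3
  by_cases h : a.val + b.val < n
  · rw [Nat.mod_eq_of_lt h] at h3; omega
  · have h4 : (a.val + b.val) % n = a.val + b.val - n := by
      rw [Nat.mod_eq_sub_mod (by omega), Nat.mod_eq_of_lt (by omega)]
    omega

/-- step (a) -/
theorem stepA {M : ZMod n → AddSubgroup L} (hM : Closed M) (h0 : M 0 = ⊥) {k : ℕ} (hk : k < n) {s : ℕ}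
    (hb : ∀ i, ∀ x ∈ D M s i, Gen (tr k M) i x) :
    ∀ x ∈ D M (s + 1) (k : ZMod n), Gen (tr (k + 1) M) (k : ZMod n) x := by
  have key : fbr M (tr k M) (k : ZMod n) ≤ U (tr (k + 1) M) (k : ZMod n) := by
    apply fbr_le
    intro a b hab u hu z hz
    by_cases hbk : k ≤ b.val
    · have hz' : z ∈ M b := tr_le k M b hz
      rcases hbk.eq_or_lt with h | h
      · have hb' : b = (k : ZMod n) := by
          rw [h, ZMod.natCast_zmod_val]
        have ha : a = 0 := by
          rw [hb'] at hab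
          exact add_eq_right.1 hab
        rw [ha, h0, AddSubgroup.mem_bot] at hu
        rw [hu, zero_lie]
        exact AddSubgroup.zero_mem _
      · have ha := val_big hk hab h
        exact (Gen.base (mem_tr ha hu)).brk (Gen.base (mem_tr h hz')) hab
    · unfold tr at hz
      rw [if_neg hbk, AddSubgroup.mem_bot] at hz
      rw [hz, lie_zero]
      exact AddSubgroup.zero_mem _
  intro x hx
  refine (fbr_le (H := U (tr (k + 1) M) (k : ZMod n)) ?_) hx
  intro i j hij x hx y hy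
  apply key
  have := brk_gen hM k (hb j y hy) i x (hM.D_le s i hx)
  rwa [hij] at this

/-- step (b) -/
theorem stepB : ∀ k : ℕ, k + 1 ≤ n → ∀ M : ZMod n → AddSubgroup L, Closed M → M 0 = ⊥ →
    ∀ i, ∀ x ∈ D M (2 ^ k - 1) i, Gen (tr (k + 1) M) i x
  | 0, _, M, hM, h0, i, x, hx => by
      by_cases hi : 1 ≤ i.val
      · exact Gen.base (mem_tr hi hx)
      · have : i = 0 := (ZMod.val_eq_zero i).1 (by omega)
        subst this
        have hx' : x ∈ M 0 := hx
        rw [h0, AddSubgroup.mem_bot] at hx'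
        rw [hx']
        exact Gen.zero 0
  | k + 1, hk, M, hM, h0, i, x, hx => by
      have hb := stepB k (by omega) M hM h0
      have ha := stepA hM h0 (k := k + 1) (by omega) hb
      have e1 : 2 ^ k - 1 + 1 = 2 ^ k := Nat.sub_add_cancel Nat.one_le_two_pow
      rw [e1] at ha
      have e2 : 2 ^ (k + 1) - 1 = 2 ^ k + (2 ^ k - 1) := by
        have := Nat.one_le_two_pow (n := k)
        rw [pow_succ]; omega
      rw [e2, D_add] at hx
      have h0' : D M (2 ^ k) 0 = ⊥ := by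
        rw [eq_bot_iff, ← h0]; exact hM.D_le _ _
      have hg := stepB k (by omega) (D M (2 ^ k)) (hM.D _) h0' i x hx
      refine hg.mono ?_
      intro j z hz
      by_cases hj : k + 1 ≤ j.val
      · have hz' : z ∈ D M (2 ^ k) j := tr_le _ _ _ hz
        rcases hj.eq_or_lt with h | h
        · have hj' : j = ((k + 1 : ℕ) : ZMod n) := by
            rw [h, ZMod.natCast_zmod_val]
          rw [hj'] at hz' ⊢
          exact ha z hz'
        · exact Gen.base (mem_tr h (hM.D_le _ _ hz'))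
      · unfold tr at hz
        rw [if_neg hj, AddSubgroup.mem_bot] at hz
        rw [hz]
        exact Gen.zero j

/-- **Kreknin's theorem** -/
theorem kreknin {M : ZMod n → AddSubgroup L} (hM : Closed M) (h0 : M 0 = ⊥) (i : ZMod n) :
    D M (2 ^ (n - 1) - 1) i = ⊥ := by
  have hn : n ≠ 0 := NeZero.ne n
  rw [eq_bot_iff]
  intro x hx
  have h := stepB (n - 1) (by omega) M hM h0 i x hx
  rw [show n - 1 + 1 = n by omega] at h
  have hz : ∀ (i : ZMod n) (x : L), Gen (tr n M) i x → x = 0 := by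
    intro i x hx
    induction hx with
    | @base i x hx =>
        unfold tr at hx
        rwa [if_neg (by have := ZMod.val_lt i; omega), AddSubgroup.mem_bot] at hx
    | zero i => rfl
    | add _ _ h1 h2 => rw [h1, h2, add_zero]
    | neg _ h1 => rw [h1, neg_zero]
    | brk _ _ _ h1 h2 => rw [h1, zero_lie]
  rw [AddSubgroup.mem_bot]
  exact hz i x h

/-! ### nilpotency -/

/-- iterated bracket with `M` -/
def iter (M X : ZMod n → AddSubgroup L) : ℕ → (ZMod n → AddSubgroup L)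
  | 0 => X
  | m + 1 => fbr (iter M X m) M

theorem iter_add (M X : ZMod n → AddSubgroup L) (a : ℕ) : ∀ b, iter M X (a + b) = iter M (iter M X a) b
  | 0 => rfl
  | b + 1 => by
      rw [← Nat.add_assoc]
      show fbr (iter M X (a + b)) M = fbr (iter M (iter M X a) b) M
      rw [iter_add M X a b]

theorem iter_mono (M : ZMod n → AddSubgroup L) {X Y : ZMod n → AddSubgroup L} (h : ∀ i, X i ≤ Y i) :
    ∀ (m : ℕ) (i : ZMod n), iter M X m i ≤ iter M Y m i
  | 0, i => h i
  | m + 1, i => fbr_mono (iter_mono M h m) (fun _ => le_rfl) i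

/-- invariance of a family under bracket with `M` -/
def Inv (M X : ZMod n → AddSubgroup L) : Prop :=
  ∀ i j, ∀ x ∈ X i, ∀ y ∈ M j, ⁅x, y⁆ ∈ X (i + j)

theorem Inv.fbr {M X A : ZMod n → AddSubgroup L} (hX : Inv M X) (hA : Inv M A) : Inv M (fbr X A) := by
  intro i j z hz y hy
  have : ∀ z ∈ Kreknin.fbr X A i, ⁅z, y⁆ ∈ Kreknin.fbr X A (i + j) := by
    intro z hz
    refine AddSubgroup.closure_induction (p := fun z _ => ⁅z, y⁆ ∈ Kreknin.fbr X A (i + j)) ?_ ?_ ?_ ?_ hz
    · rintro z ⟨a, b, hab, x, hx, w, hw, rfl⟩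
      have e : ⁅⁅x, w⁆, y⁆ = ⁅⁅x, y⁆, w⁆ + ⁅x, ⁅w, y⁆⁆ := by
        rw [leibniz_lie x w y, ← lie_skew w ⁅x, y⁆]
        abel
      rw [e]
      refine AddSubgroup.add_mem _ ?_ ?_
      · have := brk_mem_fbr (hX a j x hx y hy) hw
        rwa [show a + j + b = i + j by rw [← hab]; ring] at this
      · have := brk_mem_fbr hx (hA b j w hw y hy)
        rwa [show a + (b + j) = i + j by rw [← hab]; ring] at this
    · rw [zero_lie]; exact AddSubgroup.zero_mem _
    · intro a b _ _ h1 h2; rw [add_lie]; exact AddSubgroup.add_mem _ h1 h2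
    · intro a _ h1; rw [neg_lie]; exact AddSubgroup.neg_mem _ h1
  exact this z hz

theorem Inv.sup {M X Y : ZMod n → AddSubgroup L} (hX : Inv M X) (hY : Inv M Y) :
    Inv M (fun i => X i ⊔ Y i) := by
  intro i j z hz y hy
  rw [AddSubgroup.mem_sup] at hz ⊢
  obtain ⟨a, ha, b, hb, rfl⟩ := hz
  exact ⟨⁅a, y⁆, hX i j a ha y hy, ⁅b, y⁆, hY i j b hb y hy, by rw [add_lie]⟩

theorem Inv.D {M : ZMod n → AddSubgroup L} (hM : Closed M) : ∀ s, Inv M (Kreknin.D M s)
  | 0 => hM
  | s + 1 => (Inv.D hM s).fbr (Inv.D hM s)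

/-- elements obtained from `X τ` and `Y` by brackets with `A` -/
inductive Q (X Y A : ZMod n → AddSubgroup L) (τ : ZMod n) : ZMod n → L → Prop
  | base {i : ZMod n} {x : L} (hi : i = τ) (hx : x ∈ X i) : Q X Y A τ i x
  | y {i : ZMod n} {x : L} (hx : x ∈ Y i) : Q X Y A τ i x
  | add {i : ZMod n} {x y : L} (hx : Q X Y A τ i x) (hy : Q X Y A τ i y) : Q X Y A τ i (x + y)
  | brk {i j k : ZMod n} {x a : L} (hx : Q X Y A τ i x) (ha : a ∈ A j) (hk : i + j = k) :
      Q X Y A τ k ⁅x, a⁆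

section Q

variable {M X Y A : ZMod n → AddSubgroup L}

theorem Q.mem (hX : Inv M X) (hYX : ∀ i, Y i ≤ X i) (hA : ∀ i, A i ≤ M i) {τ i : ZMod n} {x : L}
    (h : Q X Y A τ i x) : x ∈ X i := by
  induction h with
  | base _ hx => exact hx
  | y hx => exact hYX _ hx
  | add _ _ h1 h2 => exact (X _).add_mem h1 h2
  | brk _ ha hk h1 => exact hk ▸ hX _ _ _ h1 _ (hA _ ha)

theorem Q.shift (hX : Inv M X) (hY : Inv M Y) (hYX : ∀ i, Y i ≤ X i) (hA : ∀ i, A i ≤ M i)
    (hcomm : ∀ i j k, ∀ x ∈ X i, ∀ a ∈ A j, ∀ b ∈ A k, ⁅x, ⁅a, b⁆⁆ ∈ Y (i + (j + k))) {τ i : ZMod n} {x : L}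
    (h : Q X Y A τ i x) : ∀ (k : ZMod n) (a : L), a ∈ A k → Q X Y A (τ + k) (i + k) ⁅x, a⁆ := by
  induction h with
  | base hi hx => intro k a ha; exact Q.base (by rw [hi]) (hX _ _ _ hx _ (hA _ ha))
  | y hx => intro k a ha; exact Q.y (hY _ _ _ hx _ (hA _ ha))
  | add _ _ h1 h2 => intro k a ha; rw [add_lie]; exact (h1 k a ha).add (h2 k a ha)
  | @brk i j l x b hx hb hk h1 =>
      intro k a ha
      have e : ⁅⁅x, b⁆, a⁆ = ⁅⁅x, a⁆, b⁆ + ⁅x, ⁅b, a⁆⁆ := by
        rw [leibniz_lie x b a, ← lie_skew b ⁅x, a⁆]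
        abel
      rw [e]
      refine Q.add ?_ ?_
      · exact (h1 k a ha).brk hb (by rw [← hk]; ring)
      · refine Q.y ?_
        have := hcomm i j k x (hx.mem hX hYX hA) b hb a ha
        rwa [show i + (j + k) = l + k by rw [← hk]; ring] at this

theorem Q.zero_mem_Y (hX0 : X 0 = ⊥) (hY : Inv M Y) (hA : ∀ i, A i ≤ M i) {i : ZMod n} {x : L}
    (h : Q X Y A 0 i x) : x ∈ Y i := by
  induction h with
  | @base i x hi hx =>
      rw [hi, hX0, AddSubgroup.mem_bot] at hx
      rw [hx]; exact AddSubgroup.zero_mem _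
  | y hx => exact hx
  | add _ _ h1 h2 => exact (Y _).add_mem h1 h2
  | brk _ ha hk h1 => exact hk ▸ hY _ _ _ h1 _ (hA _ ha)

/-- the descending chain `X ≥ [X,A]+Y ≥ ...` -/
def ch (X Y A : ZMod n → AddSubgroup L) : ℕ → (ZMod n → AddSubgroup L)
  | 0 => X
  | r + 1 => fun i => fbr (ch X Y A r) A i ⊔ Y i

theorem ch_inv (hX : Inv M X) (hY : Inv M Y) (hA : Inv M A) : ∀ r, Inv M (ch X Y A r)
  | 0 => hX
  | r + 1 => ((ch_inv hX hY hA r).fbr hA).sup hY

theorem Y_le_ch (hYX : ∀ i, Y i ≤ X i) : ∀ r i, Y i ≤ ch X Y A r i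
  | 0, i => hYX i
  | r + 1, i => le_sup_right

theorem ch_le_X (hX : Inv M X) (hYX : ∀ i, Y i ≤ X i) (hA : ∀ i, A i ≤ M i) : ∀ r i, ch X Y A r i ≤ X i
  | 0, i => le_rfl
  | r + 1, i => by
      refine sup_le ?_ (hYX i)
      apply fbr_le
      intro a b hab x hx y hy
      exact hab ▸ hX _ _ _ (ch_le_X hX hYX hA r a hx) _ (hA _ hy)

theorem card_shift {p : ℕ} [Fact p.Prime] {T : Finset (ZMod p)} (hT : T.Nonempty) {k : ZMod p} (hk : k ≠ 0)
    {m : ℕ} (hm : m ≤ T.card) (hm' : m < p) : m + 1 ≤ (T ∪ T.image (· + k)).card := by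
  classical
  by_contra hcon
  push Not at hcon
  have h1 : T.card ≤ (T ∪ T.image (· + k)).card := Finset.card_le_card Finset.subset_union_left
  have h2 : T = T ∪ T.image (· + k) :=
    Finset.eq_of_subset_of_card_le Finset.subset_union_left (by omega)
  have h3 : ∀ x ∈ T, x + k ∈ T := by
    intro x hx
    rw [h2]
    exact Finset.mem_union_right _ (Finset.mem_image_of_mem _ hx)
  obtain ⟨x, hx⟩ := hT
  have h4 : ∀ j : ℕ, x + j * k ∈ T := by
    intro j
    induction j with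
    | zero => simpa using hx
    | succ j ih =>
        have := h3 _ ih
        rwa [show x + ((j + 1 : ℕ) : ZMod p) * k = x + j * k + k by push_cast; ring]
  have h5 : ∀ z : ZMod p, z ∈ T := by
    intro z
    have := h4 ((z - x) * k⁻¹).val
    rwa [ZMod.natCast_zmod_val, mul_assoc, inv_mul_cancel₀ hk, mul_one, add_sub_cancel] at this
  have h6 : T = Finset.univ := Finset.eq_univ_iff_forall.2 h5
  have h7 : T.card = p := by rw [h6, Finset.card_univ, ZMod.card]
  omega

end Q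

section prime

variable {p : ℕ} [Fact p.Prime] {M X Y A : ZMod p → AddSubgroup L}

theorem ch_last (h0 : M 0 = ⊥) (hXM : ∀ i, X i ≤ M i) (hX : Inv M X) (hY : Inv M Y)
    (hYX : ∀ i, Y i ≤ X i) (hA : ∀ i, A i ≤ M i)
    (hcomm : ∀ i j k, ∀ x ∈ X i, ∀ a ∈ A j, ∀ b ∈ A k, ⁅x, ⁅a, b⁆⁆ ∈ Y (i + (j + k))) (i : ZMod p) :
    ch X Y A (p - 1) i ≤ Y i := by
  classical
  have hp := (Fact.out : p.Prime)
  have key : ∀ m, m < p → ∀ i, ch X Y A m i ≤ AddSubgroup.closure
      {w | ∃ T : Finset (ZMod p), m + 1 ≤ T.card ∧ ∀ τ ∈ T, Q X Y A τ i w} := by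
    intro m
    induction m with
    | zero =>
        intro _ i x hx
        refine AddSubgroup.subset_closure ⟨{i}, by simp, ?_⟩
        intro τ hτ
        rw [Finset.mem_singleton] at hτ
        exact Q.base hτ.symm hx
    | succ m ih =>
        intro hm i
        refine sup_le ?_ ?_
        · apply fbr_le
          intro a b hab x hx y hy
          have hx' := ih (by omega) a hx
          refine AddSubgroup.closure_induction (p := fun z _ => ⁅z, y⁆ ∈ AddSubgroup.closure
            {w | ∃ T : Finset (ZMod p), m + 1 + 1 ≤ T.card ∧ ∀ τ ∈ T, Q X Y A τ i w}) ?_ ?_ ?_ ?_ hx'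
          · rintro z ⟨T, hT, hz⟩
            by_cases hb : b = 0
            · have : y = 0 := by
                have h1 := hA b hy
                rwa [hb, h0, AddSubgroup.mem_bot] at h1
              rw [this, lie_zero]; exact AddSubgroup.zero_mem _
            · refine AddSubgroup.subset_closure ⟨T ∪ T.image (· + b), ?_, ?_⟩
              · exact card_shift (Finset.card_pos.1 (by omega)) hb hT (by omega)
              · intro τ hτ
                rcases Finset.mem_union.1 hτ with h | h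
                · exact (hz τ h).brk hy hab
                · obtain ⟨σ, hσ, rfl⟩ := Finset.mem_image.1 h
                  have := (hz σ hσ).shift hX hY hYX hA hcomm b y hy
                  rwa [hab] at this
          · rw [zero_lie]; exact AddSubgroup.zero_mem _
          · intro u v _ _ h1 h2; rw [add_lie]; exact AddSubgroup.add_mem _ h1 h2
          · intro u _ h1; rw [neg_lie]; exact AddSubgroup.neg_mem _ h1
        · intro y hy
          refine AddSubgroup.subset_closure ⟨Finset.univ, ?_, fun τ _ => Q.y hy⟩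
          rw [Finset.card_univ, ZMod.card]; omega
  refine (key (p - 1) (by have := hp.pos; omega) i).trans ?_
  rw [AddSubgroup.closure_le]
  rintro w ⟨T, hT, hw⟩
  have hT' : T = Finset.univ := by
    apply Finset.eq_univ_of_card
    have h1 := Finset.card_le_univ T
    rw [ZMod.card] at h1 ⊢
    have := hp.pos
    omega
  have h2 := hw 0 (by rw [hT']; exact Finset.mem_univ _)
  exact h2.zero_mem_Y (by rw [eq_bot_iff, ← h0]; exact hXM 0) hY hA

theorem nil_step (hM : Closed M) (h0 : M 0 = ⊥) : ∀ (t : ℕ) (X Y : ZMod p → AddSubgroup L),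
    (∀ i, X i ≤ M i) → Inv M X → Inv M Y → (∀ i, Y i ≤ X i) → (∀ i, fbr X (D M t) i ≤ Y i) →
    ∀ i, iter M X ((p - 1) ^ t) i ≤ Y i
  | 0, X, Y, _, _, _, _, h, i => by
      rw [pow_zero]; exact h i
  | t + 1, X, Y, hXM, hX, hY, hYX, h, i => by
      have hAi : Inv M (D M t) := Inv.D hM t
      have hAM : ∀ i, D M t i ≤ M i := hM.D_le t
      have key : ∀ r i, iter M X (r * (p - 1) ^ t) i ≤ ch X Y (D M t) r i := by
        intro r
        induction r with
        | zero => intro i; rw [zero_mul]; exact le_rfl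
        | succ r ih =>
            intro i
            rw [show (r + 1) * (p - 1) ^ t = r * (p - 1) ^ t + (p - 1) ^ t by ring, iter_add]
            refine (iter_mono M ih _ i).trans ?_
            refine nil_step hM h0 t (ch X Y (D M t) r) (ch X Y (D M t) (r + 1)) ?_
              (ch_inv hX hY hAi r) (ch_inv hX hY hAi (r + 1)) ?_ ?_ i
            · intro i; exact (ch_le_X hX hYX hAM r i).trans (hXM i)
            · intro i
              refine sup_le ?_ (Y_le_ch hYX r i)
              apply fbr_le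
              intro a b hab x hx y hy
              exact hab ▸ ch_inv hX hY hAi r _ _ _ hx _ (hAM _ hy)
            · intro i; exact le_sup_left
      have h1 := key (p - 1) i
      rw [show (p - 1) * (p - 1) ^ t = (p - 1) ^ (t + 1) by ring] at h1
      refine h1.trans (ch_last h0 hXM hX hY hYX hAM ?_ i)
      intro i j k x hx a ha b hb
      have hab : ⁅a, b⁆ ∈ D M (t + 1) (j + k) := brk_mem_fbr ha hb
      exact h _ (brk_mem_fbr hx hab)

/-- **Higman--Kreknin--Kostrikin** -/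
theorem hkk (hM : Closed M) (h0 : M 0 = ⊥) (i : ZMod p) :
    iter M M (∑ i ∈ Finset.range (2 ^ (p - 1) - 1), (p - 1) ^ i) i = ⊥ := by
  have key : ∀ t i, iter M M (∑ i ∈ Finset.range t, (p - 1) ^ i) i ≤ D M t i := by
    intro t
    induction t with
    | zero => intro i; rw [Finset.sum_range_zero]; exact le_rfl
    | succ t ih =>
        intro i
        rw [Finset.sum_range_succ, iter_add]
        refine (iter_mono M ih _ i).trans ?_
        exact nil_step hM h0 t (D M t) (D M (t + 1)) (hM.D_le t) (Inv.D hM t) (Inv.D hM (t + 1))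
          (hM.D_le_succ t) (fun _ => le_rfl) i
  rw [eq_bot_iff, ← kreknin hM h0 i]
  exact key _ i

end prime

/-! ### total -/

/-- lower central series of a Lie ring as additive subgroups -/
def lcs (L : Type*) [LieRing L] : ℕ → AddSubgroup L
  | 0 => ⊤
  | m + 1 => AddSubgroup.closure {z | ∃ x ∈ lcs L m, ∃ y : L, z = ⁅x, y⁆}

theorem brk_mem_lcs {m : ℕ} {x y : L} (hx : x ∈ lcs L m) : ⁅x, y⁆ ∈ lcs L (m + 1) :=
  AddSubgroup.subset_closure ⟨x, hx, y, rfl⟩

theorem lcs_le_iter {M : ZMod n → AddSubgroup L} (htop : ∀ x : L, x ∈ ⨆ i, M i) :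
    ∀ m, lcs L m ≤ ⨆ i, iter M M m i
  | 0 => fun x _ => htop x
  | m + 1 => by
      rw [lcs, AddSubgroup.closure_le]
      rintro z ⟨x, hx, y, rfl⟩
      have hx' := lcs_le_iter htop m hx
      have hy' := htop y
      refine AddSubgroup.iSup_induction (C := fun x => ⁅x, y⁆ ∈ ⨆ i, iter M M (m + 1) i) _ hx' ?_ ?_ ?_
      · intro i x hx
        refine AddSubgroup.iSup_induction (C := fun y => ⁅x, y⁆ ∈ ⨆ i, iter M M (m + 1) i) _ hy' ?_ ?_ ?_
        · intro j y hy
          exact AddSubgroup.mem_iSup_of_mem (i + j) (brk_mem_fbr hx hy)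
        · rw [lie_zero]; exact AddSubgroup.zero_mem _
        · intro a b h1 h2; rw [lie_add]; exact AddSubgroup.add_mem _ h1 h2
      · rw [zero_lie]; exact AddSubgroup.zero_mem _
      · intro a b h1 h2; rw [add_lie]; exact AddSubgroup.add_mem _ h1 h2

theorem lcs_hkk {p : ℕ} [Fact p.Prime] {M : ZMod p → AddSubgroup L} (htop : ∀ x : L, x ∈ ⨆ i, M i)
    (hM : Closed M) (h0 : M 0 = ⊥) :
    lcs L (∑ i ∈ Finset.range (2 ^ (p - 1) - 1), (p - 1) ^ i) = ⊥ := by
  rw [eq_bot_iff]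
  refine (lcs_le_iter htop _).trans ?_
  exact iSup_le fun i => (hkk hM h0 i).le

theorem three_aux : ∀ i j c : ZMod 3, i ≠ 0 → j ≠ 0 → c ≠ 0 → i + j ≠ 0 →
    (i + c = 0 → j + c = 0) ∧ (i + c ≠ 0 → i + j + c = 0) := by decide

/-- the case of three -/
theorem lcs_three {M : ZMod 3 → AddSubgroup L} (htop : ∀ x : L, x ∈ ⨆ i, M i)
    (hM : Closed M) (h0 : M 0 = ⊥) : lcs L 2 = ⊥ := by
  rw [eq_bot_iff]
  refine (lcs_le_iter htop _).trans ?_
  refine iSup_le fun i => ?_
  have hz : ∀ i j, i + j = 0 → ∀ x ∈ M i, ∀ y ∈ M j, ⁅x, y⁆ = 0 := by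
    intro i j hij x hx y hy
    have := hM i j x hx y hy
    rwa [hij, h0, AddSubgroup.mem_bot] at this
  apply fbr_le
  intro a c hac x hx z hz'
  rw [AddSubgroup.mem_bot]
  refine AddSubgroup.closure_induction (p := fun x _ => ⁅x, z⁆ = 0) ?_ ?_ ?_ ?_ hx
  · rintro w ⟨i, j, hij, u, hu, v, hv, rfl⟩
    have e : ⁅⁅u, v⁆, z⁆ = ⁅⁅u, z⁆, v⁆ + ⁅u, ⁅v, z⁆⁆ := by
      rw [leibniz_lie u v z, ← lie_skew v ⁅u, z⁆]
      abel
    have hu' : u ∈ M i := hu
    have hv' : v ∈ M j := hv
    have m0 : ∀ w, w ∈ M 0 → w = 0 := by intro w hw; rwa [h0, AddSubgroup.mem_bot] at hw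
    by_cases h1 : i = 0
    · rw [h1] at hu'; rw [m0 u hu', zero_lie, zero_lie]
    by_cases h2 : j = 0
    · rw [h2] at hv'; rw [m0 v hv', lie_zero, zero_lie]
    by_cases h3 : c = 0
    · rw [h3] at hz'; rw [m0 z hz', lie_zero]
    by_cases h4 : i + j = 0
    · rw [hz i j h4 u hu' v hv', zero_lie]
    by_cases h5 : i + c = 0
    · rw [e, hz i c h5 u hu' z hz', zero_lie, zero_add]
      have h6 : j + c = 0 := (three_aux i j c h1 h2 h3 h4).1 h5
      rw [hz j c h6 v hv' z hz', lie_zero]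
    · have h6 : i + j + c = 0 := (three_aux i j c h1 h2 h3 h4).2 h5
      exact hz (i + j) c h6 _ (hM i j u hu' v hv') z hz'
  · exact zero_lie _
  · intro a b _ _ h1 h2; rw [add_lie, h1, h2, add_zero]
  · intro a _ h1; rw [neg_lie, h1, neg_zero]

end Cfsg.Agent.H23.Kreknin
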