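import Cfsg.Agent.H23.PCompl
import Cfsg.Agent.H23.PLen
import Cfsg.Agent.H23.Coprime3
import Cfsg.Agent.H1.Chief

set_option autoImplicit false
set_option linter.all false

/-!
`p`-soluble groups with `O_{p'} = 1`: the complement `F` of `O_p` in `O_{p,p'}` and a Frattini argument.
-/

namespace Cfsg.Agent.H23

open Subgroup Cfsg
open scoped Pointwise

theorem frat_compl {X : Type*} [Group X] [Finite X] {p : ℕ} [hp : Fact p.Prime] {L F : Subgroup X}
    (hLn : L.Normal) (hL : Cfsg.IsPSolvable p L) (hFL : F ≤ L) (hF : IsPCompl p (F.subgroupOf L)) (g : X) :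
    ∃ l ∈ L, l * g ∈ normalizer (F : Set X) := by
  have hgF : MulAut.conj g • F ≤ L := by
    rintro _ ⟨f, hf, rfl⟩
    exact hLn.conj_mem f (hFL hf) g
  have hc : Nat.card ((MulAut.conj g • F).subgroupOf L) = Nat.card (F.subgroupOf L) := by
    rw [Nat.card_congr (subgroupOfEquivOfLe hgF).toEquiv, Nat.card_congr (subgroupOfEquivOfLe hFL).toEquiv]
    exact H1.card_conj_smul _ _
  have h2 : IsPCompl p ((MulAut.conj g • F).subgroupOf L) := by
    refine ⟨by rw [hc]; exact hF.1, ?_⟩
    obtain ⟨n, hn⟩ := hF.2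
    refine ⟨n, ?_⟩
    have e1 := (F.subgroupOf L).card_mul_index
    have e2 := ((MulAut.conj g • F).subgroupOf L).card_mul_index
    rw [hc, ← e1, hn] at e2
    exact Nat.eq_of_mul_eq_mul_left Nat.card_pos e2
  obtain ⟨l, hl⟩ := pcompl_conj hL h2 hF
  refine ⟨l, l.2, ?_⟩
  have key : MulAut.conj ((l : X) * g) • F = F := by
    rw [map_mul, mul_smul]
    apply le_antisymm
    · rintro _ ⟨y, hy, rfl⟩
      have hy' : (⟨y, hgF hy⟩ : L) ∈ (MulAut.conj g • F).subgroupOf L := hy
      have : MulAut.conj l • (⟨y, hgF hy⟩ : L) ∈ F.subgroupOf L := by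
        rw [← hl]; exact Subgroup.smul_mem_pointwise_smul _ _ _ hy'
      exact this
    · intro f hf
      have hf' : (⟨f, hFL hf⟩ : L) ∈ F.subgroupOf L := hf
      rw [← hl] at hf'
      obtain ⟨y, hy, hyf⟩ := hf'
      refine ⟨(y : X), hy, ?_⟩
      exact congrArg Subtype.val hyf
  rw [mem_normalizer_iff]
  intro h
  constructor
  · intro hh
    have : MulAut.conj ((l : X) * g) • h ∈ MulAut.conj ((l : X) * g) • F :=
      Subgroup.smul_mem_pointwise_smul _ _ _ hh
    rw [key] at this
    exact this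
  · intro hh
    have h3 : MulAut.conj ((l : X) * g) • h ∈ MulAut.conj ((l : X) * g) • F := by
      rw [key]; exact hh
    exact (Subgroup.smul_mem_pointwise_smul_iff).1 h3

theorem relIndex_comap_core {X : Type*} [Group X] [Finite X] (p : ℕ) [Fact p.Prime] :
    ((pCore p X).relIndex ((pPrimeCore p (X ⧸ pCore p X)).comap (QuotientGroup.mk' (pCore p X)))).Coprime p := by
  rw [H2.relIndex_comap_mk']
  exact H1.pPrimeCore_coprime p _

/-- The complement in `O_{p,p'}(X)`. -/
theorem exists_F {X : Type*} [Group X] [Finite X] {p : ℕ} [hp : Fact p.Prime] (hX : Cfsg.IsPSolvable p X) :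
    ∃ F : Subgroup X, (Nat.card F).Coprime p ∧
      pCore p X ⊔ F = (pPrimeCore p (X ⧸ pCore p X)).comap (QuotientGroup.mk' (pCore p X)) ∧
      ∀ g : X, ∃ a ∈ pCore p X, a * g ∈ normalizer (F : Set X) := by
  set P := pCore p X with hP
  set L := (pPrimeCore p (X ⧸ P)).comap (QuotientGroup.mk' P) with hL
  have hLn : L.Normal := inferInstance
  have hPL : P ≤ L := by
    intro x hx
    rw [hL, mem_comap]
    have : QuotientGroup.mk' P x = 1 := (QuotientGroup.eq_one_iff x).2 hx
    rw [this]; exact one_mem _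
  have hLs : Cfsg.IsPSolvable p L := isPSolvable_subgroup L hX
  obtain ⟨F', hF'⟩ := pcompl_exists hLs
  set F := F'.map L.subtype with hF
  have hFL : F ≤ L := map_subtype_le _
  have hFF : F.subgroupOf L = F' := by
    rw [hF]; exact comap_map_eq_self_of_injective L.subtype_injective F'
  have hcard : (Nat.card F).Coprime p := by
    rw [← Nat.card_congr (subgroupOfEquivOfLe hFL).toEquiv, hFF]; exact hF'.1
  have hsup : P ⊔ F = L := by
    apply le_antisymm (sup_le hPL hFL)
    rw [← relIndex_eq_one]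
    have h1 : (P ⊔ F).relIndex L ∣ P.relIndex L := relIndex_dvd_of_le_left L le_sup_left
    have h2 : (P ⊔ F).relIndex L ∣ F.relIndex L := relIndex_dvd_of_le_left L le_sup_right
    have h3 : (P.relIndex L).Coprime p := relIndex_comap_core p
    obtain ⟨n, hn⟩ := hF'.2
    have h4 : F.relIndex L = p ^ n := by rw [relIndex, hFF, hn]
    rw [h4] at h2
    exact Nat.Coprime.eq_one_of_dvd ((Nat.Coprime.coprime_dvd_left h1 h3).pow_right n) h2
  refine ⟨F, hcard, hsup, ?_⟩
  intro g
  obtain ⟨l, hl, hlg⟩ := frat_compl hLn hLs hFL (by rw [hFF]; exact hF') g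
  rw [← hsup, sup_comm] at hl
  obtain ⟨f, hf, a, ha, rfl⟩ := mem_sup_of_normal_right.1 hl
  refine ⟨a, ha, ?_⟩
  have h1 : f⁻¹ ∈ normalizer (F : Set X) := le_normalizer (inv_mem hf)
  have h2 := mul_mem h1 hlg
  rwa [show f⁻¹ * (f * a * g) = a * g by group] at h2

theorem L_characteristic {X : Type*} [Group X] [Finite X] (p : ℕ) [Fact p.Prime] :
    ((pPrimeCore p (X ⧸ pCore p X)).comap (QuotientGroup.mk' (pCore p X))).Characteristic := by
  set P := pCore p X with hP
  set L := (pPrimeCore p (X ⧸ P)).comap (QuotientGroup.mk' P) with hL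
  rw [characteristic_iff_map_le]
  intro φ
  have hPL : P ≤ L := by
    intro x hx
    rw [hL, mem_comap]
    have : QuotientGroup.mk' P x = 1 := (QuotientGroup.eq_one_iff x).2 hx
    rw [this]; exact one_mem _
  have hPc : P.map φ.toMonoidHom = P := by
    have : P.Characteristic := H1.pCore_characteristic p
    exact characteristic_iff_map_eq.1 this φ
  have hn : (L.map φ.toMonoidHom).Normal := (inferInstance : L.Normal).map _ φ.surjective
  rw [← map_le_iff_le_comap]
  apply H1.le_pPrimeCore
  · exact hn.map _ (QuotientGroup.mk'_surjective P)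
  · have h1 : (P.relIndex L).Coprime p := relIndex_comap_core p
    have h2 : Nat.card ((L.map φ.toMonoidHom).map (QuotientGroup.mk' P)) = P.relIndex (L.map φ.toMonoidHom) := by
      have hPL' : P ≤ L.map φ.toMonoidHom := by rw [← hPc]; exact map_mono hPL
      rw [← H2.relIndex_comap_mk', comap_map_eq, QuotientGroup.ker_mk', sup_eq_left.2 hPL']
    rw [h2]
    have h3 := relIndex_map_dvd φ.toMonoidHom hPL
    rw [hPc] at h3
    exact Nat.Coprime.coprime_dvd_left h3 h1

end Cfsg.Agent.H23
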