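import Mathlib

set_option autoImplicit false
set_option linter.all false

/-! # A lemma on quadratic action of an elementary abelian 2-group -/

namespace Cfsg.Agent.H23.OneInv

open Subgroup
open scoped Pointwise

variable {Γ U : Type*} [Group Γ] [CommGroup U] (φ : Γ →* MulAut U)

/-- an element of odd order centralized by `E₁` and inverted by `E \ E₁`. -/
structure Good (E E₁ : Subgroup Γ) (x : Γ) : Prop where
  le : E₁ ≤ E
  ex : ∃ t ∈ E, t ∉ E₁
  comm : ∀ e ∈ E₁, e * x = x * e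
  inv : ∀ t ∈ E, t ∉ E₁ → t * x * t⁻¹ = x⁻¹
  two : ∀ s ∈ E, ∀ t ∈ E, s ∉ E₁ → t ∉ E₁ → t⁻¹ * s ∈ E₁
  odd : ∃ k : ℕ, x ^ (2 * k + 1) = 1
  ne : ∃ u, φ x u ≠ u

variable {φ}

theorem Good.conj {E E₁ : Subgroup Γ} {x : Γ} (h : Good φ E E₁ x) {a : Γ} (ha : MulAut.conj a • E = E) :
    Good φ E (MulAut.conj a • E₁) (a * x * a⁻¹) := by
  have hmem : ∀ (H : Subgroup Γ) (g : Γ), g ∈ MulAut.conj a • H ↔ a⁻¹ * g * a ∈ H := by
    intro H g
    rw [Subgroup.mem_pointwise_smul_iff_inv_smul_mem, ← map_inv, MulAut.smul_def, MulAut.conj_apply, inv_inv]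
  have hE : ∀ g, g ∈ E ↔ a⁻¹ * g * a ∈ E := by
    intro g
    conv_lhs => rw [← ha]
    exact hmem E g
  refine ⟨?_, ?_, ?_, ?_, ?_, ?_, ?_⟩
  · intro g hg
    rw [hmem] at hg
    rw [hE]
    exact h.le hg
  · obtain ⟨t, ht, ht1⟩ := h.ex
    refine ⟨a * t * a⁻¹, ?_, ?_⟩
    · rw [hE]
      convert ht using 1; group
    · rw [hmem]
      convert ht1 using 2; group
  · intro e he
    rw [hmem] at he
    have := h.comm _ he
    calc e * (a * x * a⁻¹) = a * (a⁻¹ * e * a * x) * a⁻¹ := by group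
      _ = a * (x * (a⁻¹ * e * a)) * a⁻¹ := by rw [this]
      _ = a * x * a⁻¹ * e := by group
  · intro t ht ht1
    rw [hmem] at ht1
    rw [hE] at ht
    have := h.inv _ ht ht1
    calc t * (a * x * a⁻¹) * t⁻¹ = a * (a⁻¹ * t * a * x * (a⁻¹ * t * a)⁻¹) * a⁻¹ := by group
      _ = a * x⁻¹ * a⁻¹ := by rw [this]
      _ = (a * x * a⁻¹)⁻¹ := by group
  · intro s hs t ht hs1 ht1
    rw [hmem] at hs1 ht1 ⊢
    rw [hE] at hs ht
    have := h.two _ hs _ ht hs1 ht1
    convert this using 1; group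
  · obtain ⟨k, hk⟩ := h.odd
    refine ⟨k, ?_⟩
    rw [conj_pow, hk]; group
  · obtain ⟨u, hu⟩ := h.ne
    refine ⟨φ a u, ?_⟩
    intro he
    apply hu
    have : φ (a * x * a⁻¹) (φ a u) = φ a (φ x u) := by
      rw [← MulAut.mul_apply, ← map_mul, ← MulAut.mul_apply, ← map_mul]
      congr 2
      group
    rw [this] at he
    exact (φ a).injective he

theorem Good.fix {E E₁ : Subgroup Γ} {x : Γ} (h : Good φ E E₁ x) {w : U} (hw : φ x (φ x w) = w) : φ x w = w := by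
  obtain ⟨k, hk⟩ := h.odd
  have h1 : ∀ m : ℕ, φ (x ^ (2 * m)) w = w := by
    intro m
    induction m with
    | zero => simp
    | succ m ih =>
        rw [show 2 * (m + 1) = 2 * m + 1 + 1 by ring, pow_succ, pow_succ, map_mul, map_mul, MulAut.mul_apply,
          MulAut.mul_apply, hw, ih]
  have h2 := h1 (k + 1)
  rw [show 2 * (k + 1) = (2 * k + 1) + 1 by ring, pow_succ, hk, one_mul] at h2
  exact h2

section
variable {E : Subgroup Γ} (h2 : ∀ u : U, u * u = 1)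
  (hquad : ∀ u : U, ∀ e ∈ E, ∀ e' ∈ E, φ e' (φ e u * u) = φ e u * u)

include hquad in
theorem Good.claimA {E₁ : Subgroup Γ} {x : Γ} (h : Good φ E E₁ x) {e : Γ} (he : e ∈ E₁) (u : U) :
    φ x (φ e u * u) = φ e u * u := by
  apply h.fix
  obtain ⟨t, ht, ht1⟩ := h.ex
  have h1 : ∀ w : U, φ x (φ e w * w) = φ e (φ x w) * φ x w := by
    intro w
    rw [map_mul, ← MulAut.mul_apply, ← map_mul, ← h.comm e he, map_mul, MulAut.mul_apply]
  have h3 : φ t (φ x (φ e u * u)) = φ x (φ e u * u) := by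
    rw [h1]
    exact hquad (φ x u) e (h.le he) t ht
  have h4 : φ t (φ e u * u) = φ e u * u := hquad u e (h.le he) t ht
  have h5 : φ t (φ x (φ e u * u)) = φ x⁻¹ (φ t (φ e u * u)) := by
    rw [← MulAut.mul_apply, ← map_mul, ← MulAut.mul_apply, ← map_mul]
    congr 2
    rw [← h.inv t ht ht1]; group
  rw [h3, h4] at h5
  rw [h5, ← MulAut.mul_apply, ← map_mul, mul_inv_cancel, map_one]
  rfl

include hquad h2 in
/-- `E₁` acts trivially on `[U, x]`. -/
theorem Good.triv {E₁ : Subgroup Γ} {x : Γ} (h : Good φ E E₁ x) {e : Γ} (he : e ∈ E₁) (u : U) :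
    φ e (φ x u * u) = φ x u * u := by
  have h1 := h.claimA hquad he u
  rw [map_mul] at h1
  have h3 : φ e (φ x u) = φ x (φ e u) := by
    rw [← MulAut.mul_apply, ← map_mul, h.comm e he, map_mul, MulAut.mul_apply]
  rw [map_mul, h3]
  -- `φ x (φ e u) * φ x u = φ e u * u`
  calc φ x (φ e u) * φ e u = (φ x (φ e u) * φ x u) * (φ x u * φ e u) := by
        have := h2 (φ x u)
        calc φ x (φ e u) * φ e u = φ x (φ e u) * (φ x u * φ x u) * φ e u := by rw [this, mul_one]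
          _ = _ := by simp only [mul_assoc]
    _ = (φ e u * u) * (φ x u * φ e u) := by rw [h1]
    _ = φ x u * u * (φ e u * φ e u) := by
        simp only [mul_comm, mul_left_comm]
    _ = φ x u * u := by rw [h2, mul_one]

include hquad h2 in
/-- there is a nontrivial element in `[U, x] ∩ C_U(E)`. -/
theorem Good.exD {E₁ : Subgroup Γ} {x : Γ} (h : Good φ E E₁ x) (ht2 : ∀ t ∈ E, ∀ u : U, φ t (φ t u) = u) :
    ∃ u : U, φ x u * u ≠ 1 ∧ ∀ e ∈ E, φ e (φ x u * u) = φ x u * u := by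
  obtain ⟨u, hu⟩ := h.ne
  obtain ⟨t, ht, ht1⟩ := h.ex
  have hw : φ x u * u ≠ 1 := by
    intro hc
    apply hu
    have := h2 u
    exact mul_right_cancel (hc.trans this.symm)
  have hall : ∀ y : U, φ t (φ x y * y) = φ x y * y → ∀ e ∈ E, φ e (φ x y * y) = φ x y * y := by
    intro y hy e he
    by_cases he1 : e ∈ E₁
    · exact h.triv h2 hquad he1 y
    · have h3 := h.two e he t ht he1 ht1
      have h4 := h.triv h2 hquad h3 y
      have h5 : φ e (φ x y * y) = φ t (φ (t⁻¹ * e) (φ x y * y)) := by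
        rw [← MulAut.mul_apply, ← map_mul, mul_inv_cancel_left]
      rw [h5, h4, hy]
  by_cases hfix : φ t (φ x u * u) = φ x u * u
  · exact ⟨u, hw, hall u hfix⟩
  · -- `w * t w`
    have h3 : φ t (φ x u * u) = φ x (φ x⁻¹ (φ t u)) * φ x⁻¹ (φ t u) := by
      have e1 : φ x (φ x⁻¹ (φ t u)) = φ t u := by
        rw [← MulAut.mul_apply, ← map_mul, mul_inv_cancel, map_one]; rfl
      have e2 : φ t (φ x u) = φ x⁻¹ (φ t u) := by
        rw [← MulAut.mul_apply, ← map_mul, ← MulAut.mul_apply, ← map_mul]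
        congr 2
        rw [← h.inv t ht ht1]; group
      rw [e1, map_mul, e2, mul_comm]
    refine ⟨u * φ x⁻¹ (φ t u), ?_, ?_⟩
    · rw [map_mul]
      have e3 : φ x u * φ x (φ x⁻¹ (φ t u)) * (u * φ x⁻¹ (φ t u)) =
          (φ x u * u) * (φ x (φ x⁻¹ (φ t u)) * φ x⁻¹ (φ t u)) := by
        simp only [mul_comm, mul_left_comm]
      rw [e3, ← h3]
      intro hc
      apply hfix
      have := h2 (φ x u * u)
      exact mul_left_cancel (hc.trans this.symm)
    · apply hall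
      have e3 : φ x u * φ x (φ x⁻¹ (φ t u)) * (u * φ x⁻¹ (φ t u)) =
          (φ x u * u) * (φ x (φ x⁻¹ (φ t u)) * φ x⁻¹ (φ t u)) := by
        simp only [mul_comm, mul_left_comm]
      have e4 : φ x (u * φ x⁻¹ (φ t u)) * (u * φ x⁻¹ (φ t u)) = (φ x u * u) * φ t (φ x u * u) := by
        rw [h3, map_mul (φ x), e3]
      rw [e4, map_mul (φ t), ht2 t ht, mul_comm]

/-- the norm of an element of `[U, x]` is trivial -/
theorem norm_comm {x : Γ} {m : ℕ} (hm : x ^ m = 1) (u : U) (h2 : ∀ u : U, u * u = 1) :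
    ∏ i ∈ Finset.range m, φ (x ^ i) (φ x u * u) = 1 := by
  have h1 : ∀ i, φ (x ^ i) (φ x u * u) = φ (x ^ (i + 1)) u / φ (x ^ i) u := by
    intro i
    have h3 : u = u⁻¹ := (inv_eq_of_mul_eq_one_left (h2 u)).symm
    conv_lhs => rw [show φ x u * u = φ x u * u⁻¹ by rw [← h3]]
    rw [map_mul, map_inv, div_eq_mul_inv, ← MulAut.mul_apply, ← map_mul, ← pow_succ]
  simp_rw [h1]
  rw [Finset.prod_range_div (fun i => φ (x ^ i) u), hm]
  simp

include hquad h2 in
/-- claim b -/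
theorem Good.claimB {E₁ E₂ : Subgroup Γ} {x y : Γ} (h : Good φ E E₁ x) (h' : Good φ E E₂ y)
    (hne : ∃ t ∈ E₂, t ∉ E₁) {u : U} (hu : ∀ e ∈ E, φ e (φ x u * u) = φ x u * u) :
    φ y (φ x u * u) = φ x u * u := by
  obtain ⟨t, ht2, ht1⟩ := hne
  have htE : t ∈ E := h'.le ht2
  obtain ⟨k, hk⟩ := h.odd
  set w := φ x u * u with hw
  set f : ℕ → U := fun i => φ (x ^ i) w with hf
  have hprod : ∏ i ∈ Finset.range (2 * k + 1), f i = 1 := norm_comm hk u h2
  have hx' : ∀ i, i ≤ 2 * k + 1 → φ t (f i) = f (2 * k + 1 - i) := by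
    intro i hi
    have e1 : φ t (φ (x ^ i) w) = φ ((x⁻¹) ^ i) (φ t w) := by
      rw [← MulAut.mul_apply, ← map_mul, ← MulAut.mul_apply, ← map_mul]
      congr 2
      have : (x⁻¹) ^ i = t * x ^ i * t⁻¹ := by rw [← h.inv t htE ht1, conj_pow]
      rw [this]; group
    have e2 : (x⁻¹) ^ i = x ^ (2 * k + 1 - i) := by
      rw [inv_pow, inv_eq_iff_mul_eq_one, ← pow_add, Nat.add_sub_cancel' hi, hk]
    show φ t (φ (x ^ i) w) = φ (x ^ (2 * k + 1 - i)) w
    rw [e1, hu t htE, e2]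
  set s := ∏ i ∈ Finset.range k, f (i + 1) with hs
  have hts : φ t s = ∏ i ∈ Finset.range k, f (k + 1 + i) := by
    rw [hs, map_prod]
    rw [← Finset.prod_range_reflect (fun i => f (k + 1 + i)) k]
    refine Finset.prod_congr rfl fun i hi => ?_
    rw [Finset.mem_range] at hi
    rw [hx' (i + 1) (by omega)]
    congr 1
    omega
  have htot : w * s * φ t s = 1 := by
    rw [hts, ← hprod, Finset.prod_range_succ', show 2 * k = k + k by ring, Finset.prod_range_add]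
    have : f 0 = w := by show φ (x ^ 0) w = w; simp
    rw [this, hs]
    have h3 : ∀ i, f (k + i + 1) = f (k + 1 + i) := fun i => by congr 1; ring
    simp_rw [h3]
    rw [mul_comm _ w, mul_assoc]
  have hweq : w = φ t s * s := by
    have h3 : w * (s * φ t s) = 1 := by rw [← mul_assoc]; exact htot
    have h4 := eq_inv_of_mul_eq_one_left h3
    rw [h4, inv_eq_of_mul_eq_one_left (h2 (s * φ t s)), mul_comm]
  rw [hweq]
  exact h'.claimA hquad ht2 s

include h2 in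
theorem Good.disj {E₁ : Subgroup Γ} {x : Γ} (h : Good φ E E₁ x) {u : U} (hu : φ x (φ x u * u) = φ x u * u) :
    φ x u * u = 1 := by
  obtain ⟨k, hk⟩ := h.odd
  have hprod : ∏ i ∈ Finset.range (2 * k + 1), φ (x ^ i) (φ x u * u) = 1 := norm_comm hk u h2
  generalize φ x u * u = w at hu hprod ⊢
  have h1 : ∀ i : ℕ, φ (x ^ i) w = w := by
    intro i
    induction i with
    | zero => simp
    | succ i ih => rw [pow_succ, map_mul, MulAut.mul_apply, hu, ih]
  simp_rw [h1] at hprod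
  rw [Finset.prod_const, Finset.card_range, pow_succ, pow_mul, sq, h2, one_pow, one_mul] at hprod
  exact hprod

end

/-- **the contradiction** -/
theorem fin_contra [Finite Γ] {E A : Subgroup Γ} (h2 : ∀ u : U, u * u = 1)
    (hquad : ∀ u : U, ∀ e ∈ E, ∀ e' ∈ E, φ e' (φ e u * u) = φ e u * u)
    (ht2 : ∀ t ∈ E, ∀ u : U, φ t (φ t u) = u)
    (hA : ∀ a ∈ A, MulAut.conj a • E = E)
    (htr : ∀ u w : U, (∀ e ∈ E, φ e u = u) → (∀ e ∈ E, φ e w = w) → u ≠ 1 → w ≠ 1 → ∃ a ∈ A, φ a u = w)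
    {E₁ : Subgroup Γ} {x : Γ} (h : Good φ E E₁ x) {b : Γ} (hb : b ∈ A) (hbE : MulAut.conj b • E₁ ≠ E₁) : False := by
  have hcardc : ∀ a : Γ, Nat.card ↥(MulAut.conj a • E₁) = Nat.card E₁ := by
    intro a
    exact Nat.card_congr (Subgroup.equivSMul (MulAut.conj a) E₁).toEquiv.symm
  have hex : ∀ E' E'' : Subgroup Γ, Nat.card E' = Nat.card E'' → E' ≠ E'' → ∃ t ∈ E', t ∉ E'' := by
    intro E' E'' hc hne
    by_contra hcon
    push Not at hcon
    exact hne (Subgroup.eq_of_le_of_card_ge (fun t ht => hcon t ht) hc.ge)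
  obtain ⟨u, hu1, huE⟩ := h.exD h2 hquad ht2
  have h' := h.conj (hA b hb)
  obtain ⟨u', hu'1, hu'E⟩ := h'.exD h2 hquad ht2
  set E₂ := MulAut.conj b • E₁ with hE₂
  set y := b * x * b⁻¹ with hy
  set w₁ := φ x u * u with hw₁
  set w₂ := φ y u' * u' with hw₂
  have k12 : φ y w₁ = w₁ := h.claimB h2 hquad h' (hex _ _ (hcardc b) hbE) huE
  have k21 : φ x w₂ = w₂ := h'.claimB h2 hquad h (hex _ _ (hcardc b).symm (Ne.symm hbE)) hu'E
  have hwne : w₁ * w₂ ≠ 1 := by
    intro hc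
    have h3 : w₁ = w₂ := mul_right_cancel (hc.trans (h2 w₂).symm)
    rw [← h3] at k21
    exact hu1 (h.disj h2 k21)
  have hwE : ∀ e ∈ E, φ e (w₁ * w₂) = w₁ * w₂ := by
    intro e he
    rw [map_mul, huE e he, hu'E e he]
  obtain ⟨c, hc, hcw⟩ := htr w₁ (w₁ * w₂) huE hwE hu1 hwne
  have h'' := h.conj (hA c hc)
  set E₃ := MulAut.conj c • E₁ with hE₃
  set z := c * x * c⁻¹ with hz
  have hw3 : φ z (φ c u) * φ c u = w₁ * w₂ := by
    rw [← hcw, hw₁]
    have e1 : c * x * c⁻¹ * c = c * x := by group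
    have e2 : φ (c * x * c⁻¹) (φ c u) = φ c (φ x u) := by
      have : φ (c * x * c⁻¹) (φ c u) = (φ (c * x * c⁻¹) * φ c) u := rfl
      rw [this, ← map_mul, e1, map_mul]; rfl
    rw [hz, e2, map_mul (φ c)]
  have hw3E : ∀ e ∈ E, φ e (φ z (φ c u) * φ c u) = φ z (φ c u) * φ c u := by
    rw [hw3]; exact hwE
  by_cases h31 : E₃ = E₁
  · have h32 : E₂ ≠ E₃ := by rw [h31]; exact hbE
    have k3 := h''.claimB h2 hquad h' (hex _ _ ((hcardc b).trans (hcardc c).symm) h32) hw3E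
    rw [hw3, map_mul, k12] at k3
    have k4 : φ y w₂ = w₂ := mul_left_cancel k3
    exact hu'1 (h'.disj h2 k4)
  · have k3 := h''.claimB h2 hquad h (hex _ _ (hcardc c).symm (Ne.symm h31)) hw3E
    rw [hw3, map_mul, k21] at k3
    have k4 : φ x w₁ = w₁ := mul_right_cancel k3
    exact hu1 (h.disj h2 k4)

end Cfsg.Agent.H23.OneInv
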