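import Cfsg.Agent.H23.SqCount

set_option autoImplicit false
set_option linter.all false

/-! # Counting square roots in 2-groups all of whose involutions are central and conjugate -/

namespace Cfsg.Agent.H23.OneInv

open Subgroup
open scoped commutatorElement

section
variable {G : Type*} [Group G] [Fintype G] {V : Subgroup G} (hVc : V ≤ center G)
  (hsq : ∀ x : G, x ^ 2 ∈ V) (hexp : ∀ z ∈ V, z ^ 2 = 1) (lam : V →* ℤ)

include hVc hsq in
theorem comm_mem (x y : G) : ⁅x, y⁆ ∈ V := by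
  have h1 : ⁅x, y⁆ = (x * y) ^ 2 * (y⁻¹ * (x⁻¹) ^ 2 * y) * (y⁻¹) ^ 2 := by
    rw [commutatorElement_def, sq, sq, sq]; group
  have h2 : y⁻¹ * (x⁻¹) ^ 2 * y = (x⁻¹) ^ 2 := by
    rw [← (mem_center_iff.1 (hVc (hsq x⁻¹)) y⁻¹).symm]
    group
  rw [h1, h2]
  exact V.mul_mem (V.mul_mem (hsq _) (hsq _)) (hsq _)

include hVc hsq hexp

/-- The square of the Gauss sum. -/
theorem gauss_sq' : ∃ R : Subgroup G,
    ((∑ x : G, lam ⟨x ^ 2, hsq x⟩) ^ 2 = (Nat.card G * Nat.card R : ℤ) ∨ (∑ x : G, lam ⟨x ^ 2, hsq x⟩) ^ 2 = 0) := by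
  classical
  have hcomm : ∀ x y : G, ⁅x, y⁆ ∈ V := comm_mem hVc hsq
  have hc : ∀ x y z : G, Commute ⁅x, y⁆ z := fun x y z => (mem_center_iff.mp (hVc (hcomm x y)) z).symm
  set χ : G → ℤ := fun x => lam ⟨x ^ 2, hsq x⟩ with hχ
  have hlam2 : ∀ z : V, lam z * lam z = 1 := by
    intro z
    rw [← map_mul]
    have : z * z = 1 := Subtype.ext (by
      have := hexp z z.2
      rw [sq] at this
      exact this)
    rw [this, map_one]
  let β : G → (G →* ℤ) := fun w =>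
    { toFun := fun x => lam ⟨⁅w, x⁆, hcomm w x⟩
      map_one' := by
        have : (⟨⁅w, 1⁆, hcomm w 1⟩ : V) = 1 := Subtype.ext (commutatorElement_one_right w)
        rw [this, map_one]
      map_mul' := by
        intro x y
        rw [← map_mul]
        congr 1
        exact Subtype.ext (commutator_mul_right_of_central hc w x y) }
  have hβ : ∀ w x, β w x = lam ⟨⁅w, x⁆, hcomm w x⟩ := fun w x => rfl
  have hmul : ∀ x w, χ (x * w) = χ x * χ w * β w x := by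
    intro x w
    rw [hβ, hχ]
    change lam _ = lam _ * lam _ * lam _
    rw [← map_mul, ← map_mul]
    congr 1
    apply Subtype.ext
    change (x * w) ^ 2 = x ^ 2 * w ^ 2 * ⁅w, x⁆
    have h1 : w * x = ⁅w, x⁆ * (x * w) := by rw [commutatorElement_def]; group
    have h2 := (hc w x (x ^ 2 * w ^ 2)).eq
    rw [← h2]
    calc (x * w) ^ 2 = x * (w * x) * w := by rw [sq]; group
      _ = x * (⁅w, x⁆ * (x * w)) * w := by rw [← h1]
      _ = (x * ⁅w, x⁆) * x * w * w := by group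
      _ = (⁅w, x⁆ * x) * x * w * w := by rw [(hc w x x).eq]
      _ = ⁅w, x⁆ * (x ^ 2 * w ^ 2) := by rw [sq, sq]; group
  have hχ2 : ∀ x, χ x * χ x = 1 := fun x => hlam2 _
  -- the radical
  let R : Subgroup G :=
    { carrier := {w | β w = 1}
      one_mem' := by
        apply MonoidHom.ext
        intro x
        rw [hβ]
        have : (⟨⁅1, x⁆, hcomm 1 x⟩ : V) = 1 := Subtype.ext (commutatorElement_one_left x)
        rw [this, map_one]; rfl
      mul_mem' := by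
        intro a b ha hb
        apply MonoidHom.ext
        intro x
        have h1 := DFunLike.congr_fun ha x
        have h2 := DFunLike.congr_fun hb x
        rw [hβ] at h1 h2 ⊢
        have : (⟨⁅a * b, x⁆, hcomm (a * b) x⟩ : V) = ⟨⁅a, x⁆, hcomm a x⟩ * ⟨⁅b, x⁆, hcomm b x⟩ :=
          Subtype.ext (commutator_mul_left_of_central hc a b x)
        rw [this, map_mul, h1, h2]; rfl
      inv_mem' := by
        intro a ha
        apply MonoidHom.ext
        intro x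
        have h1 := DFunLike.congr_fun ha x
        rw [hβ] at h1 ⊢
        have : (⟨⁅a, x⁆, hcomm a x⟩ : V) * ⟨⁅a⁻¹, x⁆, hcomm a⁻¹ x⟩ = 1 := by
          apply Subtype.ext
          change ⁅a, x⁆ * ⁅a⁻¹, x⁆ = 1
          rw [← commutator_mul_left_of_central hc, mul_inv_cancel, commutatorElement_one_left]
        have h2 := congrArg lam this
        rw [map_mul, h1, map_one] at h2
        simpa using h2 }
  have hR : ∀ w, w ∈ R ↔ β w = 1 := fun w => Iff.rfl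
  refine ⟨R, ?_⟩
  have h1 : (∑ x, χ x) ^ 2 = ∑ w, χ w * ∑ x, β w x := by
    rw [sq, Finset.sum_mul_sum]
    have h2 : ∀ x, ∑ y, χ x * χ y = ∑ w, χ w * β w x := by
      intro x
      rw [← Equiv.sum_comp (Equiv.mulLeft x) (fun y => χ x * χ y)]
      refine Finset.sum_congr rfl fun w _ => ?_
      change χ x * χ (x * w) = _
      rw [hmul, ← mul_assoc, ← mul_assoc, hχ2, one_mul]
    rw [Finset.sum_congr rfl fun x _ => h2 x, Finset.sum_comm]
    refine Finset.sum_congr rfl fun w _ => ?_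
    rw [Finset.mul_sum]
  have h3 : (∑ x, χ x) ^ 2 = (Nat.card G : ℤ) * ∑ w : R, χ w := by
    rw [h1, Finset.mul_sum]
    have h4 : ∀ w, χ w * ∑ x, β w x = if w ∈ R then (Nat.card G : ℤ) * χ w else 0 := by
      intro w
      rw [sum_hom_units]
      by_cases hw : β w = 1
      · rw [if_pos hw, if_pos ((hR w).mpr hw), Nat.card_eq_fintype_card, mul_comm]
      · rw [if_neg hw, if_neg (fun h => hw ((hR w).mp h)), Nat.cast_zero, mul_zero]
    rw [Finset.sum_congr rfl fun w _ => h4 w, ← Finset.sum_filter]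
    exact (Finset.sum_subtype _ (fun x => by simp) (fun w => (Nat.card G : ℤ) * χ w))
  let χR : R →* ℤ :=
    { toFun := fun w => χ w
      map_one' := by
        rw [hχ]
        have : (⟨((1 : R) : G) ^ 2, hsq _⟩ : V) = 1 := Subtype.ext (by simp)
        change lam ⟨((1 : R) : G) ^ 2, hsq _⟩ = 1
        rw [this, map_one]
      map_mul' := by
        intro a b
        rw [coe_mul, hmul, (hR b).mp b.2]
        simp }
  have h5 : ∑ w : R, χ w = ∑ w : R, χR w := rfl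
  rw [h3, h5, sum_hom_units]
  by_cases hχ1 : χR = 1
  · left
    rw [if_pos hχ1, Nat.card_eq_fintype_card, Nat.card_eq_fintype_card]
  · right
    rw [if_neg hχ1, Nat.cast_zero, mul_zero]

end

/-- arithmetic -/
theorem arith1 {n j t : ℕ} (hn : 1 ≤ n) (h : (2 ^ n - 1) * (2 ^ j + 1) = 2 ^ t - 1) : j = n ∧ t = 2 * n := by
  have h1 : 2 ^ n * 2 ^ j + 2 ^ n = 2 ^ t + 2 ^ j := by
    obtain ⟨a, ha⟩ : ∃ a, 2 ^ n = a + 1 := ⟨2 ^ n - 1, (Nat.sub_add_cancel Nat.one_le_two_pow).symm⟩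
    obtain ⟨b, hb⟩ : ∃ b, 2 ^ t = b + 1 := ⟨2 ^ t - 1, (Nat.sub_add_cancel Nat.one_le_two_pow).symm⟩
    rw [ha, hb] at h ⊢
    simp only [Nat.add_sub_cancel] at h
    rw [← h]; ring
  have hn2 : 2 ≤ 2 ^ n := by calc 2 = 2 ^ 1 := rfl
    _ ≤ 2 ^ n := Nat.pow_le_pow_right (by norm_num) hn
  rcases lt_trichotomy j n with hlt | heq | hgt
  · exfalso
    obtain ⟨d, rfl⟩ := Nat.exists_eq_add_of_lt hlt
    -- n = j + d + 1
    have hj : 0 < 2 ^ j := by positivity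
    rcases Nat.lt_or_ge t j with htj | htj
    · obtain ⟨e, rfl⟩ := Nat.exists_eq_add_of_lt htj
      have ht : 0 < 2 ^ t := by positivity
      have h2 : 2 ^ t * (2 * (2 ^ e * (2 ^ (t + e + 1 + d + 1) + 2 ^ (d + 1)))) = 2 ^ t * (1 + 2 * 2 ^ e) := by
        have e1 : 2 ^ (t + e + 1 + d + 1) * 2 ^ (t + e + 1) + 2 ^ (t + e + 1 + d + 1) =
          2 ^ t * (2 * (2 ^ e * (2 ^ (t + e + 1 + d + 1) + 2 ^ (d + 1)))) := by ring
        rw [← e1, h1]; ring
      have h3 := Nat.eq_of_mul_eq_mul_left ht h2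
      omega
    · obtain ⟨e, rfl⟩ := Nat.exists_eq_add_of_le htj
      have h2 : 2 ^ j * (2 ^ (j + d + 1) + 2 * 2 ^ d) = 2 ^ j * (2 ^ e + 1) := by
        have e1 : 2 ^ (j + d + 1) * 2 ^ j + 2 ^ (j + d + 1) = 2 ^ j * (2 ^ (j + d + 1) + 2 * 2 ^ d) := by ring
        rw [← e1, h1]; ring
      have h3 := Nat.eq_of_mul_eq_mul_left hj h2
      have h4 : 2 ^ (j + d + 1) = 2 * 2 ^ (j + d) := by ring
      have hd : 0 < 2 ^ d := by positivity
      rcases Nat.eq_zero_or_pos e with rfl | he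
      · rw [pow_zero] at h3; omega
      · obtain ⟨e', rfl⟩ := Nat.exists_eq_add_of_le he
        rw [h4, show 2 ^ (1 + e') = 2 * 2 ^ e' by ring] at h3
        omega
  · subst heq
    refine ⟨rfl, ?_⟩
    have h2 : 2 ^ t = 2 ^ (2 * j) := by
      have : 2 ^ (2 * j) = 2 ^ j * 2 ^ j := by ring
      omega
    exact Nat.pow_right_injective le_rfl h2
  · exfalso
    obtain ⟨d, rfl⟩ := Nat.exists_eq_add_of_lt hgt
    -- j = n + d + 1
    have hnn : 0 < 2 ^ n := by positivity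
    rcases Nat.lt_or_ge t n with htn | htn
    · -- too small
      have h2 : 2 ^ t < 2 ^ n := Nat.pow_lt_pow_right (by norm_num) htn
      have h3 : 2 ^ (n + d + 1) ≤ 2 ^ n * 2 ^ (n + d + 1) := Nat.le_mul_of_pos_left _ hnn
      omega
    · obtain ⟨e, rfl⟩ := Nat.exists_eq_add_of_le htn
      have h2 : 2 ^ n * (2 ^ (n + d + 1) + 1) = 2 ^ n * (2 ^ e + 2 * 2 ^ d) := by
        have e1 : 2 ^ n * 2 ^ (n + d + 1) + 2 ^ n = 2 ^ n * (2 ^ (n + d + 1) + 1) := by ring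
        rw [← e1, h1]; ring
      have h3 := Nat.eq_of_mul_eq_mul_left hnn h2
      rcases Nat.eq_zero_or_pos e with rfl | he
      · have h4 : 2 ^ (n + d + 1) = 2 ^ n * (2 * 2 ^ d) := by ring
        have hd : 0 < 2 ^ d := by positivity
        rw [pow_zero, h4] at h3
        nlinarith
      · obtain ⟨e', rfl⟩ := Nat.exists_eq_add_of_le he
        rw [show 2 ^ (n + d + 1) = 2 * 2 ^ (n + d) by ring, show 2 ^ (1 + e') = 2 * 2 ^ e' by ring] at h3
        omega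

theorem arith2 {n m r : ℕ} (hn : 1 ≤ n) (h1 : 2 ^ m = 2 ^ n + (2 ^ n - 1) * r) (h2 : ∃ k : ℕ, ((2 : ℤ) ^ n - r) ^ 2 = 2 ^ k ∨
    ((2 : ℤ) ^ n - r) ^ 2 = 0) :
    (r = 0 ∧ m = n) ∨ (r = 2 ^ n ∧ m = 2 * n) ∨ (r = 2 ^ n * (2 ^ n + 1) ∧ m = 3 * n) := by
  have hn2 : 2 ≤ 2 ^ n := by calc 2 = 2 ^ 1 := rfl
    _ ≤ 2 ^ n := Nat.pow_le_pow_right (by norm_num) hn
  by_cases hr0 : r = 0
  · left
    subst hr0
    rw [mul_zero, add_zero] at h1
    exact ⟨rfl, Nat.pow_right_injective le_rfl h1⟩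
  right
  have hmn : n ≤ m := by
    apply (Nat.pow_le_pow_iff_right (by norm_num : 1 < 2)).1
    rw [h1]; exact Nat.le_add_right _ _
  obtain ⟨t, rfl⟩ := Nat.exists_eq_add_of_le hmn
  have h3 : (2 ^ n - 1) * r = 2 ^ n * (2 ^ t - 1) := by
    rw [Nat.mul_sub, mul_one, ← pow_add, h1]; omega
  have hcop : (2 ^ n).Coprime (2 ^ n - 1) := by
    rw [Nat.coprime_comm]
    exact (Nat.coprime_self_sub_left (by omega)).2 (Nat.coprime_one_left _)
  obtain ⟨r', hr'⟩ : 2 ^ n ∣ r := hcop.dvd_of_dvd_mul_left (Dvd.intro _ h3.symm)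
  have hr'pos : r' ≠ 0 := by rintro rfl; exact hr0 (by rw [hr', mul_zero])
  have h4 : (2 ^ n - 1) * r' = 2 ^ t - 1 := by
    rw [hr', mul_left_comm] at h3
    exact Nat.eq_of_mul_eq_mul_left (by positivity) h3
  by_cases hr1 : r' = 1
  · left
    subst hr1
    rw [mul_one] at hr' h4
    refine ⟨hr', ?_⟩
    have h5 : 2 ^ n = 2 ^ t := by
      have := Nat.one_le_two_pow (n := t)
      omega
    have := Nat.pow_right_injective le_rfl h5
    omega
  right
  obtain ⟨s, rfl⟩ : ∃ s, r' = s + 2 := ⟨r' - 2, by omega⟩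
  obtain ⟨k, hk⟩ := h2
  have h5 : ((2 : ℤ) ^ n - r) ^ 2 = (2 ^ n * (s + 1)) ^ 2 := by
    rw [hr']; push_cast; ring
  rw [h5] at hk
  have hkk : (2 ^ n * (s + 1)) ^ 2 = 2 ^ k := by
    rcases hk with hk | hk
    · exact_mod_cast hk
    · exfalso
      have : (0 : ℤ) < (2 ^ n * (s + 1)) ^ 2 := by positivity
      omega
  have h6 : s + 1 ∣ 2 ^ k := by
    rw [← hkk]
    exact (Dvd.intro_left _ rfl).trans (dvd_pow_self _ two_ne_zero)
  obtain ⟨j, -, hj⟩ := (Nat.dvd_prime_pow Nat.prime_two).1 h6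
  have h7 : s + 2 = 2 ^ j + 1 := by omega
  rw [h7] at h4 hr'
  obtain ⟨rfl, rfl⟩ := arith1 hn h4
  exact ⟨hr', by omega⟩

/-- **the counting theorem** -/
theorem cnt {Y : Type*} [Group Y] [Finite Y] (V : Subgroup Y) (hVc : V ≤ center Y) (hsq : ∀ x : Y, x ^ 2 ∈ V)
    (hV : ∀ x : Y, x ^ 2 = 1 → x ∈ V) (hexp : ∀ z ∈ V, z ^ 2 = 1)
    (htr : ∀ v ∈ V, ∀ w ∈ V, v ≠ 1 → w ≠ 1 → ∃ α : Y ≃* Y, α v = w)
    (n : ℕ) (hn : 1 ≤ n) (hcard : Nat.card V = 2 ^ n) :
    (Nat.card Y = 2 ^ n ∧ ∀ v ∈ V, v ≠ 1 → Nat.card {y : Y // y ^ 2 = v} = 0) ∨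
    (Nat.card Y = 2 ^ (2 * n) ∧ ∀ v ∈ V, v ≠ 1 → Nat.card {y : Y // y ^ 2 = v} = 2 ^ n) ∨
    (Nat.card Y = 2 ^ (3 * n) ∧ ∀ v ∈ V, v ≠ 1 → Nat.card {y : Y // y ^ 2 = v} = 2 ^ n * (2 ^ n + 1)) := by
  classical
  haveI := Fintype.ofFinite Y
  have hVne : V ≠ ⊥ := by
    rintro rfl
    rw [card_bot] at hcard
    have : 2 ≤ 2 ^ n := by calc 2 = 2 ^ 1 := rfl
      _ ≤ 2 ^ n := Nat.pow_le_pow_right (by norm_num) hn
    omega
  obtain ⟨v₀, hv₀, hv₀1⟩ : ∃ v, v ∈ V ∧ v ≠ 1 := by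
    by_contra hcon
    push Not at hcon
    exact hVne (eq_bot_iff.2 fun v hv => mem_bot.2 (hcon v hv))
  set r := Nat.card {y : Y // y ^ 2 = v₀} with hr
  have hrv : ∀ v ∈ V, v ≠ 1 → Nat.card {y : Y // y ^ 2 = v} = r := by
    intro v hv hv1
    obtain ⟨α, hα⟩ := htr v hv v₀ hv₀ hv1 hv₀1
    apply Nat.card_congr
    refine (α.toEquiv.subtypeEquiv ?_)
    intro y
    change y ^ 2 = v ↔ (α y) ^ 2 = v₀
    rw [← hα, ← map_pow]
    exact α.injective.eq_iff.symm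
  have hr1 : Nat.card {y : Y // y ^ 2 = 1} = 2 ^ n := by
    rw [← hcard]
    exact Nat.card_congr (Equiv.subtypeEquivRight fun y => ⟨fun h => hV y h, fun h => hexp y h⟩)
  have hYp : IsPGroup 2 Y := by
    intro y
    refine ⟨2, ?_⟩
    rw [pow_two, pow_mul]
    exact hexp _ (hsq y)
  obtain ⟨m, hm⟩ := IsPGroup.iff_card.1 hYp
  -- the fibration
  have hfib : ∀ (φ : V → ℤ), ∑ y : Y, φ ⟨y ^ 2, hsq y⟩ = ∑ v : V, φ v * (Nat.card {y : Y // y ^ 2 = (v : Y)} : ℤ) := by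
    intro φ
    rw [← Finset.sum_fiberwise (s := Finset.univ) (g := fun y : Y => (⟨y ^ 2, hsq y⟩ : V)) (f := fun y => φ ⟨y ^ 2, hsq y⟩)]
    refine Finset.sum_congr rfl fun v _ => ?_
    have h1 : ∀ y ∈ Finset.univ.filter (fun y : Y => (⟨y ^ 2, hsq y⟩ : V) = v), φ ⟨y ^ 2, hsq y⟩ = φ v := by
      intro y hy
      rw [(Finset.mem_filter.1 hy).2]
    rw [Finset.sum_congr rfl h1, Finset.sum_const, nsmul_eq_mul, mul_comm]
    congr 2
    rw [Nat.card_eq_fintype_card, Fintype.card_subtype]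
    congr 1
    ext y
    simp only [Finset.mem_filter, Finset.mem_univ, true_and]
    exact ⟨fun h => congrArg Subtype.val h, fun h => Subtype.ext h⟩
  have hsplit : ∀ (φ : V → ℤ), ∑ v : V, φ v * (Nat.card {y : Y // y ^ 2 = (v : Y)} : ℤ) =
      φ 1 * 2 ^ n + (∑ v : V, φ v - φ 1) * r := by
    intro φ
    rw [← Finset.add_sum_erase Finset.univ _ (Finset.mem_univ (1 : V)),
      ← Finset.add_sum_erase Finset.univ φ (Finset.mem_univ (1 : V))]
    have h1 : (Nat.card {y : Y // y ^ 2 = ((1 : V) : Y)} : ℤ) = 2 ^ n := by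
      rw [show ((1 : V) : Y) = 1 from rfl, hr1]; push_cast; rfl
    rw [h1, add_sub_cancel_left, Finset.sum_mul]
    congr 1
    refine Finset.sum_congr rfl fun v hv => ?_
    rw [hrv v v.2 (fun h => (Finset.mem_erase.1 hv).1 (Subtype.ext h))]
  have hY : 2 ^ m = 2 ^ n + (2 ^ n - 1) * r := by
    have h1 := hfib (fun _ => 1)
    rw [hsplit, Finset.sum_const, Finset.sum_const, Finset.card_univ, Finset.card_univ,
      ← Nat.card_eq_fintype_card, ← Nat.card_eq_fintype_card, hm, hcard] at h1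
    simp only [nsmul_eq_mul, mul_one, one_mul] at h1
    have h2 : (1 : ℕ) ≤ 2 ^ n := Nat.one_le_two_pow
    zify [h2]
    push_cast at h1
    linarith
  -- a character
  have hcardV : IsPGroup 2 V := IsPGroup.of_card hcard
  obtain ⟨H, hH⟩ : ∃ H : Subgroup V, H.index = 2 := by
    obtain ⟨H, hH⟩ := Sylow.exists_subgroup_card_pow_prime (G := V) 2 (n := n - 1) (by
      rw [hcard]; exact pow_dvd_pow 2 (Nat.sub_le n 1))
    refine ⟨H, ?_⟩
    have h1 := H.card_mul_index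
    rw [hH, hcard] at h1
    have h2 : 2 ^ n = 2 ^ (n - 1) * 2 := by rw [← pow_succ]; congr 1; omega
    rw [h2] at h1
    exact Nat.eq_of_mul_eq_mul_left (by positivity) h1
  set lam := signHom H hH with hlam
  have hlne : lam ≠ 1 := by
    intro h
    obtain ⟨a, ha⟩ : ∃ a : V, a ∉ H := by
      by_contra hcon
      push Not at hcon
      have : H = ⊤ := eq_top_iff.2 fun a _ => hcon a
      rw [this, index_top] at hH
      omega
    have h1 := (signHom_apply H hH a).2 ha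
    rw [← hlam, h] at h1
    simp at h1
  have hsum0 : ∑ v : V, lam v = 0 := by
    rw [sum_hom_units, if_neg hlne, Nat.cast_zero]
  have hS : ∑ y : Y, lam ⟨y ^ 2, hsq y⟩ = 2 ^ n - r := by
    rw [hfib (fun v => lam v), hsplit, hsum0, map_one]; ring
  obtain ⟨R, hR⟩ := gauss_sq' hVc hsq hexp lam
  rw [hS] at hR
  obtain ⟨k, hk⟩ := IsPGroup.iff_card.1 (hYp.to_subgroup R)
  have h2 : ∃ k : ℕ, ((2 : ℤ) ^ n - r) ^ 2 = 2 ^ k ∨ ((2 : ℤ) ^ n - r) ^ 2 = 0 := by
    refine ⟨m + k, ?_⟩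
    rcases hR with h | h
    · left; rw [h, hm, hk, pow_add]; push_cast; ring
    · right; exact h
  rcases arith2 hn hY h2 with ⟨h3, h4⟩ | ⟨h3, h4⟩ | ⟨h3, h4⟩
  · left
    exact ⟨by rw [hm, h4], fun v hv hv1 => by rw [hrv v hv hv1, h3]⟩
  · right; left
    exact ⟨by rw [hm, h4], fun v hv hv1 => by rw [hrv v hv hv1, h3]⟩
  · right; right
    exact ⟨by rw [hm, h4], fun v hv hv1 => by rw [hrv v hv hv1, h3]⟩

end Cfsg.Agent.H23.OneInv
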