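import Cfsg.Agent.H23.OneInv
import Cfsg.Agent.H23.SqCount2
import Cfsg.Agent.H23.QuadFin
import Cfsg.Agent.H23.Coprime5

set_option autoImplicit false
set_option linter.all false

/-! # One class of involutions, part 1 -/

namespace Cfsg.Agent.H23.OneInv

open Subgroup Cfsg
open scoped Pointwise commutatorElement

/-- `A` is transitive on the nonidentity elements of `V` -/
def TransOn {X : Type*} [Group X] (A V : Subgroup X) : Prop :=
  ∀ v ∈ V, ∀ w ∈ V, v ≠ 1 → w ≠ 1 → ∃ g ∈ A, g * v * g⁻¹ = w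

structure Ctx (X : Type*) [Group X] (V : Subgroup X) (n : ℕ) : Prop where
  sol : Group.IsSolvable X
  core : pPrimeCore 2 X = ⊥
  nor : V.Normal
  all : ∀ x : X, x ^ 2 = 1 → x ∈ V
  exp : ∀ v ∈ V, v ^ 2 = 1
  tr : TransOn ⊤ V
  two : 2 ≤ n
  card : Nat.card V = 2 ^ n

theorem TransOn.le {X : Type*} [Group X] {A V N : Subgroup X} (h : TransOn A V) (hN : A ≤ normalizer (N : Set X))
    (hne : N ⊓ V ≠ ⊥) : V ≤ N := by
  obtain ⟨v, hv, hv1⟩ : ∃ v, v ∈ N ⊓ V ∧ v ≠ 1 := by
    by_contra hcon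
    push Not at hcon
    exact hne (eq_bot_iff.2 fun v hv => mem_bot.2 (hcon v hv))
  intro w hw
  by_cases hw1 : w = 1
  · rw [hw1]; exact one_mem _
  obtain ⟨g, hg, hgw⟩ := h v (mem_inf.1 hv).2 w hw hv1 hw1
  rw [← hgw]
  exact (mem_normalizer_iff.1 (hN hg) v).1 (mem_inf.1 hv).1

/-- an involution in a subgroup of even order -/
theorem exists_inv {X : Type*} [Group X] [Finite X] {H : Subgroup X} (h : 2 ∣ Nat.card H) :
    ∃ t ∈ H, t ≠ 1 ∧ t ^ 2 = 1 := by
  haveI : Fact (Nat.Prime 2) := ⟨Nat.prime_two⟩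
  obtain ⟨⟨z, hz⟩, hzo⟩ := exists_prime_orderOf_dvd_card' 2 h
  refine ⟨z, hz, ?_, ?_⟩
  · rintro rfl
    have : (⟨1, hz⟩ : H) = 1 := rfl
    rw [this, orderOf_one] at hzo
    omega
  · have := pow_orderOf_eq_one (⟨z, hz⟩ : H)
    rw [hzo] at this
    exact congrArg Subtype.val this

theorem two_dvd {X : Type*} [Group X] [Finite X] {H : Subgroup X} (hH : IsPGroup 2 H) (hne : H ≠ ⊥) :
    2 ∣ Nat.card H := by
  haveI : Fact (Nat.Prime 2) := ⟨Nat.prime_two⟩
  obtain ⟨n, hn⟩ := IsPGroup.iff_card.1 hH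
  have : n ≠ 0 := by
    rintro rfl
    rw [pow_zero] at hn
    exact hne (card_eq_one.1 hn)
  rw [hn]; exact dvd_pow_self 2 this

theorem inf_bot_of_two {X : Type*} [Group X] [Finite X] {P F : Subgroup X} (hP : IsPGroup 2 P)
    (hF : (Nat.card F).Coprime 2) : P ⊓ F = ⊥ := by
  haveI : Fact (Nat.Prime 2) := ⟨Nat.prime_two⟩
  rw [← card_eq_one]
  obtain ⟨n, hn⟩ := IsPGroup.iff_card.1 (hP.to_le (inf_le_left : P ⊓ F ≤ P))
  have h6 : Nat.card ↥(P ⊓ F) ∣ Nat.card F := card_dvd_of_le inf_le_right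
  exact Nat.Coprime.eq_one_of_dvd ((Nat.Coprime.coprime_dvd_left h6 hF).pow_right n) (by rw [hn])

/-- `a ∈ N(F)`, `a ∈ P`, `F` normalizes `P`, `P ∩ F = 1` implies `a` centralizes `F`. -/
theorem cent_of_norm {X : Type*} [Group X] {P F : Subgroup X} (hFP : F ≤ normalizer (P : Set X))
    (hb : P ⊓ F = ⊥) {a : X} (ha : a ∈ P) (haF : a ∈ normalizer (F : Set X)) : a ∈ centralizer (F : Set X) := by
  rw [mem_centralizer_iff]
  intro f hf
  have h3 : f * a * f⁻¹ * a⁻¹ ∈ P ⊓ F := by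
    refine mem_inf.2 ⟨?_, ?_⟩
    · exact P.mul_mem ((mem_normalizer_iff.1 (hFP hf) a).1 ha) (P.inv_mem ha)
    · have h4 : a * f⁻¹ * a⁻¹ ∈ F := (mem_normalizer_iff.1 haF f⁻¹).1 (inv_mem hf)
      have := mul_mem hf h4
      rwa [show f * (a * f⁻¹ * a⁻¹) = f * a * f⁻¹ * a⁻¹ by group] at this
  rw [hb, mem_bot] at h3
  have h7 : f * a * f⁻¹ = a := mul_inv_eq_one.1 h3
  calc f * a = f * a * f⁻¹ * f := by group
    _ = a * f := by rw [h7]

section
variable {X : Type*} [Group X] [Finite X] {V : Subgroup X} {n : ℕ} (h : Ctx X V n)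
include h

theorem Ctx.V_two : IsPGroup 2 V := IsPGroup.of_card h.card

theorem Ctx.V_ne : V ≠ ⊥ := by
  intro hb
  have h1 := h.card
  rw [hb, card_bot] at h1
  have h2 : 2 ^ 2 ≤ 2 ^ n := Nat.pow_le_pow_right (by norm_num) h.two
  omega

theorem Ctx.le_of_normal {N : Subgroup X} (hN : N.Normal) (hne : N ⊓ V ≠ ⊥) : V ≤ N :=
  h.tr.le (by rw [normalizer_eq_top]) hne

theorem Ctx.V_le_P : V ≤ pCore 2 X := H1.le_pCore h.nor h.V_two

theorem Ctx.V_comm {v w : X} (hv : v ∈ V) (hw : w ∈ V) : v * w = w * v := by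
  have h1 := h.exp v hv
  have h2 := h.exp w hw
  have h3 := h.exp (v * w) (mul_mem hv hw)
  rw [sq] at h1 h2 h3
  have e1 : v⁻¹ = v := inv_eq_of_mul_eq_one_left h1
  have e2 : w⁻¹ = w := inv_eq_of_mul_eq_one_left h2
  calc v * w = (v * w)⁻¹ := (inv_eq_of_mul_eq_one_left h3).symm
    _ = w⁻¹ * v⁻¹ := mul_inv_rev v w
    _ = w * v := by rw [e1, e2]

/-- nontrivial fixed points of a 2-subgroup on `V` -/
theorem Ctx.fixed {T : Subgroup X} (hT : IsPGroup 2 T) : V ⊓ centralizer (T : Set X) ≠ ⊥ := by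
  haveI : Fact (Nat.Prime 2) := ⟨Nat.prime_two⟩
  haveI := h.nor
  intro hb
  -- minimal `T`-invariant subgroup of `V`
  obtain ⟨D, hDmin⟩ := (Set.toFinite {D : Subgroup X | D ≤ V ∧ D ≠ ⊥ ∧ T ≤ normalizer (D : Set X)}).exists_minimal
    ⟨V, le_rfl, h.V_ne, by rw [normalizer_eq_top]; exact le_top⟩
  obtain ⟨hDV, hD1, hDT⟩ := hDmin.prop
  have hDp : IsPGroup 2 D := h.V_two.to_le hDV
  have hlt : ⁅D, T⁆ < D := commutator_lt_of_isPGroup hDp hT hDT hD1
  have hbot : ⁅D, T⁆ = ⊥ := by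
    by_contra hne
    exact hlt.not_ge (hDmin.le_of_le ⟨hlt.le.trans hDV, hne, normalizer_commutator_ge_right _ _⟩ hlt.le)
  have h1 : D ≤ centralizer (T : Set X) := by
    rw [← commutator_eq_bot_iff_le_centralizer]; exact hbot
  apply hD1
  rw [eq_bot_iff, ← hb]
  exact le_inf hDV h1

theorem Ctx.V_le_cent {N : Subgroup X} (hN : N.Normal) {T : Subgroup X} (hT : IsPGroup 2 T)
    (hNT : N ≤ centralizer (V : Set X) ⊔ T) : V ≤ centralizer (N : Set X) := by
  apply h.le_of_normal inferInstance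
  intro hb
  apply h.fixed hT
  rw [eq_bot_iff, ← hb]
  intro v hv
  obtain ⟨hvV, hvT⟩ := mem_inf.1 hv
  refine mem_inf.2 ⟨?_, hvV⟩
  have h1 : centralizer (V : Set X) ⊔ T ≤ centralizer ({v} : Set X) := by
    refine sup_le ?_ ?_
    · intro y hy
      rw [mem_centralizer_singleton_iff]
      exact (mem_centralizer_iff.1 hy v hvV).symm
    · intro y hy
      rw [mem_centralizer_singleton_iff]
      exact mem_centralizer_iff.1 hvT y hy
  rw [mem_centralizer_iff]
  intro y hy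
  exact mem_centralizer_singleton_iff.1 (h1 (hNT hy))

theorem Ctx.P_le : pCore 2 X ≤ centralizer (V : Set X) := by
  have h1 := h.V_le_cent (N := pCore 2 X) inferInstance (T := pCore 2 X) (H1.pCore_isPGroup 2 X) le_sup_right
  exact le_centralizer_iff.1 h1

theorem Ctx.self : centralizer (pCore 2 X : Set X) ≤ pCore 2 X := by
  haveI : Fact (Nat.Prime 2) := ⟨Nat.prime_two⟩
  exact centralizer_pCore_le (isPSolvable_of_isSolvable h.sol) h.core

/-- every 2-element of `N(Y)`, `Y` of odd order with `C_V(Y) = 1`, is trivial -/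
theorem Ctx.norm_odd {Y : Subgroup X} (hY : (Nat.card Y).Coprime 2) (hC : V ⊓ centralizer (Y : Set X) = ⊥) :
    (Nat.card (normalizer (Y : Set X))).Coprime 2 := by
  haveI := h.nor
  rw [Nat.coprime_comm, Nat.Prime.coprime_iff_not_dvd Nat.prime_two]
  intro hd
  obtain ⟨t, ht, ht1, ht2⟩ := exists_inv hd
  have htV := h.all t ht2
  have hb : V ⊓ Y = ⊥ := inf_bot_of_two h.V_two hY
  have h1 := cent_of_norm (P := V) (F := Y) (by rw [normalizer_eq_top]; exact le_top) hb htV ht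
  have : t ∈ V ⊓ centralizer (Y : Set X) := mem_inf.2 ⟨htV, h1⟩
  rw [hC, mem_bot] at this
  exact ht1 this

/-- Step 1: 2-subgroups centralize `V`. -/
theorem Ctx.two_le {Q : Subgroup X} (hQ : IsPGroup 2 Q) : Q ≤ centralizer (V : Set X) := by
  haveI : Fact (Nat.Prime 2) := ⟨Nat.prime_two⟩
  haveI := h.nor
  haveI := h.sol
  set K := centralizer (V : Set X) with hK
  haveI hKn : K.Normal := inferInstance
  set f := QuotientGroup.mk' K with hf
  have hfs : Function.Surjective f := QuotientGroup.mk'_surjective K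
  have hpc : pCore 2 (X ⧸ K) = ⊥ := by
    set B := (pCore 2 (X ⧸ K)).comap f with hB
    obtain ⟨T, hT⟩ := exists_isSylowOf 2 B
    have hBT : B ≤ K ⊔ T := by
      -- `B / K` is a 2-group
      rw [← relIndex_eq_one]
      have h1 : (K ⊔ T).relIndex B ∣ K.relIndex B := relIndex_dvd_of_le_left B le_sup_left
      have h2 : (K ⊔ T).relIndex B ∣ T.relIndex B := relIndex_dvd_of_le_left B le_sup_right
      have h3 : K.relIndex B = Nat.card (pCore 2 (X ⧸ K)) := H2.relIndex_comap_mk' _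
      obtain ⟨m, hm⟩ := IsPGroup.iff_card.1 (H1.pCore_isPGroup 2 (X ⧸ K))
      rw [h3, hm] at h1
      have h4 : (T.relIndex B).Coprime 2 := by
        rw [Nat.coprime_comm, Nat.Prime.coprime_iff_not_dvd Nat.prime_two]; exact hT.not_dvd
      exact Nat.Coprime.eq_one_of_dvd ((Nat.Coprime.coprime_dvd_left h2 h4).pow_right m) h1
    have h1 := h.V_le_cent (N := B) inferInstance hT.isPGroup hBT
    have h2 : B ≤ K := le_centralizer_iff.1 h1
    rw [eq_bot_iff]
    intro y hy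
    obtain ⟨x, rfl⟩ := hfs y
    have : x ∈ K := h2 hy
    exact (QuotientGroup.eq_one_iff x).2 this
  have hsq : Group.IsSolvable (X ⧸ K) := inferInstance
  have hppc : pPrimeCore 2 (X ⧸ K) ≠ ⊥ := by
    intro hb
    have h1 := centralizer_pCore_le (p := 2) (isPSolvable_of_isSolvable hsq) hb
    rw [hpc] at h1
    have h2 : ∀ x : X, x ∈ K := by
      intro x
      have : f x ∈ (⊥ : Subgroup (X ⧸ K)) := by
        apply h1
        rw [mem_centralizer_iff]
        intro y hy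
        rw [mem_bot.1 hy, one_mul, mul_one]
      exact (QuotientGroup.eq_one_iff x).1 (mem_bot.1 this)
    -- `V` central contradicts transitivity
    have h3 : 3 ≤ Nat.card V := by
      rw [h.card]
      have : 2 ^ 2 ≤ 2 ^ n := Nat.pow_le_pow_right (by norm_num) h.two
      omega
    obtain ⟨v, w, hvw, hv1, hw1⟩ : ∃ v w : V, v ≠ w ∧ v ≠ 1 ∧ w ≠ 1 := by
      classical
      haveI := Fintype.ofFinite V
      rw [Nat.card_eq_fintype_card] at h3
      have h4 : 1 < (Finset.univ.erase (1 : V)).card := by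
        rw [Finset.card_erase_of_mem (Finset.mem_univ _), Finset.card_univ]; omega
      obtain ⟨v, hv, w, hw, hne⟩ := Finset.one_lt_card.1 h4
      exact ⟨v, w, hne, Finset.ne_of_mem_erase hv, Finset.ne_of_mem_erase hw⟩
    obtain ⟨g, -, hg⟩ := h.tr v v.2 w w.2 (fun hh => hv1 (Subtype.ext hh)) (fun hh => hw1 (Subtype.ext hh))
    have h5 := mem_centralizer_iff.1 (h2 g) v v.2
    rw [← h5] at hg
    apply hvw
    apply Subtype.ext
    rw [← hg]; group
  set N := (pPrimeCore 2 (X ⧸ K)).comap f with hN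
  have hNn : N.Normal := inferInstance
  have hKN : K ≤ N := by
    intro x hx
    rw [hN, mem_comap]
    have : f x = 1 := (QuotientGroup.eq_one_iff x).2 hx
    rw [this]; exact one_mem _
  have hCVN : V ⊓ centralizer (N : Set X) = ⊥ := by
    by_contra hne
    have h1 := h.le_of_normal (N := centralizer (N : Set X)) inferInstance (by rwa [inf_comm])
    have h2 : N ≤ K := le_centralizer_iff.1 h1
    apply hppc
    rw [eq_bot_iff]
    intro y hy
    obtain ⟨x, rfl⟩ := hfs y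
    exact (QuotientGroup.eq_one_iff x).2 (h2 hy)
  have hNs : Cfsg.IsPSolvable 2 N := isPSolvable_subgroup N (isPSolvable_of_isSolvable h.sol)
  obtain ⟨Y', hY'⟩ := pcompl_exists hNs
  set Y := Y'.map N.subtype with hYdef
  have hYN : Y ≤ N := map_subtype_le _
  have hYY : Y.subgroupOf N = Y' := comap_map_eq_self_of_injective N.subtype_injective Y'
  have hYc : (Nat.card Y).Coprime 2 := by
    rw [← Nat.card_congr (subgroupOfEquivOfLe hYN).toEquiv, hYY]; exact hY'.1
  have hKrel : (K.relIndex N).Coprime 2 := by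
    rw [hN, H2.relIndex_comap_mk']; exact H1.pPrimeCore_coprime 2 _
  have hKY : N ≤ K ⊔ Y := by
    rw [← relIndex_eq_one]
    have h1 : (K ⊔ Y).relIndex N ∣ K.relIndex N := relIndex_dvd_of_le_left N le_sup_left
    have h2 : (K ⊔ Y).relIndex N ∣ Y.relIndex N := relIndex_dvd_of_le_left N le_sup_right
    obtain ⟨m, hm⟩ := hY'.2
    have h4 : Y.relIndex N = 2 ^ m := by rw [relIndex, hYY, hm]
    rw [h4] at h2
    exact Nat.Coprime.eq_one_of_dvd ((Nat.Coprime.coprime_dvd_left h1 hKrel).pow_right m) h2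
  have hCY : V ⊓ centralizer (Y : Set X) = ⊥ := by
    rw [eq_bot_iff, ← hCVN]
    intro v hv
    obtain ⟨hvV, hvY⟩ := mem_inf.1 hv
    refine mem_inf.2 ⟨hvV, ?_⟩
    have h1 : K ⊔ Y ≤ centralizer ({v} : Set X) := by
      refine sup_le ?_ ?_
      · intro y hy
        rw [mem_centralizer_singleton_iff]
        exact (mem_centralizer_iff.1 hy v hvV).symm
      · intro y hy
        rw [mem_centralizer_singleton_iff]
        exact mem_centralizer_iff.1 hvY y hy
    rw [mem_centralizer_iff]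
    intro y hy
    exact mem_centralizer_singleton_iff.1 (h1 (hKY hy))
  have hodd := h.norm_odd hYc hCY
  intro s hs
  obtain ⟨k, hk⟩ := hQ ⟨s, hs⟩
  have hsk : s ^ 2 ^ k = 1 := congrArg Subtype.val hk
  obtain ⟨l, hl, hlg⟩ := frat_compl (p := 2) hNn hNs hYN (by rw [hYY]; exact hY') s
  -- `s ∈ N`
  have hsN : s ∈ N := by
    set q := QuotientGroup.mk' N with hq
    have e1 : q (l * s) = q s := by
      rw [map_mul]
      have : q l = 1 := (QuotientGroup.eq_one_iff l).2 hl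
      rw [this, one_mul]
    have h1 : orderOf (q s) ∣ 2 ^ k := orderOf_dvd_of_pow_eq_one (by rw [← map_pow, hsk, map_one])
    have h2 : orderOf (q s) ∣ Nat.card (normalizer (Y : Set X)) := by
      rw [← e1]
      apply orderOf_dvd_of_pow_eq_one
      have : (⟨l * s, hlg⟩ : normalizer (Y : Set X)) ^ Nat.card (normalizer (Y : Set X)) = 1 := pow_card_eq_one'
      have h3 : (l * s) ^ Nat.card (normalizer (Y : Set X)) = 1 := congrArg Subtype.val this
      rw [← map_pow, h3, map_one]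
    have h3 : orderOf (q s) = 1 :=
      Nat.Coprime.eq_one_of_dvd ((Nat.Coprime.coprime_dvd_left h2 hodd).pow_right k) h1
    exact (QuotientGroup.eq_one_iff s).1 (orderOf_eq_one_iff.1 h3)
  have h1 : orderOf (f s) ∣ 2 ^ k := orderOf_dvd_of_pow_eq_one (by rw [← map_pow, hsk, map_one])
  have h2 : orderOf (f s) ∣ Nat.card (pPrimeCore 2 (X ⧸ K)) := by
    have := orderOf_dvd_natCard (⟨f s, hsN⟩ : pPrimeCore 2 (X ⧸ K))
    rwa [← orderOf_submonoid] at this
  have h3 : orderOf (f s) = 1 :=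
    Nat.Coprime.eq_one_of_dvd ((Nat.Coprime.coprime_dvd_left h2 (H1.pPrimeCore_coprime 2 _)).pow_right k) h1
  exact (QuotientGroup.eq_one_iff s).1 (orderOf_eq_one_iff.1 h3)

end

end Cfsg.Agent.H23.OneInv
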