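import Cfsg.Agent.H23.OneInv2

set_option autoImplicit false
set_option linter.all false

/-! # One class of involutions, part 2 -/

namespace Cfsg.Agent.H23.OneInv

open Subgroup Cfsg
open scoped Pointwise commutatorElement

section
variable {X : Type*} [Group X] [Finite X] {V : Subgroup X} {n : ℕ} (h : Ctx X V n)
include h

theorem Ctx.two_of_sq {Y : Subgroup X} (hsq : ∀ y ∈ Y, y ^ 2 ∈ V) : IsPGroup 2 Y := by
  rintro ⟨y, hy⟩
  refine ⟨2, Subtype.ext ?_⟩
  show y ^ (2 ^ 2) = 1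
  rw [pow_two, pow_mul]
  exact h.exp _ (hsq y hy)

/-- the counting theorem for subgroups -/
theorem Ctx.cntX {Y : Subgroup X} (hVY : V ≤ Y) (hsq : ∀ y ∈ Y, y ^ 2 ∈ V) {A : Subgroup X}
    (hA : A ≤ normalizer (Y : Set X)) (htr : TransOn A V) :
    (Nat.card Y = 2 ^ n ∧ ∀ v ∈ V, v ≠ 1 → Nat.card {y : X // y ∈ Y ∧ y ^ 2 = v} = 0) ∨
    (Nat.card Y = 2 ^ (2 * n) ∧ ∀ v ∈ V, v ≠ 1 → Nat.card {y : X // y ∈ Y ∧ y ^ 2 = v} = 2 ^ n) ∨
    (Nat.card Y = 2 ^ (3 * n) ∧ ∀ v ∈ V, v ≠ 1 → Nat.card {y : X // y ∈ Y ∧ y ^ 2 = v} = 2 ^ n * (2 ^ n + 1)) := by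
  have hYV : Y ≤ centralizer (V : Set X) := h.two_le (h.two_of_sq hsq)
  have key := cnt (Y := Y) (V.subgroupOf Y) ?_ ?_ ?_ ?_ ?_ n (by have := h.two; omega) ?_
  · have hc : ∀ v (hv : v ∈ V), Nat.card {y : Y // y ^ 2 = (⟨v, hVY hv⟩ : Y)} = Nat.card {y : X // y ∈ Y ∧ y ^ 2 = v} := by
      intro v hv
      refine Nat.card_congr ?_
      refine
        { toFun := fun y => ⟨y.1.1, y.1.2, congrArg Subtype.val y.2⟩
          invFun := fun y => ⟨⟨y.1, y.2.1⟩, Subtype.ext y.2.2⟩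
          left_inv := fun y => rfl
          right_inv := fun y => rfl }
    rcases key with ⟨h1, h2⟩ | ⟨h1, h2⟩ | ⟨h1, h2⟩
    · left
      refine ⟨h1, fun v hv hv1 => ?_⟩
      rw [← hc v hv]
      exact h2 ⟨v, hVY hv⟩ hv (fun hh => hv1 (congrArg Subtype.val hh))
    · right; left
      refine ⟨h1, fun v hv hv1 => ?_⟩
      rw [← hc v hv]
      exact h2 ⟨v, hVY hv⟩ hv (fun hh => hv1 (congrArg Subtype.val hh))
    · right; right
      refine ⟨h1, fun v hv hv1 => ?_⟩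
      rw [← hc v hv]
      exact h2 ⟨v, hVY hv⟩ hv (fun hh => hv1 (congrArg Subtype.val hh))
  · rintro ⟨v, hv⟩ hvV
    rw [mem_center_iff]
    rintro ⟨y, hy⟩
    exact Subtype.ext (mem_centralizer_iff.1 (hYV hy) v hvV).symm
  · rintro ⟨y, hy⟩; exact hsq y hy
  · rintro ⟨y, hy⟩ hy2
    exact h.all y (congrArg Subtype.val hy2)
  · rintro ⟨y, hy⟩ hyV
    exact Subtype.ext (h.exp y hyV)
  · rintro ⟨v, hv⟩ hvV ⟨w, hw⟩ hwV hv1 hw1
    obtain ⟨g, hg, hgw⟩ := htr v hvV w hwV (fun hh => hv1 (Subtype.ext hh)) (fun hh => hw1 (Subtype.ext hh))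
    refine ⟨(Y.normalizerMonoidHom ⟨g, hA hg⟩ : Y ≃* Y), ?_⟩
    exact Subtype.ext hgw
  · rw [Nat.card_congr (subgroupOfEquivOfLe hVY).toEquiv, h.card]

/-- roots of the same element lie in one coset -/
theorem Ctx.coset {Y : Subgroup X} (hVY : V ≤ Y) (hsq : ∀ y ∈ Y, y ^ 2 ∈ V)
    (hr : ∀ v ∈ V, v ≠ 1 → Nat.card {y : X // y ∈ Y ∧ y ^ 2 = v} = 2 ^ n) {y z : X} (hy : y ∈ Y) (hz : z ∈ Y)
    (hyz : y ^ 2 = z ^ 2) (hy1 : y ^ 2 ≠ 1) : y⁻¹ * z ∈ V := by
  have hYV : Y ≤ centralizer (V : Set X) := h.two_le (h.two_of_sq hsq)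
  have hmem : ∀ v : V, y * v ∈ Y ∧ (y * v) ^ 2 = y ^ 2 := by
    intro v
    refine ⟨mul_mem hy (hVY v.2), ?_⟩
    have h1 := mem_centralizer_iff.1 (hYV hy) v v.2
    have h2 := h.exp v v.2
    rw [(show Commute y (v : X) from h1.symm).mul_pow, h2, mul_one]
  let f : V → {x : X // x ∈ Y ∧ x ^ 2 = y ^ 2} := fun v => ⟨y * v, hmem v⟩
  have hinj : Function.Injective f := by
    intro a b hab
    have : y * (a : X) = y * b := congrArg Subtype.val hab
    exact Subtype.ext (mul_left_cancel this)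
  have hbij : Function.Bijective f := by
    rw [Nat.bijective_iff_injective_and_card]
    exact ⟨hinj, by rw [h.card, hr _ (hsq y hy) hy1]⟩
  obtain ⟨v, hv⟩ := hbij.2 ⟨z, hz, hyz.symm⟩
  have : y * (v : X) = z := congrArg Subtype.val hv
  rw [← this, inv_mul_cancel_left]
  exact v.2

theorem Ctx.comm_of_sq {Y : Subgroup X} {W : Subgroup X} (hW : Y ≤ normalizer (W : Set X))
    (hsq : ∀ y ∈ Y, y ^ 2 ∈ W) {x y : X} (hx : x ∈ Y) (hy : y ∈ Y) : ⁅x, y⁆ ∈ W := by
  have h1 : ⁅x, y⁆ = (x * y) ^ 2 * (y⁻¹ * (x⁻¹) ^ 2 * y⁻¹⁻¹) * (y⁻¹) ^ 2 := by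
    rw [commutatorElement_def, sq, sq, sq]; group
  rw [h1]
  exact W.mul_mem (W.mul_mem (hsq _ (mul_mem hx hy))
    ((mem_normalizer_iff.1 (hW (inv_mem hy)) _).1 (hsq _ (inv_mem hx)))) (hsq _ (inv_mem hy))

/-- existence of the 2-group `E` -/
theorem Ctx.exists_E {F : Subgroup X} (hF : (Nat.card F).Coprime 2)
    (hFL : pCore 2 X ⊔ F = (pPrimeCore 2 (X ⧸ pCore 2 X)).comap (QuotientGroup.mk' (pCore 2 X)))
    (hfr : ∀ g : X, ∃ a ∈ pCore 2 X, a * g ∈ normalizer (F : Set X))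
    (hidx : ¬ ((pCore 2 X).index).Coprime 2) :
    ∃ E : Subgroup X, IsPGroup 2 E ∧ E ≤ normalizer (F : Set X) ∧
      (∀ m ∈ normalizer (F : Set X), ∃ f ∈ F, f * m ∈ normalizer (E : Set X)) ∧
      (∀ e ∈ E, e ^ 2 ∈ pCore 2 X) ∧ ¬ E ≤ pCore 2 X ∧ pCore 2 X ⊓ normalizer (F : Set X) ≤ E := by
  haveI : Fact (Nat.Prime 2) := ⟨Nat.prime_two⟩
  haveI := h.sol
  set P := pCore 2 X with hP
  set M := normalizer (F : Set X) with hM
  have hPp : IsPGroup 2 P := H1.pCore_isPGroup 2 X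
  set L := (pPrimeCore 2 (X ⧸ P)).comap (QuotientGroup.mk' P) with hL
  haveI hLn : L.Normal := inferInstance
  have hPL : P ≤ L := by rw [← hFL]; exact le_sup_left
  have hFLe : F ≤ L := by rw [← hFL]; exact le_sup_right
  have hrel : (P.relIndex L).Coprime 2 := relIndex_comap_core 2
  set q := QuotientGroup.mk' L with hq
  have hqs : Function.Surjective q := QuotientGroup.mk'_surjective L
  have hne : L ≠ ⊤ := by
    intro hLt
    apply hidx
    rw [hLt, relIndex_top_right] at hrel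
    exact hrel
  -- `O_{2'}(X / L) = 1`
  have hO : pPrimeCore 2 (X ⧸ L) = ⊥ := by
    rw [H1.pPrimeCore_eq_bot_iff]
    intro N hN hNc
    set N' := N.comap q with hN'
    have hLN : L ≤ N' := by
      intro x hx
      rw [hN', mem_comap]
      have : q x = 1 := (QuotientGroup.eq_one_iff x).2 hx
      rw [this]; exact one_mem _
    have h1 : N'.map (QuotientGroup.mk' P) ≤ pPrimeCore 2 (X ⧸ P) := by
      apply H1.le_pPrimeCore
      · exact (inferInstance : N'.Normal).map _ (QuotientGroup.mk'_surjective P)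
      · have h2 : Nat.card (N'.map (QuotientGroup.mk' P)) = P.relIndex N' := by
          rw [← H2.relIndex_comap_mk', comap_map_eq, QuotientGroup.ker_mk', sup_eq_left.2 (hPL.trans hLN)]
        have h3 : L.relIndex N' = Nat.card N := H2.relIndex_comap_mk' N
        rw [h2, ← relIndex_mul_relIndex P L N' hPL hLN, h3]
        exact Nat.Coprime.mul_left hrel hNc
    have h2 : N' ≤ L := by rw [map_le_iff_le_comap] at h1; exact h1
    rw [eq_bot_iff]
    intro y hy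
    obtain ⟨x, rfl⟩ := hqs y
    exact (QuotientGroup.eq_one_iff x).2 (h2 hy)
  have htop : (⊤ : Subgroup (X ⧸ L)) ≠ ⊥ := by
    intro hb
    apply hne
    rw [eq_top_iff]
    intro x _
    have : q x ∈ (⊤ : Subgroup (X ⧸ L)) := mem_top _
    rw [hb, mem_bot] at this
    exact (QuotientGroup.eq_one_iff x).1 this
  obtain ⟨D', hD'n, hD'1, -, hD'min⟩ := H1.exists_minimal_normal_le (G := X ⧸ L) (N := ⊤) inferInstance htop
  obtain ⟨-, r, hr, hD'r, hD'e⟩ := H1.minimal_normal_solvable hD'n hD'1 hD'min inferInstance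
  have hr2 : r = 2 := by
    by_contra hne
    haveI : Fact r.Prime := ⟨hr⟩
    apply hD'1
    apply (H1.pPrimeCore_eq_bot_iff.1 hO) D' hD'n
    obtain ⟨k, hk⟩ := IsPGroup.iff_card.1 hD'r
    rw [hk]
    exact Nat.Coprime.pow_left _ ((Nat.coprime_primes hr Nat.prime_two).2 hne)
  subst hr2
  set D := D'.comap q with hD
  haveI hDn : D.Normal := inferInstance
  have hLD : L ≤ D := by
    intro x hx
    rw [hD, mem_comap]
    have : q x = 1 := (QuotientGroup.eq_one_iff x).2 hx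
    rw [this]; exact one_mem _
  obtain ⟨c, hc⟩ := IsPGroup.iff_card.1 hD'r
  have hLDi : L.relIndex D = 2 ^ c := by rw [hD, H2.relIndex_comap_mk', hc]
  have hFPn : F ≤ normalizer (P : Set X) := by rw [normalizer_eq_top]; exact le_top
  have hcardL : Nat.card L = Nat.card P * Nat.card F := by
    rw [← hFL]
    exact card_sup_of_inf_eq_bot hFPn (by rw [inf_comm]; exact inf_bot_of_two hPp hF)
  obtain ⟨b, hb⟩ := IsPGroup.iff_card.1 hPp
  have hcardD : Nat.card D = 2 ^ (b + c) * Nat.card F := by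
    have h1 := relIndex_mul_relIndex (⊥ : Subgroup X) L D bot_le hLD
    rw [relIndex_bot_left, relIndex_bot_left, hLDi, hcardL, hb] at h1
    rw [← h1, pow_add]; ring
  set DM := D ⊓ M with hDM
  have hFDM : F ≤ DM := le_inf (hFLe.trans hLD) le_normalizer
  have hMn : M ≤ normalizer (DM : Set X) := by
    refine le_normalizer_of_conj_mem ?_
    intro m hm g hg
    obtain ⟨hgD, hgM⟩ := mem_inf.1 hg
    exact mem_inf.2 ⟨hDn.conj_mem g hgD m, mul_mem (mul_mem hm hgM) (inv_mem hm)⟩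
  -- index of `F` in `D ∩ M` is a power of two
  have hFi : ∃ k, F.relIndex DM = 2 ^ k := by
    have h1 : F.relIndex DM ∣ 2 ^ (b + c) := by
      have h2 := relIndex_mul_relIndex (⊥ : Subgroup X) F DM bot_le hFDM
      rw [relIndex_bot_left, relIndex_bot_left] at h2
      have h3 : Nat.card DM ∣ Nat.card D := card_dvd_of_le inf_le_left
      rw [← h2, hcardD, mul_comm] at h3
      exact Nat.dvd_of_mul_dvd_mul_right Nat.card_pos h3
    obtain ⟨k, -, hk⟩ := (Nat.dvd_prime_pow Nat.prime_two).1 h1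
    exact ⟨k, hk⟩
  obtain ⟨E, hE⟩ := exists_isSylowOf 2 DM
  have hEi : (E.relIndex DM).Coprime 2 := by
    rw [Nat.coprime_comm, Nat.Prime.coprime_iff_not_dvd Nat.prime_two]; exact hE.not_dvd
  have hFE : DM ≤ E ⊔ F := by
    rw [← relIndex_eq_one]
    have h1 : (E ⊔ F).relIndex DM ∣ E.relIndex DM := relIndex_dvd_of_le_left DM le_sup_left
    have h2 : (E ⊔ F).relIndex DM ∣ F.relIndex DM := relIndex_dvd_of_le_left DM le_sup_right
    obtain ⟨m, hm⟩ := hFi
    rw [hm] at h2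
    exact Nat.Coprime.eq_one_of_dvd ((Nat.Coprime.coprime_dvd_left h1 hEi).pow_right m) h2
  have hEM : E ≤ M := hE.le.trans inf_le_right
  have hED : E ≤ D := hE.le.trans inf_le_left
  -- 2-elements of `L` lie in `P`
  have hL2 : ∀ x ∈ L, x ∈ E → x ∈ P := by
    intro x hxL hxE
    obtain ⟨k, hk⟩ := hE.isPGroup ⟨x, hxE⟩
    have hxk : x ^ 2 ^ k = 1 := congrArg Subtype.val hk
    set f := QuotientGroup.mk' P with hf
    have h1 : orderOf (f x) ∣ 2 ^ k := orderOf_dvd_of_pow_eq_one (by rw [← map_pow, hxk, map_one])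
    have h2 : orderOf (f x) ∣ Nat.card (pPrimeCore 2 (X ⧸ P)) := by
      have := orderOf_dvd_natCard (⟨f x, hxL⟩ : pPrimeCore 2 (X ⧸ P))
      rwa [← orderOf_submonoid] at this
    have h3 : orderOf (f x) = 1 :=
      Nat.Coprime.eq_one_of_dvd ((Nat.Coprime.coprime_dvd_left h2 (H1.pPrimeCore_coprime 2 _)).pow_right k) h1
    exact (QuotientGroup.eq_one_iff x).1 (orderOf_eq_one_iff.1 h3)
  refine ⟨E, hE.isPGroup, hEM, ?_, ?_, ?_, ?_⟩
  · intro m hm
    obtain ⟨d, hd, hdE⟩ := hE.exists_conj (hE.conj (hMn hm))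
    -- `conj d • E = conj m • E`
    have h1 : MulAut.conj (d⁻¹ * m) • E = E := by
      rw [map_mul, mul_smul, ← hdE, ← mul_smul, ← map_mul, inv_mul_cancel, map_one, one_smul]
    have h2 : d⁻¹ * m ∈ normalizer (E : Set X) := H1.mem_normalizer_iff_conj_smul.2 h1
    have h3 : d⁻¹ ∈ E ⊔ F := hFE (inv_mem hd)
    have hEF : E ≤ normalizer (F : Set X) := hEM
    rw [sup_comm] at h3
    rw [mem_sup_iff_of_le_normalizer hEF] at h3
    obtain ⟨f, hf, e, he, hfe⟩ := h3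
    -- d⁻¹ = f * e, want form e' * f'
    have h4 : e⁻¹ * f * e ∈ F := by
      have := (mem_normalizer_iff.1 (hEF (inv_mem he)) f).1 hf
      simpa using this
    refine ⟨e⁻¹ * f * e, h4, ?_⟩
    have h5 : e⁻¹ ∈ normalizer (E : Set X) := le_normalizer (inv_mem he)
    have := mul_mem h5 h2
    rwa [← hfe, show e⁻¹ * (f * e * m) = e⁻¹ * f * e * m by group] at this
  · intro e he
    apply hL2 _ _ (pow_mem he 2)
    have h1 : q (e ^ 2) = 1 := by rw [map_pow]; exact hD'e _ (hED he)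
    exact (QuotientGroup.eq_one_iff _).1 h1
  · intro hEP
    -- then `D ∩ M ≤ L`
    have h1 : DM ≤ L := hFE.trans (sup_le (hEP.trans hPL) hFLe)
    have h2 : D ≤ L := by
      intro d hd
      obtain ⟨a, ha, had⟩ := hfr d
      have h3 : a * d ∈ L := h1 (mem_inf.2 ⟨mul_mem (hLD (hPL ha)) hd, had⟩)
      have := mul_mem (inv_mem (hPL ha)) h3
      rwa [inv_mul_cancel_left] at this
    apply hD'1
    rw [eq_bot_iff]
    intro y hy
    obtain ⟨x, rfl⟩ := hqs y
    exact (QuotientGroup.eq_one_iff x).2 (h2 hy)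
  · -- `P ∩ M` is a normal 2-subgroup of `M` inside `D ∩ M`
    have hPM : P ⊓ M ≤ DM := le_inf (inf_le_left.trans (hPL.trans hLD)) inf_le_right
    obtain ⟨E', hE', hle⟩ := exists_isSylowOf_ge hPM (hPp.to_le inf_le_left)
    obtain ⟨g, hg, hgE⟩ := hE'.exists_conj hE
    rw [← hgE]
    intro x hx
    rw [Subgroup.mem_pointwise_smul_iff_inv_smul_mem, ← map_inv, MulAut.smul_def, MulAut.conj_apply, inv_inv]
    apply hle
    obtain ⟨hxP, hxM⟩ := mem_inf.1 hx
    have hgM : g ∈ M := (mem_inf.1 hg).2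
    refine mem_inf.2 ⟨?_, mul_mem (mul_mem (inv_mem hgM) hxM) hgM⟩
    have := (inferInstance : P.Normal).conj_mem x hxP g⁻¹
    rwa [inv_inv] at this

end

end Cfsg.Agent.H23.OneInv
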