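import Cfsg.Agent.H23.OneInv3
import Cfsg.Agent.H1.BG36M

set_option autoImplicit false
set_option linter.all false

/-! # One class of involutions, part 3 -/

namespace Cfsg.Agent.H23.OneInv

open Subgroup Cfsg
open scoped Pointwise commutatorElement

structure Ctx2 (X : Type*) [Group X] [Finite X] (V F E : Subgroup X) (n : ℕ) : Prop extends Ctx X V n where
  Fodd : (Nat.card F).Coprime 2
  VF : V ≤ centralizer (F : Set X)
  fr : ∀ g : X, ∃ a ∈ pCore 2 X, a * g ∈ normalizer (F : Set X)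
  E2 : IsPGroup 2 E
  EM : E ≤ normalizer (F : Set X)
  frE : ∀ m ∈ normalizer (F : Set X), ∃ f ∈ F, f * m ∈ normalizer (E : Set X)
  Esq : ∀ e ∈ E, e ^ 2 ∈ pCore 2 X
  EP : ¬ E ≤ pCore 2 X
  PME : pCore 2 X ⊓ normalizer (F : Set X) ≤ E
  cen : E ⊓ centralizer (F : Set X) ≤ pCore 2 X

theorem Ctx.ctx2 {X : Type*} [Group X] [Finite X] {V : Subgroup X} {n : ℕ} (h : Ctx X V n)
    (hidx : ¬ ((pCore 2 X).index).Coprime 2) : ∃ F E : Subgroup X, Ctx2 X V F E n := by
  haveI : Fact (Nat.Prime 2) := ⟨Nat.prime_two⟩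
  haveI := h.sol
  haveI := h.nor
  obtain ⟨F, hF, hFL, hfr⟩ := exists_F (X := X) (p := 2) (isPSolvable_of_isSolvable h.sol)
  set P := pCore 2 X with hP
  have hPp : IsPGroup 2 P := H1.pCore_isPGroup 2 X
  have hVF : V ≤ centralizer (F : Set X) := by
    by_contra hcon
    have hLn : (P ⊔ F).Normal := by rw [hFL]; infer_instance
    have hC : V ⊓ centralizer (F : Set X) = ⊥ := by
      by_contra hne
      apply hcon
      have h1 := h.le_of_normal (N := centralizer ((P ⊔ F : Subgroup X) : Set X)) inferInstance (by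
        intro hb
        apply hne
        rw [eq_bot_iff, ← hb]
        intro v hv
        obtain ⟨hvV, hvF⟩ := mem_inf.1 hv
        refine mem_inf.2 ⟨?_, hvV⟩
        have h1 : P ⊔ F ≤ centralizer ({v} : Set X) := by
          refine sup_le ?_ ?_
          · intro y hy
            rw [mem_centralizer_singleton_iff]
            exact (mem_centralizer_iff.1 (h.P_le hy) v hvV).symm
          · intro y hy
            rw [mem_centralizer_singleton_iff]
            exact mem_centralizer_iff.1 hvF y hy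
        rw [mem_centralizer_iff]
        intro y hy
        exact mem_centralizer_singleton_iff.1 (h1 hy))
      intro v hv
      have h2 := mem_centralizer_iff.1 (h1 hv)
      rw [mem_centralizer_iff]
      intro y hy
      exact h2 y ((le_sup_right : F ≤ P ⊔ F) hy)
    have hodd := h.norm_odd hF hC
    apply hidx
    have h3 : P ⊔ normalizer (F : Set X) = ⊤ := by
      rw [eq_top_iff]
      intro g _
      obtain ⟨a, ha, hag⟩ := hfr g
      have := mul_mem (mem_sup_left (T := normalizer (F : Set X)) (inv_mem ha)) (mem_sup_right (S := P) hag)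
      rwa [show a⁻¹ * (a * g) = g by group] at this
    have h4 : P.index ∣ Nat.card (normalizer (F : Set X)) := by
      have h5 : P.relIndex (P ⊔ normalizer (F : Set X)) = P.relIndex (normalizer (F : Set X)) := by
        rw [sup_comm]
        exact relIndex_sup_right (H := normalizer (F : Set X)) (K := P)
      rw [h3, relIndex_top_right] at h5
      rw [h5]
      exact relIndex_dvd_card P _
    exact Nat.Coprime.coprime_dvd_left h4 hodd
  obtain ⟨E, hE2, hEM, hfrE, hEsq, hEP, hPME⟩ := h.exists_E hF hFL hfr hidx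
  refine ⟨F, E, { toCtx := h, Fodd := hF, VF := hVF, fr := hfr, E2 := hE2, EM := hEM, frE := hfrE, Esq := hEsq, EP := hEP, PME := hPME, cen := ?_ }⟩
  -- faithful
  intro e he
  obtain ⟨heE, heF⟩ := mem_inf.1 he
  set f := QuotientGroup.mk' P with hf
  have hsq : Group.IsSolvable (X ⧸ P) := inferInstance
  have h1 := H1.centralizer_pPrimeCore_le (p := 2) hsq (H1.pCore_quotient_eq_bot 2)
  have h2 : f e ∈ centralizer (pPrimeCore 2 (X ⧸ P) : Set (X ⧸ P)) := by
    rw [mem_centralizer_iff]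
    intro y hy
    obtain ⟨x, rfl⟩ := QuotientGroup.mk'_surjective P y
    have hx : x ∈ P ⊔ F := by rw [hFL]; exact hy
    have hx' := (mem_sup_iff_of_le_normalizer (A := F) (G := P) (by rw [normalizer_eq_top]; exact le_top)).1 hx
    obtain ⟨a, ha, g, hg, rfl⟩ := hx'
    have e1 : f (a * g) = f g := by
      rw [map_mul]
      have : f a = 1 := (QuotientGroup.eq_one_iff a).2 ha
      rw [this, one_mul]
    change f (a * g) * f e = f e * f (a * g)
    rw [e1, ← map_mul, ← map_mul, mem_centralizer_iff.1 heF g hg]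
  have h3 := h1 h2
  obtain ⟨k, hk⟩ := hE2 ⟨e, heE⟩
  have hek : e ^ 2 ^ k = 1 := congrArg Subtype.val hk
  have h4 : orderOf (f e) ∣ 2 ^ k := orderOf_dvd_of_pow_eq_one (by rw [← map_pow, hek, map_one])
  have h5 : orderOf (f e) ∣ Nat.card (pPrimeCore 2 (X ⧸ P)) := by
    have := orderOf_dvd_natCard (⟨f e, h3⟩ : pPrimeCore 2 (X ⧸ P))
    rwa [← orderOf_submonoid] at this
  have h6 : orderOf (f e) = 1 :=
    Nat.Coprime.eq_one_of_dvd ((Nat.Coprime.coprime_dvd_left h5 (H1.pPrimeCore_coprime 2 _)).pow_right k) h4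
  exact (QuotientGroup.eq_one_iff e).1 (orderOf_eq_one_iff.1 h6)

section
variable {X : Type*} [Group X] [Finite X] {V F E : Subgroup X} {n : ℕ} (h : Ctx2 X V F E n)
include h

theorem Ctx2.trM : TransOn (normalizer (F : Set X)) V := by
  intro v hv w hw hv1 hw1
  obtain ⟨g, -, hg⟩ := h.tr v hv w hw hv1 hw1
  obtain ⟨a, ha, hag⟩ := h.fr g
  refine ⟨a * g, hag, ?_⟩
  have := mem_centralizer_iff.1 (h.toCtx.P_le ha) w hw
  calc a * g * v * (a * g)⁻¹ = a * (g * v * g⁻¹) * a⁻¹ := by group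
    _ = a * w * a⁻¹ := by rw [hg]
    _ = w := by rw [← this]; group

theorem Ctx2.trA : TransOn (normalizer (F : Set X) ⊓ normalizer (E : Set X)) V := by
  intro v hv w hw hv1 hw1
  obtain ⟨m, hm, hmv⟩ := h.trM v hv w hw hv1 hw1
  obtain ⟨f, hf, hfm⟩ := h.frE m hm
  refine ⟨f * m, mem_inf.2 ⟨mul_mem (le_normalizer hf) hm, hfm⟩, ?_⟩
  have := mem_centralizer_iff.1 (h.VF hw) f hf
  calc f * m * v * (f * m)⁻¹ = f * (m * v * m⁻¹) * f⁻¹ := by group
    _ = f * w * f⁻¹ := by rw [hmv]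
    _ = w := by rw [this]; group

theorem Ctx2.F1_norm : normalizer (F : Set X) ≤ normalizer ((⁅F, E⁆ : Subgroup X) : Set X) := by
  intro m hm
  obtain ⟨f, hf, hfm⟩ := h.frE m hm
  have h1 : f ∈ normalizer ((⁅F, E⁆ : Subgroup X) : Set X) := normalizer_commutator_ge_left _ _ hf
  have h2 : f * m ∈ normalizer ((⁅F, E⁆ : Subgroup X) : Set X) := by
    rw [H1.mem_normalizer_iff_conj_smul, conj_smul_commutator,
      H1.mem_normalizer_iff_conj_smul.1 hfm,
      H1.mem_normalizer_iff_conj_smul.1 (mul_mem (le_normalizer hf) hm)]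
  have := mul_mem (inv_mem h1) h2
  rwa [inv_mul_cancel_left] at this

theorem Ctx2.F1_le : ⁅F, E⁆ ≤ F := commutator_le_of_le_normalizer h.EM

theorem Ctx2.F1_odd : (Nat.card (⁅F, E⁆ : Subgroup X)).Coprime 2 :=
  Nat.Coprime.coprime_dvd_left (card_dvd_of_le h.F1_le) h.Fodd

theorem Ctx2.copEF {Q : Subgroup X} (hQ : IsPGroup 2 Q) : (Nat.card Q).Coprime (Nat.card F) := by
  haveI : Fact (Nat.Prime 2) := ⟨Nat.prime_two⟩
  obtain ⟨k, hk⟩ := IsPGroup.iff_card.1 hQ
  rw [hk]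
  exact (h.Fodd.pow_right k).symm

theorem Ctx2.F1_ne : ⁅F, E⁆ ≠ ⊥ := by
  intro hb
  rw [commutator_eq_bot_iff_le_centralizer] at hb
  apply h.EP
  intro e he
  exact h.cen (mem_inf.2 ⟨he, le_centralizer_iff.1 hb he⟩)

theorem Ctx2.F1_comm : ⁅(⁅F, E⁆ : Subgroup X), E⁆ = ⁅F, E⁆ := commutator_commutator_eq h.EM (h.copEF h.E2)

/-- the minimal subgroup -/
theorem Ctx2.exists_P1 : ∃ P₁ : Subgroup X, P₁ ≤ pCore 2 X ∧ normalizer (F : Set X) ≤ normalizer (P₁ : Set X) ∧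
    ¬ P₁ ≤ centralizer ((⁅F, E⁆ : Subgroup X) : Set X) ∧
    ∀ Q : Subgroup X, Q < P₁ → normalizer (F : Set X) ≤ normalizer (Q : Set X) →
      Q ≤ centralizer ((⁅F, E⁆ : Subgroup X) : Set X) := by
  obtain ⟨P₁, hmin⟩ := (Set.toFinite {Q : Subgroup X | Q ≤ pCore 2 X ∧ normalizer (F : Set X) ≤ normalizer (Q : Set X) ∧
    ¬ Q ≤ centralizer ((⁅F, E⁆ : Subgroup X) : Set X)}).exists_minimal ⟨pCore 2 X, le_rfl, by rw [normalizer_eq_top (H := pCore 2 X)]; exact le_top, by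
      intro hc
      have h1 := (le_centralizer_iff.1 hc).trans h.toCtx.self
      have h2 : pCore 2 X ⊓ ⁅F, E⁆ = ⊥ := inf_bot_of_two (H1.pCore_isPGroup 2 X) h.F1_odd
      rw [inf_eq_right.2 h1] at h2
      exact h.F1_ne h2⟩
  obtain ⟨h1, h2, h3⟩ := hmin.prop
  refine ⟨P₁, h1, h2, h3, ?_⟩
  intro Q hQ hQM
  by_contra hcon
  exact hQ.not_ge (hmin.le_of_le ⟨hQ.le.trans h1, hQM, hcon⟩ hQ.le)

end

structure Ctx3 (X : Type*) [Group X] [Finite X] (V F E P₁ : Subgroup X) (n : ℕ) : Prop extends Ctx2 X V F E n where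
  P1P : P₁ ≤ pCore 2 X
  P1M : normalizer (F : Set X) ≤ normalizer (P₁ : Set X)
  P1ne : ¬ P₁ ≤ centralizer ((⁅F, E⁆ : Subgroup X) : Set X)
  P1min : ∀ Q : Subgroup X, Q < P₁ → normalizer (F : Set X) ≤ normalizer (Q : Set X) →
      Q ≤ centralizer ((⁅F, E⁆ : Subgroup X) : Set X)

theorem Ctx.ctx3 {X : Type*} [Group X] [Finite X] {V : Subgroup X} {n : ℕ} (h : Ctx X V n)
    (hidx : ¬ ((pCore 2 X).index).Coprime 2) : ∃ F E P₁ : Subgroup X, Ctx3 X V F E P₁ n := by
  obtain ⟨F, E, h2⟩ := h.ctx2 hidx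
  obtain ⟨P₁, a, b, c, d⟩ := h2.exists_P1
  exact ⟨F, E, P₁, { toCtx2 := h2, P1P := a, P1M := b, P1ne := c, P1min := d }⟩

section
variable {X : Type*} [Group X] [Finite X] {V F E P₁ : Subgroup X} {n : ℕ} (h : Ctx3 X V F E P₁ n)
include h

theorem Ctx3.P1two : IsPGroup 2 P₁ := (H1.pCore_isPGroup 2 X).to_le h.P1P

theorem Ctx3.F1_le_P1 : ⁅F, E⁆ ≤ normalizer (P₁ : Set X) := (h.toCtx2.F1_le.trans le_normalizer).trans h.P1M

theorem Ctx3.cop : (Nat.card (⁅F, E⁆ : Subgroup X)).Coprime (Nat.card P₁) := by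
  have := h.toCtx2.copEF h.P1two
  exact Nat.Coprime.coprime_dvd_left (card_dvd_of_le h.toCtx2.F1_le) this.symm

theorem Ctx3.P1comm : ⁅P₁, (⁅F, E⁆ : Subgroup X)⁆ = P₁ := by
  have hle : ⁅P₁, (⁅F, E⁆ : Subgroup X)⁆ ≤ P₁ := commutator_le_of_le_normalizer h.F1_le_P1
  by_contra hne
  have hlt := lt_of_le_of_ne hle hne
  have h1 := h.P1min _ hlt (by
    intro m hm
    rw [H1.mem_normalizer_iff_conj_smul, conj_smul_commutator,
      H1.mem_normalizer_iff_conj_smul.1 (h.P1M hm),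
      H1.mem_normalizer_iff_conj_smul.1 (h.toCtx2.F1_norm hm)])
  apply h.P1ne
  exact le_centralizer_of_commutator_le h.F1_le_P1 h.cop le_rfl h1

theorem Ctx3.P1bot : P₁ ≠ ⊥ := by
  rintro rfl
  exact h.P1ne bot_le

theorem Ctx3.VP1 : V ≤ P₁ := by
  apply h.toCtx2.trM.le h.P1M
  obtain ⟨t, ht, ht1, ht2⟩ := exists_inv (two_dvd h.P1two h.P1bot)
  intro hb
  apply ht1
  rw [← mem_bot, ← hb]
  exact mem_inf.2 ⟨ht, h.all t ht2⟩

/-- `T = C_{P₁}(F₁)` -/
theorem Ctx3.T_norm : normalizer (F : Set X) ≤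
    normalizer ((P₁ ⊓ centralizer ((⁅F, E⁆ : Subgroup X) : Set X) : Subgroup X) : Set X) := by
  refine le_normalizer_of_conj_mem ?_
  intro m hm g hg
  obtain ⟨hg1, hg2⟩ := mem_inf.1 hg
  refine mem_inf.2 ⟨(mem_normalizer_iff.1 (h.P1M hm) g).1 hg1, ?_⟩
  rw [mem_centralizer_iff] at hg2 ⊢
  intro y hy
  have h1 := hg2 (m⁻¹ * y * m) (by
    have := (mem_normalizer_iff.1 (h.toCtx2.F1_norm (inv_mem hm)) y).1 hy
    simpa using this)
  calc y * (m * g * m⁻¹) = m * ((m⁻¹ * y * m) * g) * m⁻¹ := by group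
    _ = m * (g * (m⁻¹ * y * m)) * m⁻¹ := by rw [h1]
    _ = m * g * m⁻¹ * y := by group

theorem Ctx3.sq_T {x : X} (hx : x ∈ P₁) : x ^ 2 ∈ P₁ ⊓ centralizer ((⁅F, E⁆ : Subgroup X) : Set X) := by
  haveI : Fact (Nat.Prime 2) := ⟨Nat.prime_two⟩
  set Q := closure {y : X | ∃ x ∈ P₁, x ^ 2 = y} with hQ
  have hQP : Q ≤ P₁ := by
    rw [hQ, closure_le]
    rintro y ⟨x, hx, rfl⟩
    exact pow_mem hx 2
  have hQM : normalizer (F : Set X) ≤ normalizer (Q : Set X) := by
    apply le_normalizer_of_conj_smul_le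
    intro m hm
    show Subgroup.map (MulAut.conj m).toMonoidHom Q ≤ Q
    rw [hQ, MonoidHom.map_closure, closure_le]
    rintro _ ⟨y, ⟨x, hx, rfl⟩, rfl⟩
    apply Subgroup.subset_closure
    refine ⟨m * x * m⁻¹, (mem_normalizer_iff.1 (h.P1M hm) x).1 hx, ?_⟩
    rw [conj_pow]; rfl
  have hQlt : Q < P₁ := by
    refine lt_of_le_of_ne hQP ?_
    intro hEq
    obtain ⟨k, hk⟩ := IsPGroup.iff_card.1 h.P1two
    have hk0 : k ≠ 0 := by
      rintro rfl
      rw [pow_zero] at hk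
      exact h.P1bot (card_eq_one.1 hk)
    obtain ⟨H, hH⟩ := Sylow.exists_subgroup_card_pow_prime (G := P₁) 2 (n := k - 1) (by
      rw [hk]; exact pow_dvd_pow 2 (Nat.sub_le k 1))
    have hHi : H.index = 2 := by
      have h1 := H.card_mul_index
      rw [hH, hk] at h1
      have h2 : 2 ^ k = 2 ^ (k - 1) * 2 := by rw [← pow_succ]; congr 1; omega
      rw [h2] at h1
      exact Nat.eq_of_mul_eq_mul_left (by positivity) h1
    have h1 : Q ≤ H.map P₁.subtype := by
      rw [hQ, closure_le]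
      rintro y ⟨x, hx, rfl⟩
      refine ⟨⟨x, hx⟩ ^ 2, ?_, rfl⟩
      rw [sq]
      exact mul_self_mem_of_index_two hHi _
    rw [hEq] at h1
    have h2 : H = ⊤ := by
      rw [eq_top_iff]
      rintro ⟨x, hx⟩ _
      obtain ⟨y, hy, hyx⟩ := h1 hx
      have : y = ⟨x, hx⟩ := Subtype.ext hyx
      rwa [← this]
    rw [h2, index_top] at hHi
    omega
  exact mem_inf.2 ⟨pow_mem hx 2, h.P1min Q hQlt hQM (Subgroup.subset_closure ⟨x, hx, rfl⟩)⟩

theorem Ctx3.T_central : P₁ ⊓ centralizer ((⁅F, E⁆ : Subgroup X) : Set X) ≤ centralizer (P₁ : Set X) := by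
  set T := P₁ ⊓ centralizer ((⁅F, E⁆ : Subgroup X) : Set X) with hT
  have hTP : T ≤ P₁ := inf_le_left
  have hTF : ⁅(⁅F, E⁆ : Subgroup X), T⁆ = ⊥ := by
    rw [commutator_eq_bot_iff_le_centralizer]
    exact le_centralizer_iff.1 inf_le_right
  have hcomm : ⁅T, P₁⁆ ≤ T := by
    rw [commutator_le]
    intro t ht y hy
    have ht' := hTP ht
    have h1 : ⁅t, y⁆ = (t * y) ^ 2 * (y⁻¹ * t⁻¹ * y) ^ 2 * (y⁻¹) ^ 2 := by
      rw [commutatorElement_def, sq, sq, sq]; group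
    rw [h1]
    exact T.mul_mem (T.mul_mem (h.sq_T (mul_mem ht' hy)) (h.sq_T (mul_mem (mul_mem (inv_mem hy) (inv_mem ht')) hy)))
      (h.sq_T (inv_mem hy))
  have h1 : ⁅(⁅P₁, (⁅F, E⁆ : Subgroup X)⁆ : Subgroup X), T⁆ = ⊥ := by
    apply commutator_commutator_eq_bot_of_rotate
    · rw [hTF]; exact commutator_bot_left _
    · rw [commutator_eq_bot_iff_le_centralizer]
      exact hcomm.trans inf_le_right
  rw [h.P1comm, commutator_eq_bot_iff_le_centralizer] at h1
  exact le_centralizer_iff.1 h1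

theorem Ctx3.T_eq : P₁ ⊓ centralizer ((⁅F, E⁆ : Subgroup X) : Set X) = V := by
  set T := P₁ ⊓ centralizer ((⁅F, E⁆ : Subgroup X) : Set X) with hT
  have hTP : T ≤ P₁ := inf_le_left
  have hVT : V ≤ T := le_inf h.VP1 (h.VF.trans (centralizer_le h.toCtx2.F1_le))
  haveI := h.nor
  refine eq_of_commutator_le_of_abelian_quotient (A := (⁅F, E⁆ : Subgroup X)) (G := P₁) h.F1_le_P1 h.cop
    (Or.inr (isSolvable_of_isPGroup h.P1two)) h.P1comm ?_ (by rw [normalizer_eq_top (H := V)]; exact le_top) hVT hTP ?_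
  · rw [commutator_le]
    intro x hx y hy
    -- `[x,y]` is central in `P₁` and `[x,y]^2 = [x^2,y] = 1`
    have hT1 : ∀ x ∈ P₁, ∀ y ∈ P₁, ⁅x, y⁆ ∈ T := by
      intro x hx y hy
      exact h.toCtx.comm_of_sq (Y := P₁) (W := T) (by
        intro a ha
        rw [mem_normalizer_iff]
        intro b
        have hcb : ∀ c ∈ P₁, ∀ b ∈ T, c * b * c⁻¹ = b := by
          intro c hc b hb
          rw [mem_centralizer_iff.1 (h.T_central hb) c hc]; group
        constructor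
        · intro hb; rw [hcb a ha b hb]; exact hb
        · intro hb
          have h2 := hcb a⁻¹ (inv_mem ha) _ hb
          have h3 : b = a * b * a⁻¹ := by
            rw [← h2]; group
          rw [h3]; exact hb) (fun y hy => h.sq_T hy) hx hy
    apply h.all
    have hc : ∀ z ∈ P₁, Commute ⁅x, y⁆ z := fun z hz => (mem_centralizer_iff.1 (h.T_central (hT1 x hx y hy)) z hz).symm
    have h2 : ⁅x ^ 2, y⁆ = ⁅x, y⁆ ^ 2 := by
      have e1 : ⁅x ^ 2, y⁆ = x * ⁅x, y⁆ * x⁻¹ * ⁅x, y⁆ := by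
        rw [sq, commutatorElement_mul_left_eq_conj_mul]
      rw [e1, ← (hc x hx).eq, mul_inv_cancel_right, sq]
    rw [← h2, commutatorElement_eq_one_iff_mul_comm]
    exact (mem_centralizer_iff.1 (h.T_central (h.sq_T hx)) y hy).symm
  · have : ⁅T, (⁅F, E⁆ : Subgroup X)⁆ = ⊥ := by
      rw [commutator_eq_bot_iff_le_centralizer]; exact inf_le_right
    rw [this]; exact bot_le

theorem Ctx3.P1sq {x : X} (hx : x ∈ P₁) : x ^ 2 ∈ V := by
  rw [← h.T_eq]; exact h.sq_T hx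

/-- `P ∩ M = V` -/
theorem Ctx3.PM : pCore 2 X ⊓ normalizer (F : Set X) = V := by
  haveI := h.nor
  set P := pCore 2 X with hP
  set C := P ⊓ normalizer (F : Set X) with hC
  have hPp : IsPGroup 2 P := H1.pCore_isPGroup 2 X
  have hFP : F ≤ normalizer (P : Set X) := by rw [normalizer_eq_top]; exact le_top
  have hPF : P ⊓ F = ⊥ := inf_bot_of_two hPp h.Fodd
  have hCF : C ≤ centralizer (F : Set X) := fun c hc => cent_of_norm hFP hPF (mem_inf.1 hc).1 (mem_inf.1 hc).2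
  have hCF1 : C ≤ centralizer ((⁅F, E⁆ : Subgroup X) : Set X) := hCF.trans (centralizer_le h.toCtx2.F1_le)
  have hCM : normalizer (F : Set X) ≤ normalizer (C : Set X) := by
    refine le_normalizer_of_conj_mem ?_
    intro m hm g hg
    obtain ⟨hg1, hg2⟩ := mem_inf.1 hg
    exact mem_inf.2 ⟨(inferInstance : P.Normal).conj_mem g hg1 m, mul_mem (mul_mem hm hg2) (inv_mem hm)⟩
  have hC2 : IsPGroup 2 C := hPp.to_le inf_le_left
  have hCP1 : C ≤ normalizer (P₁ : Set X) := (inf_le_right : C ≤ _).trans h.P1M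
  -- `C` centralizes `P₁`
  have hlt : ⁅P₁, C⁆ < P₁ := by
    haveI : Fact (Nat.Prime 2) := ⟨Nat.prime_two⟩
    exact commutator_lt_of_isPGroup h.P1two hC2 hCP1 h.P1bot
  have h1 : ⁅P₁, C⁆ ≤ centralizer ((⁅F, E⁆ : Subgroup X) : Set X) := by
    apply h.P1min _ hlt
    intro m hm
    rw [H1.mem_normalizer_iff_conj_smul, conj_smul_commutator,
      H1.mem_normalizer_iff_conj_smul.1 (h.P1M hm), H1.mem_normalizer_iff_conj_smul.1 (hCM hm)]
  have h2 : ⁅(⁅P₁, (⁅F, E⁆ : Subgroup X)⁆ : Subgroup X), C⁆ = ⊥ := by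
    apply commutator_commutator_eq_bot_of_rotate
    · have : ⁅(⁅F, E⁆ : Subgroup X), C⁆ = ⊥ := by
        rw [commutator_eq_bot_iff_le_centralizer]; exact le_centralizer_iff.1 hCF1
      rw [this]; exact commutator_bot_left _
    · rw [commutator_eq_bot_iff_le_centralizer, commutator_comm]
      exact h1
  rw [h.P1comm, commutator_eq_bot_iff_le_centralizer] at h2
  have hCcent : C ≤ centralizer (P₁ : Set X) := le_centralizer_iff.1 h2
  apply le_antisymm
  · intro c hc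
    by_contra hcV
    -- power with `c' ∉ V`, `c'^2 ∈ V`
    obtain ⟨k, hk⟩ := hC2 ⟨c, hc⟩
    have hck : c ^ 2 ^ k = 1 := congrArg Subtype.val hk
    obtain ⟨j, hj1, hj2⟩ : ∃ j, c ^ 2 ^ j ∉ V ∧ c ^ 2 ^ (j + 1) ∈ V := by
      by_contra hcon
      push Not at hcon
      have : ∀ j, c ^ 2 ^ j ∉ V := by
        intro j
        induction j with
        | zero => simpa using hcV
        | succ j ih => exact hcon j ih
      exact this k (by rw [hck]; exact one_mem _)
    set c' := c ^ 2 ^ j with hc'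
    have hc'C : c' ∈ C := pow_mem hc _
    have hc'2 : c' ^ 2 ∈ V := by rw [hc', ← pow_mul, ← pow_succ]; exact hj2
    have hc'ne : c' ^ 2 ≠ 1 := fun hh => hj1 (h.all c' hh)
    -- a root in `P₁`
    obtain ⟨u₀, hu₀, hu₀V⟩ : ∃ u ∈ P₁, u ∉ V := by
      by_contra hcon
      push Not at hcon
      exact h.P1ne (fun u hu => (h.VF.trans (centralizer_le h.toCtx2.F1_le)) (hcon u hu))
    have hu₀2 : u₀ ^ 2 ≠ 1 := fun hh => hu₀V (h.all u₀ hh)
    obtain ⟨m, hm, hmu⟩ := h.toCtx2.trM _ (h.P1sq hu₀) _ hc'2 hu₀2 hc'ne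
    set u := m * u₀ * m⁻¹ with hu
    have huP : u ∈ P₁ := (mem_normalizer_iff.1 (h.P1M hm) u₀).1 hu₀
    have hu2 : u ^ 2 = c' ^ 2 := by rw [hu, conj_pow]; exact hmu
    have hcomm : Commute c' u := (mem_centralizer_iff.1 (hCcent hc'C) u huP).symm
    have h3 : (c' * u) ^ 2 = 1 := by
      rw [hcomm.mul_pow, hu2, ← sq]
      exact h.exp _ hc'2
    have h4 := h.all _ h3
    have h5 : c' ∈ P₁ := by
      have := mul_mem (h.VP1 h4) (inv_mem huP)
      rwa [mul_inv_cancel_right] at this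
    apply hj1
    rw [← h.T_eq]
    exact mem_inf.2 ⟨h5, hCF1 hc'C⟩
  · exact le_inf h.toCtx.V_le_P (h.VF.trans (centralizer_le_normalizer _))

theorem Ctx3.VE : V ≤ E := by
  rw [← h.PM]; exact h.PME

theorem Ctx3.Esq' {e : X} (he : e ∈ E) : e ^ 2 ∈ V := by
  rw [← h.PM]
  exact mem_inf.2 ⟨h.Esq e he, pow_mem (h.EM he) 2⟩

theorem Ctx3.EinfP : E ⊓ pCore 2 X = V := by
  apply le_antisymm
  · rw [← h.PM]
    exact le_inf inf_le_right (inf_le_left.trans h.EM)
  · exact le_inf h.VE h.toCtx.V_le_P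

end

end Cfsg.Agent.H23.OneInv
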