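import Cfsg.Agent.H23.OneInv4

set_option autoImplicit false
set_option linter.all false

/-! # One class of involutions, part 4 -/

namespace Cfsg.Agent.H23.OneInv

open Subgroup Cfsg
open scoped Pointwise commutatorElement

/-- elements of `P` fixed by `E` modulo `W` -/
def Fx {X : Type*} [Group X] (E P W : Subgroup X) (hW : P ≤ normalizer (W : Set X)) : Subgroup X where
  carrier := {u | u ∈ P ∧ ∀ e ∈ E, e * u * e⁻¹ * u⁻¹ ∈ W}
  one_mem' := ⟨one_mem _, fun e _ => by simp⟩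
  mul_mem' := by
    rintro u w ⟨hu, hu'⟩ ⟨hw, hw'⟩
    refine ⟨mul_mem hu hw, fun e he => ?_⟩
    have h1 := (mem_normalizer_iff.1 (hW hu) _).1 (hw' e he)
    have := mul_mem (hu' e he) h1
    rwa [show e * u * e⁻¹ * u⁻¹ * (u * (e * w * e⁻¹ * w⁻¹) * u⁻¹) = e * (u * w) * e⁻¹ * (u * w)⁻¹ by group] at this
  inv_mem' := by
    rintro u ⟨hu, hu'⟩
    refine ⟨inv_mem hu, fun e he => ?_⟩
    have h1 := (mem_normalizer_iff.1 (hW (inv_mem hu)) _).1 (inv_mem (hu' e he))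
    rwa [show u⁻¹ * (e * u * e⁻¹ * u⁻¹)⁻¹ * u⁻¹⁻¹ = e * u⁻¹ * e⁻¹ * u⁻¹⁻¹ by group] at h1

theorem mem_Fx {X : Type*} [Group X] {E P W : Subgroup X} {hW : P ≤ normalizer (W : Set X)} {u : X} :
    u ∈ Fx E P W hW ↔ u ∈ P ∧ ∀ e ∈ E, e * u * e⁻¹ * u⁻¹ ∈ W := Iff.rfl

theorem Fx_norm {X : Type*} [Group X] {E P W A : Subgroup X} {hW : P ≤ normalizer (W : Set X)}
    (hAE : A ≤ normalizer (E : Set X)) (hAP : A ≤ normalizer (P : Set X)) (hAW : A ≤ normalizer (W : Set X)) :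
    A ≤ normalizer (Fx E P W hW : Set X) := by
  refine le_normalizer_of_conj_mem ?_
  rintro a ha u ⟨hu, hu'⟩
  refine ⟨(mem_normalizer_iff.1 (hAP ha) u).1 hu, fun e he => ?_⟩
  have h1 : a⁻¹ * e * a ∈ E := by
    have := (mem_normalizer_iff.1 (hAE (inv_mem ha)) e).1 he
    simpa using this
  have h2 := (mem_normalizer_iff.1 (hAW ha) _).1 (hu' _ h1)
  rwa [show a * (a⁻¹ * e * a * u * (a⁻¹ * e * a)⁻¹ * u⁻¹) * a⁻¹ = e * (a * u * a⁻¹) * e⁻¹ * (a * u * a⁻¹)⁻¹ by group] at h2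

theorem Ctx.exists_two {X : Type*} [Group X] [Finite X] {V : Subgroup X} {n : ℕ} (h : Ctx X V n) :
    ∃ v ∈ V, ∃ w ∈ V, v ≠ w ∧ v ≠ 1 ∧ w ≠ 1 := by
  have h3 : 3 ≤ Nat.card V := by
    rw [h.card]
    have : 2 ^ 2 ≤ 2 ^ n := Nat.pow_le_pow_right (by norm_num) h.two
    omega
  classical
  haveI := Fintype.ofFinite V
  rw [Nat.card_eq_fintype_card] at h3
  have h4 : 1 < (Finset.univ.erase (1 : V)).card := by
    rw [Finset.card_erase_of_mem (Finset.mem_univ _), Finset.card_univ]; omega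
  obtain ⟨v, hv, w, hw, hne⟩ := Finset.one_lt_card.1 h4
  exact ⟨v, v.2, w, w.2, fun hh => hne (Subtype.ext hh), fun hh => Finset.ne_of_mem_erase hv (Subtype.ext hh),
    fun hh => Finset.ne_of_mem_erase hw (Subtype.ext hh)⟩

section
variable {X : Type*} [Group X] [Finite X] {V F E P₁ : Subgroup X} {n : ℕ} (h : Ctx3 X V F E P₁ n)
include h

theorem Ctx3.pow_inj {a b : ℕ} (hab : 2 ^ (a * n) = 2 ^ (b * n)) : a = b := by
  have h1 := Nat.pow_right_injective le_rfl hab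
  have h2 := h.two
  exact Nat.eq_of_mul_eq_mul_right (by omega) h1

/-- step 7 -/
theorem Ctx3.cardP1 : Nat.card P₁ = 2 ^ (3 * n) ∧
    ∀ v ∈ V, v ≠ 1 → Nat.card {y : X // y ∈ P₁ ∧ y ^ 2 = v} = 2 ^ n * (2 ^ n + 1) := by
  rcases h.toCtx.cntX h.VP1 (fun y hy => h.P1sq hy) h.P1M h.toCtx2.trM with ⟨h1, h2⟩ | ⟨h1, h2⟩ | h3
  · exfalso
    have : V = P₁ := Subgroup.eq_of_le_of_card_ge h.VP1 (by rw [h1, h.card])
    apply h.P1ne
    rw [← this]
    exact h.VF.trans (centralizer_le h.toCtx2.F1_le)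
  · exfalso
    haveI := h.nor
    apply h.P1ne
    have h4 : ⁅P₁, (⁅F, E⁆ : Subgroup X)⁆ ≤ V := by
      rw [commutator_le]
      intro u hu f hf
      have hfF : f ∈ F := h.toCtx2.F1_le hf
      have huinv : f * u⁻¹ * f⁻¹ ∈ P₁ := (mem_normalizer_iff.1 (h.F1_le_P1 hf) _).1 (inv_mem hu)
      have hsqe : (f * u⁻¹ * f⁻¹) ^ 2 = (u⁻¹) ^ 2 := by
        rw [conj_pow, mem_centralizer_iff.1 (h.VF (h.P1sq (inv_mem hu))) f hfF]; group
      by_cases hu1 : (u⁻¹) ^ 2 = 1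
      · have huV := h.all _ hu1
        have : ⁅u, f⁆ = 1 := by
          rw [commutatorElement_eq_one_iff_mul_comm]
          have := mem_centralizer_iff.1 (h.VF (inv_mem huV)) f hfF
          rw [inv_inv] at this
          exact this.symm
        rw [this]; exact one_mem _
      · have := h.toCtx.coset h.VP1 (fun y hy => h.P1sq hy) h2 (inv_mem hu) huinv hsqe.symm hu1
        rwa [inv_inv, show u * (f * u⁻¹ * f⁻¹) = ⁅u, f⁆ by rw [commutatorElement_def]; group] at this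
    rw [h.P1comm] at h4
    exact h4.trans (h.VF.trans (centralizer_le h.toCtx2.F1_le))
  · exact h3

theorem Ctx3.VN : P₁ ≤ normalizer (V : Set X) := by
  haveI := h.nor
  rw [normalizer_eq_top]; exact le_top

theorem Ctx3.EV : E ≤ centralizer (V : Set X) := h.toCtx.two_le h.E2

/-- every element of `V` is a square of an element fixed by `E` modulo `V` -/
theorem Ctx3.root {v : X} (hv : v ∈ V) (hv1 : v ≠ 1) : ∃ u ∈ Fx E P₁ V h.VN, u ^ 2 = v := by
  classical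
  haveI : Fact (Nat.Prime 2) := ⟨Nat.prime_two⟩
  haveI := h.nor
  obtain ⟨-, hroots⟩ := h.cardP1
  set R : Set X := {y | y ∈ P₁ ∧ y ^ 2 = v} with hR
  set S : Set (X ⧸ V) := (QuotientGroup.mk : X → X ⧸ V) '' R with hS
  have hpre : (QuotientGroup.mk : X → X ⧸ V) ⁻¹' S = R := by
    ext y
    constructor
    · rintro ⟨z, ⟨hz1, hz2⟩, hzy⟩
      have h1 : z⁻¹ * y ∈ V := QuotientGroup.eq.1 hzy
      have h2 : y = z * (z⁻¹ * y) := by group
      have hzc : Commute z (z⁻¹ * y) := (mem_centralizer_iff.1 (h.toCtx.two_le h.P1two hz1) _ h1).symm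
      refine ⟨?_, ?_⟩
      · rw [h2]; exact mul_mem hz1 (h.VP1 h1)
      · rw [h2, hzc.mul_pow, h.exp _ h1, mul_one, hz2]
    · intro hy; exact ⟨y, hy, rfl⟩
  have hcardS : Nat.card S = 2 ^ n + 1 := by
    have h1 := QuotientGroup.card_preimage_mk V S
    rw [hpre, h.card] at h1
    have h2 : Nat.card R = 2 ^ n * (2 ^ n + 1) := hroots v hv hv1
    rw [h2] at h1
    exact (Nat.eq_of_mul_eq_mul_left (by positivity) h1).symm
  have hconj : ∀ e ∈ E, ∀ c ∈ S, (e : X ⧸ V) * c * (e : X ⧸ V)⁻¹ ∈ S := by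
    rintro e he _ ⟨y, ⟨hy1, hy2⟩, rfl⟩
    refine ⟨e * y * e⁻¹, ⟨(mem_normalizer_iff.1 (h.P1M (h.EM he)) y).1 hy1, ?_⟩, rfl⟩
    rw [conj_pow, hy2, ← mem_centralizer_iff.1 (h.EV he) v hv]; group
  letI : MulAction E S :=
    { smul := fun e c => ⟨(e : X) * c.1 * ((e : X) : X ⧸ V)⁻¹, hconj e e.2 c.1 c.2⟩
      one_smul := fun c => Subtype.ext (by
        change ((1 : X) : X ⧸ V) * c.1 * ((1 : X) : X ⧸ V)⁻¹ = c.1
        rw [QuotientGroup.mk_one]; group)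
      mul_smul := fun a b c => Subtype.ext (by
        change (((a : X) * (b : X) : X) : X ⧸ V) * c.1 * (((a : X) * (b : X) : X) : X ⧸ V)⁻¹ =
          ((a : X) : X ⧸ V) * (((b : X) : X ⧸ V) * c.1 * ((b : X) : X ⧸ V)⁻¹) * ((a : X) : X ⧸ V)⁻¹
        rw [QuotientGroup.mk_mul]; group) }
  have hmod := h.E2.card_modEq_card_fixedPoints (α := S)
  have hne : (MulAction.fixedPoints E S).Nonempty := by
    by_contra hcon
    rw [Set.not_nonempty_iff_eq_empty] at hcon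
    rw [hcon, hcardS] at hmod
    have h2 : 2 ∣ 2 ^ n := dvd_pow_self 2 (by have := h.two; omega)
    have h3 : (2 ^ n + 1) % 2 = 0 := by
      have : Nat.card (∅ : Set S) = 0 := by simp
      rw [this] at hmod
      exact hmod
    omega
  obtain ⟨⟨c, y, ⟨hy1, hy2⟩, rfl⟩, hc⟩ := hne
  refine ⟨y, mem_Fx.2 ⟨hy1, fun e he => ?_⟩, hy2⟩
  have h1 := congrArg Subtype.val (hc ⟨e, he⟩)
  have h2 : ((e * y * e⁻¹ : X) : X ⧸ V) = (y : X ⧸ V) := h1
  have h3 : (e * y * e⁻¹)⁻¹ * y ∈ V := QuotientGroup.eq.1 h2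
  have h4 := (inferInstance : V.Normal).conj_mem _ (inv_mem h3) y
  rwa [show y * ((e * y * e⁻¹)⁻¹ * y)⁻¹ * y⁻¹ = e * y * e⁻¹ * y⁻¹ by group] at h4

theorem Ctx3.VFx {W : Subgroup X} (hW : P₁ ≤ normalizer (W : Set X)) : V ≤ Fx E P₁ W hW := by
  intro v hv
  refine mem_Fx.2 ⟨h.VP1 hv, fun e he => ?_⟩
  rw [← mem_centralizer_iff.1 (h.EV he) v hv]
  have : v * e * e⁻¹ * v⁻¹ = 1 := by group
  rw [this]; exact one_mem _

theorem Ctx3.A_P1 : normalizer (F : Set X) ⊓ normalizer (E : Set X) ≤ normalizer (P₁ : Set X) :=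
  inf_le_left.trans h.P1M

theorem Ctx3.A_V : normalizer (F : Set X) ⊓ normalizer (E : Set X) ≤ normalizer (V : Set X) := by
  haveI := h.nor
  rw [normalizer_eq_top (H := V)]; exact le_top

theorem Ctx3.A_U : normalizer (F : Set X) ⊓ normalizer (E : Set X) ≤ normalizer (Fx E P₁ V h.VN : Set X) :=
  Fx_norm inf_le_right h.A_P1 h.A_V

/-- step 8 -/
theorem Ctx3.cardU : Nat.card (Fx E P₁ V h.VN) = 2 ^ (2 * n) ∧
    ∀ v ∈ V, v ≠ 1 → Nat.card {y : X // y ∈ Fx E P₁ V h.VN ∧ y ^ 2 = v} = 2 ^ n := by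
  haveI := h.nor
  rcases h.toCtx.cntX (h.VFx h.VN) (fun y hy => h.P1sq hy.1) h.A_U h.toCtx2.trA with ⟨h1, h2⟩ | h2 | ⟨h1, h2⟩
  · exfalso
    obtain ⟨v, hv, w, hw, -, hv1, -⟩ := h.toCtx.exists_two
    have h3 := h2 v hv hv1
    obtain ⟨u, hu, huv⟩ := h.root hv hv1
    rw [Finite.card_eq_zero_iff] at h3
    exact h3.elim ⟨u, hu, huv⟩
  · exact h2
  · exfalso
    have hle : Fx E P₁ V h.VN ≤ P₁ := fun u hu => hu.1
    have hEq : Fx E P₁ V h.VN = P₁ := Subgroup.eq_of_le_of_card_ge hle (by rw [h1, h.cardP1.1])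
    have hEP : ⁅E, P₁⁆ ≤ V := by
      rw [commutator_le]
      intro e he u hu
      rw [← hEq] at hu
      exact hu.2 e he
    set f := QuotientGroup.mk' V with hf
    have hmapV : ∀ {H : Subgroup X}, H ≤ V → H.map f = ⊥ := by
      intro H hH
      rw [Subgroup.map_eq_bot_iff, QuotientGroup.ker_mk']; exact hH
    have e1 : ⁅E.map f, P₁.map f⁆ = ⊥ := by rw [← map_commutator]; exact hmapV hEP
    have e2 : ⁅P₁.map f, (⁅F, E⁆ : Subgroup X).map f⁆ = P₁.map f := by rw [← map_commutator, h.P1comm]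
    have e3 : ⁅(⁅F, E⁆ : Subgroup X).map f, E.map f⁆ = (⁅F, E⁆ : Subgroup X).map f := by
      rw [← map_commutator, h.toCtx2.F1_comm]
    have e4 : ⁅(⁅(⁅F, E⁆ : Subgroup X).map f, E.map f⁆ : Subgroup (X ⧸ V)), P₁.map f⁆ = ⊥ := by
      apply commutator_commutator_eq_bot_of_rotate
      · rw [e1]; exact commutator_bot_left _
      · rw [e2, commutator_comm]; exact e1
    rw [e3, commutator_comm, e2] at e4
    have h5 : P₁ ≤ V := by
      rw [Subgroup.map_eq_bot_iff, QuotientGroup.ker_mk'] at e4; exact e4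
    apply h.P1ne
    exact h5.trans (h.VF.trans (centralizer_le h.toCtx2.F1_le))

/-- step 9 -/
theorem Ctx3.cardE : Nat.card E = 2 ^ (2 * n) ∧
    ∀ v ∈ V, v ≠ 1 → Nat.card {y : X // y ∈ E ∧ y ^ 2 = v} = 2 ^ n := by
  haveI := h.nor
  rcases h.toCtx.cntX h.VE (fun y hy => h.Esq' hy) inf_le_right h.toCtx2.trA with ⟨h1, h2⟩ | h2 | ⟨h1, h2⟩
  · exfalso
    have : V = E := Subgroup.eq_of_le_of_card_ge h.VE (by rw [h1, h.card])
    apply h.EP
    rw [← this]; exact h.toCtx.V_le_P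
  · exact h2
  · exfalso
    set U := Fx E P₁ V h.VN with hU
    have hEU : E ≤ normalizer (U : Set X) := (le_inf h.EM le_normalizer).trans h.A_U
    set J := U ⊔ E with hJ
    have hJsq : ∀ y ∈ J, y ^ 2 ∈ V := by
      intro y hy
      obtain ⟨u, hu, e, he, rfl⟩ := (mem_sup_iff_of_le_normalizer hEU).1 hy
      have h3 : (u * e) ^ 2 = u * (e * u * e⁻¹ * u⁻¹) * u⁻¹ * u ^ 2 * e ^ 2 := by
        rw [sq, sq, sq]; group
      rw [h3]
      exact mul_mem (mul_mem ((inferInstance : V.Normal).conj_mem _ (hu.2 e he) u) (h.P1sq hu.1)) (h.Esq' he)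
    have hVJ : V ≤ J := h.VE.trans le_sup_right
    have hAJ : normalizer (F : Set X) ⊓ normalizer (E : Set X) ≤ normalizer (J : Set X) := by
      intro a ha
      rw [H1.mem_normalizer_iff_conj_smul, hJ, Subgroup.smul_sup,
        H1.mem_normalizer_iff_conj_smul.1 (h.A_U ha), H1.mem_normalizer_iff_conj_smul.1 (mem_inf.1 ha).2]
    have hcJ := H1.card_sup_mul_card_inf_of_le_normalizer (H := U) (K := E) hEU
    have hUE : U ⊓ E = V := by
      apply le_antisymm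
      · rw [← h.EinfP]
        exact le_inf inf_le_right (inf_le_left.trans (le_trans (fun u hu => hu.1) h.P1P))
      · exact le_inf (h.VFx h.VN) h.VE
    rw [hUE, h.card, h.cardU.1, h1, ← hJ] at hcJ
    have hn := h.two
    rcases h.toCtx.cntX hVJ hJsq hAJ h.toCtx2.trA with ⟨h4, -⟩ | ⟨h4, -⟩ | ⟨h4, -⟩
    · rw [h4, ← pow_add, ← pow_add] at hcJ
      have := Nat.pow_right_injective le_rfl hcJ
      omega
    · rw [h4, ← pow_add, ← pow_add] at hcJ
      have := Nat.pow_right_injective le_rfl hcJ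
      omega
    · rw [h4, ← pow_add, ← pow_add] at hcJ
      have := Nat.pow_right_injective le_rfl hcJ
      omega

theorem Ctx3.UN : P₁ ≤ normalizer (Fx E P₁ V h.VN : Set X) := by
  intro y hy
  rw [mem_normalizer_iff]
  haveI := h.nor
  have key : ∀ y ∈ P₁, ∀ u ∈ Fx E P₁ V h.VN, y * u * y⁻¹ ∈ Fx E P₁ V h.VN := by
    intro y hy u hu
    have h1 : ⁅y, u⁆ ∈ V := h.toCtx.comm_of_sq h.VN (fun y hy => h.P1sq hy) hy hu.1
    have h2 := mul_mem (h.VFx h.VN h1) hu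
    rwa [show ⁅y, u⁆ * u = y * u * y⁻¹ by rw [commutatorElement_def]; group] at h2
  intro u
  refine ⟨key y hy u, fun hu => ?_⟩
  have := key y⁻¹ (inv_mem hy) _ hu
  rwa [show y⁻¹ * (y * u * y⁻¹) * y⁻¹⁻¹ = u by group] at this

/-- step 10: `[P₁, E] ≤ U`. -/
theorem Ctx3.quad : Fx E P₁ (Fx E P₁ V h.VN) h.UN = P₁ := by
  haveI : Fact (Nat.Prime 2) := ⟨Nat.prime_two⟩
  set U := Fx E P₁ V h.VN with hU
  set U₂ := Fx E P₁ U h.UN with hU₂
  have hU2P : U₂ ≤ P₁ := fun u hu => hu.1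
  have hAU2 : normalizer (F : Set X) ⊓ normalizer (E : Set X) ≤ normalizer (U₂ : Set X) :=
    Fx_norm inf_le_right h.A_P1 h.A_U
  have hnot : ¬ U₂ ≤ U := by
    -- minimal `E`-invariant subgroup not contained in `U`
    have hEP1 : E ≤ normalizer (P₁ : Set X) := h.EM.trans h.P1M
    have hP1U : ¬ P₁ ≤ U := by
      intro hc
      have h1 := Subgroup.card_le_of_le hc
      rw [h.cardU.1, h.cardP1.1] at h1
      have h2 := (Nat.pow_le_pow_iff_right (by norm_num : 1 < 2)).1 h1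
      have := h.two
      omega
    obtain ⟨D, hDmin⟩ := (Set.toFinite {D : Subgroup X | D ≤ P₁ ∧ E ≤ normalizer (D : Set X) ∧ ¬ D ≤ U}).exists_minimal
      ⟨P₁, le_rfl, hEP1, hP1U⟩
    obtain ⟨hD1, hD2, hD3⟩ := hDmin.prop
    have hDne : D ≠ ⊥ := by rintro rfl; exact hD3 bot_le
    have hlt : ⁅D, E⁆ < D := commutator_lt_of_isPGroup (h.P1two.to_le hD1) h.E2 hD2 hDne
    have hDU : ⁅D, E⁆ ≤ U := by
      by_contra hcon
      exact hlt.not_ge (hDmin.le_of_le ⟨hlt.le.trans hD1, normalizer_commutator_ge_right _ _, hcon⟩ hlt.le)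
    intro hc
    apply hD3
    refine le_trans ?_ hc
    intro d hd
    refine mem_Fx.2 ⟨hD1 hd, fun e he => ?_⟩
    rw [commutator_comm] at hDU
    exact hDU (commutator_mem_commutator he hd)
  rcases h.toCtx.cntX (h.VFx h.UN) (fun y hy => h.P1sq hy.1) hAU2 h.toCtx2.trA with ⟨h1, -⟩ | ⟨h1, -⟩ | ⟨h1, -⟩
  · exfalso
    have : V = U₂ := Subgroup.eq_of_le_of_card_ge (h.VFx h.UN) (by rw [h1, h.card])
    apply hnot
    rw [← this]; exact h.VFx h.VN
  · exfalso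
    have hle : U ≤ U₂ := by
      intro u hu
      exact mem_Fx.2 ⟨hu.1, fun e he => h.VFx h.VN (hu.2 e he)⟩
    have : U = U₂ := Subgroup.eq_of_le_of_card_ge hle (by rw [h1, h.cardU.1])
    exact hnot this.ge
  · exact Subgroup.eq_of_le_of_card_ge hU2P (by rw [h1, h.cardP1.1])

end

end Cfsg.Agent.H23.OneInv
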