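import Cfsg.Agent.H23.OneInv5

set_option autoImplicit false
set_option linter.all false

/-! # One class of involutions, part 5 -/

namespace Cfsg.Agent.H23.OneInv

open Subgroup Cfsg
open scoped Pointwise commutatorElement

theorem abs_contra {Q : Type*} [Group Q] [Finite Q] {E F P A : Subgroup Q}
    (hP2 : ∀ u ∈ P, u * u = 1) (hE2 : ∀ e ∈ E, e * e = 1)
    (hEP : E ≤ normalizer (P : Set Q)) (hFP : F ≤ normalizer (P : Set Q)) (hAP : A ≤ normalizer (P : Set Q))
    (hAE : A ≤ normalizer (E : Set Q)) (hEF : E ≤ normalizer (F : Set Q)) (hFodd : (Nat.card F).Coprime 2)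
    (hcop : (Nat.card E).Coprime (Nat.card F))
    (hFE : ⁅F, E⁆ = F) (hFC : ¬ F ≤ centralizer (P : Set Q))
    (hquad : ∀ u ∈ P, ∀ e ∈ E, ∀ e' ∈ E, e' * (e * u * e⁻¹ * u) * e'⁻¹ = e * u * e⁻¹ * u)
    (htr : ∀ u ∈ P, ∀ w ∈ P, (∀ e ∈ E, e * u * e⁻¹ = u) → (∀ e ∈ E, e * w * e⁻¹ = w) → u ≠ 1 → w ≠ 1 →
      ∃ a ∈ A, a * u * a⁻¹ = w)
    (hmov : ∀ B : Subgroup Q, B ≤ E → ∀ t ∈ E, t ∉ B → B ⊔ zpowers t = E → ∃ a ∈ A, ∃ b ∈ B, a * b * a⁻¹ = t) : False := by
  have hEcomm : ∀ a ∈ E, ∀ b ∈ E, a * b = b * a := by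
    intro a ha b hb
    have h1 := hE2 _ (mul_mem ha hb)
    have h2 := hE2 a ha
    have h3 := hE2 b hb
    calc a * b = (b * b) * (a * b) * (a * a) := by rw [h2, h3]; group
      _ = b * (b * a * (b * a)) * a := by group
      _ = b * a := by rw [hE2 _ (mul_mem hb ha)]; group
  have hPcomm : ∀ a ∈ P, ∀ b ∈ P, a * b = b * a := by
    intro a ha b hb
    have h2 := hP2 a ha
    have h3 := hP2 b hb
    calc a * b = (b * b) * (a * b) * (a * a) := by rw [h2, h3]; group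
      _ = b * (b * a * (b * a)) * a := by group
      _ = b * a := by rw [hP2 _ (mul_mem hb ha)]; group
  have hEc : IsMulCommutative E := ⟨⟨fun a b => Subtype.ext (hEcomm a a.2 b b.2)⟩⟩
  have h1 := iSup_cocyclic_commutator (A := E) (G := F) hEc hEF hcop
  rw [hFE] at h1
  obtain ⟨B, hB, hBC⟩ : ∃ B ∈ cocyclic E, ¬ ⁅F ⊓ centralizer (B : Set Q), E⁆ ≤ centralizer (P : Set Q) := by
    by_contra hcon
    push Not at hcon
    apply hFC
    rw [← h1]
    exact iSup₂_le hcon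
  obtain ⟨hBE, a, ha, hBa⟩ := hB
  rw [commutator_le] at hBC
  push Not at hBC
  obtain ⟨y, hy, t, ht, hx⟩ := hBC
  obtain ⟨hyF, hyB⟩ := mem_inf.1 hy
  set x := ⁅y, t⁆ with hxdef
  have hxF : x ∈ F := by
    have := commutator_mem_commutator hyF ht
    rwa [hFE] at this
  have htB : t ∉ B := by
    intro htB
    apply hx
    have := mem_centralizer_iff.1 hyB t htB
    have : x = 1 := by rw [hxdef, commutatorElement_eq_one_iff_mul_comm]; exact this.symm
    rw [this]; exact one_mem _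
  have hxB : ∀ b ∈ B, b * x = x * b := by
    intro b hb
    have h2 := mem_centralizer_iff.1 hyB b hb
    have h3 := hEcomm b (hBE hb) t ht
    have c1 : Commute b y := h2
    have c2 : Commute b t := h3
    rw [hxdef, commutatorElement_def]
    exact ((c1.mul_right c2).mul_right c1.inv_right).mul_right c2.inv_right
  have htinv : t * x * t⁻¹ = x⁻¹ := by
    have h2 : t⁻¹ = t := inv_eq_of_mul_eq_one_left (hE2 t ht)
    have h3 := hE2 t ht
    rw [hxdef, commutatorElement_def]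
    rw [mul_inv_rev, mul_inv_rev, mul_inv_rev, inv_inv, inv_inv, h2]
    calc t * (y * t * y⁻¹ * t) * t = t * y * t * y⁻¹ * (t * t) := by group
      _ = t * y * t * y⁻¹ := by rw [h3, mul_one]
      _ = t * (y * (t * y⁻¹)) := by group
  have helt : ∀ s ∈ E, s ∉ B → ∃ b ∈ B, s = b * a := by
    intro s hs hsB
    rw [← hBa] at hs
    have hn : zpowers a ≤ normalizer (B : Set Q) := by
      rw [zpowers_le, mem_normalizer_iff]
      intro b
      constructor
      · intro hb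
        rw [hEcomm a ha b (hBE hb), mul_inv_cancel_right]; exact hb
      · intro hb
        have h4 : b = a⁻¹ * (a * b * a⁻¹) * a := by group
        rw [h4, hEcomm a⁻¹ (inv_mem ha) _ (hBE hb), inv_mul_cancel_right]; exact hb
    obtain ⟨b, hb, c, hc, rfl⟩ := (mem_sup_iff_of_le_normalizer hn).1 hs
    obtain ⟨k, rfl⟩ := mem_zpowers_iff.1 hc
    rcases Int.even_or_odd' k with ⟨m, rfl | rfl⟩
    · exfalso
      apply hsB
      rw [zpow_mul, zpow_two, hE2 a ha, one_zpow, mul_one]; exact hb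
    · refine ⟨b, hb, ?_⟩
      rw [zpow_add, zpow_mul, zpow_two, hE2 a ha, one_zpow, one_mul, zpow_one]
  have htwo : ∀ s ∈ E, ∀ r ∈ E, s ∉ B → r ∉ B → r⁻¹ * s ∈ B := by
    intro s hs r hr hsB hrB
    obtain ⟨b, hb, rfl⟩ := helt s hs hsB
    obtain ⟨c, hc, rfl⟩ := helt r hr hrB
    have h4 : (c * a)⁻¹ * (b * a) = a⁻¹ * (c⁻¹ * b) * a := by group
    rw [h4, hEcomm a⁻¹ (inv_mem ha) _ (hBE (mul_mem (inv_mem hc) hb)), inv_mul_cancel_right]
    exact mul_mem (inv_mem hc) hb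
  have hinv : ∀ s ∈ E, s ∉ B → s * x * s⁻¹ = x⁻¹ := by
    intro s hs hsB
    have h4 := htwo s hs t ht hsB htB
    have h5 := hxB _ h4
    calc s * x * s⁻¹ = t * ((t⁻¹ * s) * x) * s⁻¹ := by group
      _ = t * (x * (t⁻¹ * s)) * s⁻¹ := by rw [h5]
      _ = t * x * t⁻¹ := by group
      _ = x⁻¹ := htinv
  have hoddx : ∃ k : ℕ, x ^ (2 * k + 1) = 1 := by
    have h4 : Odd (Nat.card F) := by
      rw [Nat.odd_iff, ← Nat.not_even_iff, even_iff_two_dvd]
      intro h2
      have := Nat.Coprime.eq_one_of_dvd (Nat.Coprime.symm hFodd) h2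
      omega
    obtain ⟨k, hk⟩ := h4
    refine ⟨k, ?_⟩
    rw [← hk]
    exact orderOf_dvd_iff_pow_eq_one.1 ((Subgroup.orderOf_dvd_natCard F hxF))
  letI : CommGroup P := { (inferInstance : Group P) with mul_comm := fun a b => Subtype.ext (hPcomm a a.2 b b.2) }
  set N := normalizer (P : Set Q) with hN
  let φ : N →* MulAut P := P.normalizerMonoidHom
  have hφ : ∀ (g : N) (u : P), ((φ g u : P) : Q) = g * u * (g : Q)⁻¹ := fun g u => rfl
  have hBt : B ⊔ zpowers t = E := by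
    apply le_antisymm
    · exact sup_le hBE (by rw [zpowers_le]; exact ht)
    · intro s hs
      by_cases hsB : s ∈ B
      · exact mem_sup_left hsB
      · have h4 := htwo s hs t ht hsB htB
        have h5 : s = t * (t⁻¹ * s) := by group
        rw [h5]
        exact mul_mem (mem_sup_right (mem_zpowers t)) (mem_sup_left h4)
  obtain ⟨c, hc, b, hb, hcb⟩ := hmov B hBE t ht htB hBt
  refine fin_contra (φ := φ) (E := E.subgroupOf N) (A := A.subgroupOf N) (E₁ := B.subgroupOf N) (x := ⟨x, hFP hxF⟩)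
    (b := ⟨c, hAP hc⟩) ?_ ?_ ?_ ?_ ?_ ?_ ?_ ?_
  · intro u; exact Subtype.ext (hP2 u u.2)
  · intro u e he e' he'
    apply Subtype.ext
    rw [hφ, Subgroup.coe_mul, hφ]
    exact hquad u u.2 e he e' he'
  · intro s hs u
    apply Subtype.ext
    rw [hφ, hφ]
    have h4 : (s : Q)⁻¹ = s := inv_eq_of_mul_eq_one_left (hE2 s hs)
    have h5 := hE2 s hs
    rw [h4]
    calc (s : Q) * (s * u * s) * s = (s * s) * u * (s * s) := by group
      _ = u := by rw [h5]; group
  · intro s hs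
    ext g
    rw [Subgroup.mem_pointwise_smul_iff_inv_smul_mem, ← map_inv, MulAut.smul_def, MulAut.conj_apply, inv_inv,
      mem_subgroupOf, mem_subgroupOf]
    have h4 := hAE (inv_mem (show (s : Q) ∈ A from hs))
    have h5 := mem_normalizer_iff.1 h4 (g : Q)
    rw [inv_inv] at h5
    exact h5.symm
  · intro u w hu hw hu1 hw1
    obtain ⟨s, hs, hsu⟩ := htr u u.2 w w.2 (fun e he => by
      have := congrArg Subtype.val (hu ⟨e, hEP he⟩ he)
      exact this) (fun e he => by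
      have := congrArg Subtype.val (hw ⟨e, hEP he⟩ he)
      exact this) (fun hh => hu1 (Subtype.ext hh)) (fun hh => hw1 (Subtype.ext hh))
    exact ⟨⟨s, hAP hs⟩, hs, Subtype.ext hsu⟩
  · refine ⟨?_, ⟨⟨t, hEP ht⟩, ht, htB⟩, ?_, ?_, ?_, ?_, ?_⟩
    · intro g hg; exact hBE hg
    · intro e he; exact Subtype.ext (hxB e he)
    · intro s hs hsB; exact Subtype.ext (hinv s hs hsB)
    · intro s hs r hr hsB hrB; exact htwo s hs r hr hsB hrB
    · obtain ⟨k, hk⟩ := hoddx
      exact ⟨k, Subtype.ext hk⟩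
    · rw [mem_centralizer_iff] at hx
      push Not at hx
      obtain ⟨u, hu, hux⟩ := hx
      refine ⟨⟨u, hu⟩, fun hh => hux ?_⟩
      have h4 : x * u * x⁻¹ = u := congrArg Subtype.val hh
      conv_lhs => rw [← h4]
      group
  · exact hc
  · intro hh
    have h4 : (⟨t, hEP ht⟩ : N) ∈ MulAut.conj (⟨c, hAP hc⟩ : N) • B.subgroupOf N := by
      rw [Subgroup.mem_pointwise_smul_iff_inv_smul_mem, ← map_inv, MulAut.smul_def, MulAut.conj_apply, inv_inv,
        mem_subgroupOf]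
      change c⁻¹ * t * c ∈ B
      rw [← hcb]
      have h5 : c⁻¹ * (c * b * c⁻¹) * c = b := by group
      rw [h5]; exact hb
    rw [hh] at h4
    exact htB h4


section
variable {X : Type*} [Group X] [Finite X] {V F E P₁ : Subgroup X} {n : ℕ} (h : Ctx3 X V F E P₁ n)
include h

theorem Ctx3.cardEbar : haveI := h.nor; Nat.card (E.map (QuotientGroup.mk' V)) = 2 ^ n := by
  haveI := h.nor
  have h1 := H2.card_map_mul_card_inf_ker (QuotientGroup.mk' V) E
  rw [QuotientGroup.ker_mk', inf_eq_right.2 h.VE, h.cardE.1, h.card, show 2 * n = n + n by ring, pow_add] at h1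
  exact Nat.eq_of_mul_eq_mul_right (by positivity) h1

theorem Ctx3.false : False := by
  haveI : Fact (Nat.Prime 2) := ⟨Nat.prime_two⟩
  haveI := h.nor
  set π := QuotientGroup.mk' V with hπ
  have hπ1 : ∀ x : X, π x = 1 ↔ x ∈ V := fun x => QuotientGroup.eq_one_iff x
  have hπe : ∀ x y : X, π x = π y ↔ x⁻¹ * y ∈ V := fun x y => QuotientGroup.eq
  have hnm : ∀ {A B : Subgroup X}, A ≤ normalizer (B : Set X) → A.map π ≤ normalizer (B.map π : Set (X ⧸ V)) := by
    intro A B hAB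
    exact (Subgroup.map_mono hAB).trans (le_normalizer_map π)
  have hVker : ∀ {H : Subgroup X}, V ≤ H → ∀ x : X, π x ∈ H.map π → x ∈ H := by
    intro H hVH x hx
    obtain ⟨y, hy, hyx⟩ := hx
    have h1 := hVH ((hπe _ _).1 hyx)
    have := H.mul_mem hy h1
    rwa [mul_inv_cancel_left] at this
  refine abs_contra (Q := X ⧸ V) (E := E.map π) (F := (⁅F, E⁆ : Subgroup X).map π) (P := P₁.map π)
    (A := (normalizer (F : Set X) ⊓ normalizer (E : Set X)).map π) ?_ ?_ ?_ ?_ ?_ ?_ ?_ ?_ ?_ ?_ ?_ ?_ ?_ ?_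
  · rintro _ ⟨u, hu, rfl⟩
    rw [← map_mul, ← sq, hπ1]; exact h.P1sq hu
  · rintro _ ⟨u, hu, rfl⟩
    rw [← map_mul, ← sq, hπ1]; exact h.Esq' hu
  · exact hnm (h.EM.trans h.P1M)
  · exact hnm h.F1_le_P1
  · exact hnm h.A_P1
  · exact hnm inf_le_right
  · exact hnm (normalizer_commutator_ge_right _ _)
  · exact Nat.Coprime.coprime_dvd_left (card_map_dvd _ _) h.toCtx2.F1_odd
  · have h1 := h.toCtx2.copEF h.E2
    exact Nat.Coprime.coprime_dvd_left (card_map_dvd _ _) (Nat.Coprime.coprime_dvd_right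
      ((card_map_dvd _ _).trans (card_dvd_of_le h.toCtx2.F1_le)) h1)
  · rw [← map_commutator, h.toCtx2.F1_comm]
  · intro hc
    have h1 : ⁅P₁, (⁅F, E⁆ : Subgroup X)⁆ ≤ V := by
      rw [commutator_le]
      intro u hu f hf
      rw [← hπ1, map_commutatorElement, commutatorElement_eq_one_iff_mul_comm]
      exact mem_centralizer_iff.1 (hc (mem_map_of_mem π hf)) (π u) (mem_map_of_mem π hu)
    rw [h.P1comm] at h1
    apply h.P1ne
    exact h1.trans (h.VF.trans (centralizer_le h.toCtx2.F1_le))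
  · rintro _ ⟨u, hu, rfl⟩ _ ⟨e, he, rfl⟩ _ ⟨e', he', rfl⟩
    have h1 : u ∈ Fx E P₁ (Fx E P₁ V h.VN) h.UN := by rw [h.quad]; exact hu
    have h2 := (mem_Fx.1 ((mem_Fx.1 h1).2 e he)).2 e' he'
    have h3 : π u = (π u)⁻¹ := by
      rw [eq_comm, inv_eq_iff_mul_eq_one, ← map_mul, ← sq, hπ1]; exact h.P1sq hu
    have h4 : π e * π u * (π e)⁻¹ * π u = π (e * u * e⁻¹ * u⁻¹) := by
      rw [map_mul, map_mul, map_mul, map_inv, map_inv, ← h3]
    rw [h4]
    rw [← hπ1, map_mul, map_mul, map_mul, map_inv, map_inv, mul_inv_eq_one] at h2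
    exact h2
  · rintro _ ⟨u, hu, rfl⟩ _ ⟨w, hw, rfl⟩ huE hwE hu1 hw1
    have hU : ∀ {u : X}, u ∈ P₁ → (∀ e ∈ E.map π, e * π u * e⁻¹ = π u) → u ∈ Fx E P₁ V h.VN := by
      intro u hu huE
      refine mem_Fx.2 ⟨hu, fun e he => ?_⟩
      have h1 := huE _ (mem_map_of_mem π he)
      rw [← hπ1, map_mul, map_mul, map_mul, map_inv, map_inv, h1, mul_inv_cancel]
    have huU := hU hu huE
    have hwU := hU hw hwE
    have husq : u ^ 2 ≠ 1 := fun hh => hu1 ((hπ1 u).2 (h.all u hh))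
    have hwsq : w ^ 2 ≠ 1 := fun hh => hw1 ((hπ1 w).2 (h.all w hh))
    obtain ⟨a, ha, hau⟩ := h.toCtx2.trA _ (h.P1sq hu) _ (h.P1sq hw) husq hwsq
    refine ⟨π a, mem_map_of_mem π ha, ?_⟩
    have h2 : a * u * a⁻¹ ∈ Fx E P₁ V h.VN := (mem_normalizer_iff.1 (h.A_U ha) u).1 huU
    rw [← map_mul, ← map_inv, ← map_mul, hπe]
    refine h.toCtx.coset (h.VFx h.VN) (fun y hy => h.P1sq hy.1) h.cardU.2 h2 hwU ?_ ?_
    · rw [conj_pow, hau]
    · rw [conj_pow, hau]; exact hwsq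
  · rintro B hB _ ⟨t, ht, rfl⟩ htB hBt
    have hBne : B ≠ ⊥ := by
      rintro rfl
      rw [bot_sup_eq] at hBt
      have h3 := h.cardEbar
      rw [← hπ, ← hBt, Nat.card_zpowers] at h3
      have h4 : orderOf (π t) ∣ 2 := by
        apply orderOf_dvd_of_pow_eq_one
        rw [← map_pow, hπ1]; exact h.Esq' ht
      have h5 := Nat.le_of_dvd (by norm_num) h4
      have h6 : 2 ^ 2 ≤ 2 ^ n := Nat.pow_le_pow_right (by norm_num) h.two
      omega
    obtain ⟨b, hb, hb1⟩ : ∃ b ∈ B, b ≠ 1 := by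
      by_contra hcon
      push Not at hcon
      exact hBne (eq_bot_iff.2 fun b hb => mem_bot.2 (hcon b hb))
    obtain ⟨e, he, rfl⟩ := hB hb
    have hesq : e ^ 2 ≠ 1 := fun hh => hb1 ((hπ1 e).2 (h.all e hh))
    have htsq : t ^ 2 ≠ 1 := fun hh => htB (by rw [(hπ1 t).2 (h.all t hh)]; exact one_mem _)
    obtain ⟨a, ha, hau⟩ := h.toCtx2.trA _ (h.Esq' he) _ (h.Esq' ht) hesq htsq
    refine ⟨π a, mem_map_of_mem π ha, π e, hb, ?_⟩
    rw [← map_mul, ← map_inv, ← map_mul, hπe]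
    refine h.toCtx.coset h.VE (fun y hy => h.Esq' hy) h.cardE.2
      ((mem_normalizer_iff.1 (mem_inf.1 ha).2 e).1 he) ht ?_ ?_
    · rw [conj_pow, hau]
    · rw [conj_pow, hau]; exact htsq

end

/-- **Thompson**: the Sylow `2`-subgroup is normal. -/
theorem Ctx.index_odd {X : Type*} [Group X] [Finite X] {V : Subgroup X} {n : ℕ} (h : Ctx X V n) :
    ((pCore 2 X).index).Coprime 2 := by
  by_contra hcon
  obtain ⟨F, E, P₁, h3⟩ := h.ctx3 hcon
  exact h3.false

end Cfsg.Agent.H23.OneInv
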