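import Mathlib
import Cfsg.Agent.H24.QuadZero

/-!
Chevalley-Warning for squaring maps of 2-groups.
-/

set_option linter.style.haveILetI false

namespace Cfsg.Agent.H23

open Subgroup

theorem cw_add {U W : Type*} [AddCommGroup U] [AddCommGroup W] [Module (ZMod 2) U] [Module (ZMod 2) W]
    [Finite U] [Finite W] (q : U → W) (hq0 : q 0 = 0) (β : U →+ U →+ W)
    (hq : ∀ x y, q (x + y) = q x + q y + β x y) (hcard : Nat.card W ^ 2 < Nat.card U) :
    ∃ x, x ≠ 0 ∧ q x = 0 := by
  haveI : Module.Finite (ZMod 2) U := Module.Finite.of_finite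
  haveI : Module.Finite (ZMod 2) W := Module.Finite.of_finite
  let βl : U →ₗ[ZMod 2] U →ₗ[ZMod 2] W :=
    LinearMap.mk₂ (ZMod 2) (fun v w => β v w)
      (by intro v v' w; rw [map_add]; rfl)
      (by
        intro c v w
        exact ZMod.map_smul ((AddMonoidHom.eval w).comp β) c v)
      (by intro v w w'; rw [map_add])
      (by
        intro c v w
        exact ZMod.map_smul (β v) c w)
  let Q : QuadraticMap (ZMod 2) U W :=
    { toFun := q
      toFun_smul := by
        intro a x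
        rcases (by decide +revert : ∀ a : ZMod 2, a = 0 ∨ a = 1) a with h | h
        · rw [h]; simp [hq0]
        · rw [h]; simp
      exists_companion' := ⟨βl, hq⟩ }
  have h1 : Module.finrank (ZMod 2) W * 2 < Module.finrank (ZMod 2) U := by
    rw [← Nat.pow_lt_pow_iff_right (a := 2) (by norm_num), pow_mul]
    have h2 := Module.natCard_eq_pow_finrank (K := ZMod 2) (V := W)
    have h3 := Module.natCard_eq_pow_finrank (K := ZMod 2) (V := U)
    rw [Nat.card_zmod] at h2 h3
    rw [← h2, ← h3]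
    exact hcard
  exact Cfsg.Agent.H24.exists_zero_of_quadraticMap Q (by omega)

theorem cw_add' {U W : Type*} [AddCommGroup U] [AddCommGroup W] (hU : ∀ u : U, 2 • u = 0)
    (hW : ∀ u : W, 2 • u = 0)
    [Finite U] [Finite W] (q : U → W) (hq0 : q 0 = 0) (β : U →+ U →+ W)
    (hq : ∀ x y, q (x + y) = q x + q y + β x y) (hcard : Nat.card W ^ 2 < Nat.card U) :
    ∃ x, x ≠ 0 ∧ q x = 0 := by
  letI m1 : Module (ZMod 2) U := AddCommGroup.zmodModule hU
  letI m2 : Module (ZMod 2) W := AddCommGroup.zmodModule hW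
  exact cw_add q hq0 β hq hcard

theorem cw_mul {U W : Type*} [CommGroup U] [CommGroup W] (hU : ∀ u : U, u ^ 2 = 1)
    (hW : ∀ u : W, u ^ 2 = 1)
    [Finite U] [Finite W] (q : U → W) (hq0 : q 1 = 1) (β : U → U → W)
    (hβ1 : ∀ x y z, β (x * y) z = β x z * β y z) (hβ2 : ∀ x y z, β x (y * z) = β x y * β x z)
    (hq : ∀ x y, q (x * y) = q x * q y * β x y) (hcard : Nat.card W ^ 2 < Nat.card U) :
    ∃ x, x ≠ 1 ∧ q x = 1 := by
  obtain ⟨x, hx, hx'⟩ := cw_add' (U := Additive U) (W := Additive W)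
    (fun x => congrArg Additive.ofMul (hU x.toMul)) (fun x => congrArg Additive.ofMul (hW x.toMul))
    (fun x => Additive.ofMul (q x.toMul)) (congrArg Additive.ofMul hq0)
    (AddMonoidHom.mk' (fun v => AddMonoidHom.mk' (fun w => Additive.ofMul (β v.toMul w.toMul)) (by
        intro a b
        exact congrArg Additive.ofMul (hβ2 v.toMul a.toMul b.toMul))) (by
      intro a b
      apply AddMonoidHom.ext
      intro x
      exact congrArg Additive.ofMul (hβ1 a.toMul b.toMul x.toMul)))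
    (fun x y => congrArg Additive.ofMul (hq x.toMul y.toMul)) hcard
  exact ⟨x.toMul, fun h => hx (congrArg Additive.ofMul h), congrArg Additive.toMul hx'⟩

/-- Chevalley-Warning for the squaring map: if `N` is central of exponent 2, all squares lie in `H ≤ N` and
`|G : N| > |H| ^ 2` then there is an involution outside `N`. -/
theorem exists_involution_not_mem {G : Type*} [Group G] [Finite G] (N H : Subgroup G)
    (hN : N ≤ center G) (hHN : H ≤ N) (hN2 : ∀ n ∈ N, n ^ 2 = 1) (hsq : ∀ x : G, x ^ 2 ∈ H)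
    (hcard : Nat.card H ^ 2 < N.index) : ∃ x, x ∉ N ∧ x ^ 2 = 1 := by
  classical
  haveI hNn : N.Normal := by
    constructor
    intro n hn g
    rw [mem_center_iff.mp (hN hn) g, mul_assoc, mul_inv_cancel, mul_one]
    exact hn
  have hHc : H ≤ center G := hHN.trans hN
  haveI hHn : H.Normal := by
    constructor
    intro n hn g
    rw [mem_center_iff.mp (hHc hn) g, mul_assoc, mul_inv_cancel, mul_one]
    exact hn
  have hcomm : ∀ x y : G, x * y * x⁻¹ * y⁻¹ ∈ H := by
    intro x y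
    have h1 : ∀ a b : G ⧸ H, a * b = b * a := by
      have h2 : ∀ a : G ⧸ H, a * a = 1 := by
        intro a
        obtain ⟨a, rfl⟩ := QuotientGroup.mk_surjective a
        rw [← QuotientGroup.mk_mul, QuotientGroup.eq_one_iff, ← sq]
        exact hsq a
      intro a b
      have h3 : a⁻¹ = a := inv_eq_of_mul_eq_one_left (h2 a)
      have h4 : b⁻¹ = b := inv_eq_of_mul_eq_one_left (h2 b)
      have h5 : (a * b)⁻¹ = a * b := inv_eq_of_mul_eq_one_left (h2 (a * b))
      rw [← h5, mul_inv_rev, h3, h4]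
    rw [← QuotientGroup.eq_one_iff]
    rw [QuotientGroup.mk_mul, QuotientGroup.mk_mul, QuotientGroup.mk_mul, QuotientGroup.mk_inv,
      QuotientGroup.mk_inv, h1 x y]
    group
  letI icg : CommGroup (G ⧸ N) :=
    { (inferInstance : Group (G ⧸ N)) with
      mul_comm := by
        intro x y
        obtain ⟨x, rfl⟩ := QuotientGroup.mk_surjective x
        obtain ⟨y, rfl⟩ := QuotientGroup.mk_surjective y
        rw [← QuotientGroup.mk_mul, ← QuotientGroup.mk_mul, QuotientGroup.eq]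
        have := hcomm y⁻¹ x⁻¹
        rw [inv_inv, inv_inv] at this
        have h2 := hHN this
        convert h2 using 1
        group }
  letI icc : CommGroup H :=
    { (inferInstance : Group H) with
      mul_comm := by
        intro x y
        exact Subtype.ext (mem_center_iff.mp (hHc y.2) x) }
  have hout : ∀ x : G ⧸ N, ((x.out : G) : G ⧸ N) = x := fun x => QuotientGroup.out_eq' x
  have hdiff : ∀ (x : G), ∃ n ∈ N, ((x : G ⧸ N).out : G) = x * n := by
    intro x
    obtain ⟨n, hn⟩ := QuotientGroup.mk_out_eq_mul N x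
    exact ⟨n, n.2, hn⟩
  let q : G ⧸ N → H := fun x => ⟨x.out ^ 2, hsq _⟩
  let β : G ⧸ N → G ⧸ N → H := fun x y => ⟨y.out * x.out * (y.out)⁻¹ * (x.out)⁻¹, hcomm _ _⟩
  have hqm : ∀ x : G, (q (x : G ⧸ N) : G) = x ^ 2 := by
    intro x
    obtain ⟨n, hn, h1⟩ := hdiff x
    change ((x : G ⧸ N).out : G) ^ 2 = x ^ 2
    have h2 := mem_center_iff.mp (hN hn) x
    rw [h1, sq, sq]
    calc x * n * (x * n) = x * (n * x) * n := by group
      _ = x * x * (n ^ 2) := by rw [← h2, sq]; group
      _ = x * x := by rw [hN2 n hn, mul_one]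
  have hβm : ∀ x y : G, (β (x : G ⧸ N) (y : G ⧸ N) : G) = y * x * y⁻¹ * x⁻¹ := by
    intro x y
    obtain ⟨n, hn, h1⟩ := hdiff x
    obtain ⟨m, hm, h2⟩ := hdiff y
    change ((y : G ⧸ N).out : G) * ((x : G ⧸ N).out : G) * ((y : G ⧸ N).out : G)⁻¹ *
      ((x : G ⧸ N).out : G)⁻¹ = _
    rw [h1, h2]
    have hn' := mem_center_iff.mp (hN hn)
    have hm' := mem_center_iff.mp (hN hm)
    calc y * m * (x * n) * (y * m)⁻¹ * (x * n)⁻¹ = y * (m * x) * n * m⁻¹ * y⁻¹ * n⁻¹ * x⁻¹ := by group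
      _ = y * x * (m * n) * m⁻¹ * y⁻¹ * n⁻¹ * x⁻¹ := by rw [← hm' x]; group
      _ = y * x * n * y⁻¹ * n⁻¹ * x⁻¹ := by rw [hn' m]; group
      _ = y * x * (n * y⁻¹) * n⁻¹ * x⁻¹ := by group
      _ = y * x * y⁻¹ * x⁻¹ := by rw [← hn' y⁻¹]; group
  have hc : ∀ x y z : G, z * (x * y * x⁻¹ * y⁻¹) = (x * y * x⁻¹ * y⁻¹) * z := fun x y z =>
    mem_center_iff.mp (hHc (hcomm x y)) z
  obtain ⟨x, hx1, hx2⟩ := cw_mul (U := G ⧸ N) (W := H) (by
      intro u
      obtain ⟨u, rfl⟩ := QuotientGroup.mk_surjective u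
      rw [← QuotientGroup.mk_pow, QuotientGroup.eq_one_iff]
      exact hHN (hsq u))
    (by
      intro u
      exact Subtype.ext (hN2 _ (hHN u.2))) q
    (by
      apply Subtype.ext
      have := hqm 1
      rw [one_pow] at this
      exact this) β
    (by
      intro x y z
      obtain ⟨x, rfl⟩ := QuotientGroup.mk_surjective x
      obtain ⟨y, rfl⟩ := QuotientGroup.mk_surjective y
      obtain ⟨z, rfl⟩ := QuotientGroup.mk_surjective z
      apply Subtype.ext
      rw [← QuotientGroup.mk_mul, Subgroup.coe_mul, hβm, hβm, hβm]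
      calc z * (x * y) * z⁻¹ * (x * y)⁻¹ = z * x * z⁻¹ * (z * y * z⁻¹ * y⁻¹) * x⁻¹ := by group
        _ = z * x * z⁻¹ * (x⁻¹ * (z * y * z⁻¹ * y⁻¹)) := by rw [hc z y x⁻¹]; group
        _ = _ := by group)
    (by
      intro x y z
      obtain ⟨x, rfl⟩ := QuotientGroup.mk_surjective x
      obtain ⟨y, rfl⟩ := QuotientGroup.mk_surjective y
      obtain ⟨z, rfl⟩ := QuotientGroup.mk_surjective z
      apply Subtype.ext
      rw [← QuotientGroup.mk_mul, Subgroup.coe_mul, hβm, hβm, hβm]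
      calc y * z * x * (y * z)⁻¹ * x⁻¹ = y * (z * x * z⁻¹ * x⁻¹) * x * y⁻¹ * x⁻¹ := by group
        _ = (z * x * z⁻¹ * x⁻¹) * (y * x * y⁻¹ * x⁻¹) := by rw [hc z x y]; group
        _ = _ := (hc z x _).symm)
    (by
      intro x y
      obtain ⟨x, rfl⟩ := QuotientGroup.mk_surjective x
      obtain ⟨y, rfl⟩ := QuotientGroup.mk_surjective y
      apply Subtype.ext
      rw [← QuotientGroup.mk_mul, Subgroup.coe_mul, Subgroup.coe_mul, hβm, hqm, hqm, hqm]
      calc (x * y) ^ 2 = x * (y * x * y⁻¹ * x⁻¹) * (x * y * y) := by rw [sq]; group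
        _ = (y * x * y⁻¹ * x⁻¹) * x * (x * y * y) := by rw [hc y x x]
        _ = (y * x * y⁻¹ * x⁻¹) * (x * x * y * y) := by group
        _ = (x * x * y * y) * (y * x * y⁻¹ * x⁻¹) := (hc y x _).symm
        _ = _ := by rw [sq, sq]; group) (by
      rw [← Subgroup.index_eq_card]
      exact hcard)
  obtain ⟨x, rfl⟩ := QuotientGroup.mk_surjective x
  refine ⟨x, fun h => hx1 ((QuotientGroup.eq_one_iff _).mpr h), ?_⟩
  rw [← hqm, hx2]
  rfl

end Cfsg.Agent.H23
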