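import Mathlib
import Cfsg.Agent.H23.HHSemi

/-!
Shult-Gross: orbit sums of weight vectors and the abelian case.
-/

set_option linter.style.haveILetI false
set_option linter.unusedSectionVars false

namespace Cfsg.Agent.H23

open Module Subgroup

variable {K : Type*} [Field K] {Q : Type*} [Group Q] {V : Type*} [AddCommGroup V] [Module K V]

/-- if the weights of `u, Xu, …, X^(P-1)u` are distinct then their sum is nonzero -/
theorem orbit_sum_ne_zero (A : Set Q) (ρ : Q →* Module.End K V) (X : Module.End K V) {P : ℕ} (hP : 0 < P)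
    (χ : ℕ → Q → K) (hχ : ∀ i j, i < P → j < P → i ≠ j → ∃ a ∈ A, χ i a ≠ χ j a) {u : V} (hu : u ≠ 0)
    (hw : ∀ j < P, ∀ a ∈ A, ρ a ((X ^ j) u) = χ j a • (X ^ j) u) : ∑ j ∈ Finset.range P, (X ^ j) u ≠ 0 := by
  classical
  intro h0
  rw [Finset.sum_range] at h0
  have h1 := weight_indep (ι := Fin P) A ρ (fun j => χ j) (by
    intro i j hij
    exact hχ i j i.2 j.2 (fun h => hij (Fin.ext h))) Finset.univ
    (fun j : Fin P => (X ^ (j : ℕ)) u) (fun j _ a ha => hw j j.2 a ha) h0 ⟨0, hP⟩ (Finset.mem_univ _)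
  simp only [pow_zero, Module.End.one_apply] at h1
  exact hu h1

theorem sum_orbit_fixed (X : Module.End K V) {P : ℕ} {u : V} (h : (X ^ P) u = u) :
    X (∑ j ∈ Finset.range P, (X ^ j) u) = ∑ j ∈ Finset.range P, (X ^ j) u := by
  rw [map_sum]
  have h2 : ∀ j, X ((X ^ j) u) = (X ^ (j + 1)) u := by
    intro j
    rw [pow_succ', Module.End.mul_apply]
  simp only [h2]
  have h3 := Finset.sum_range_succ (fun j => (X ^ j) u) P
  have h4 := Finset.sum_range_succ' (fun j => (X ^ j) u) P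
  rw [h3] at h4
  rw [h, pow_zero] at h4
  exact (add_right_cancel h4).symm

theorem pow_mem_of_inv (X : Module.End K V) {U : Submodule K V} (hXU : ∀ u ∈ U, X u ∈ U) :
    ∀ (j : ℕ), ∀ w ∈ U, (X ^ j) w ∈ U := by
  intro j
  induction j with
  | zero => intro w hw; simpa using hw
  | succ j ih =>
    intro w hw
    rw [pow_succ', Module.End.mul_apply]
    exact hXU _ (ih w hw)

/-- If `X` has order dividing `p^(n+1)` and no fixed vectors on `U` then `x^(p^n)` centralizes every abelian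
invariant group of order prime to the characteristic. -/
theorem star_fpf [FiniteDimensional K V] [IsAlgClosed K] [Finite Q]
    (hcard : (Nat.card Q : K) ≠ 0) (A : Subgroup Q)
    (ρ : Q →* Module.End K V) {U : Submodule K V} (hinv : ∀ a ∈ A, ∀ u ∈ U, ρ a u ∈ U)
    (hcomm : ∀ a ∈ A, ∀ b ∈ A, ∀ u ∈ U, ρ a (ρ b u) = ρ b (ρ a u))
    (τ : MulAut Q) (hτA : ∀ a ∈ A, τ a ∈ A) (X : Module.End K V) (hX : ∀ u, X * ρ u = ρ (τ u) * X)
    {p n : ℕ} (hp : p.Prime) (hτN : τ ^ p ^ (n + 1) = 1) (hXN : X ^ p ^ (n + 1) = 1)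
    (hXU : ∀ u ∈ U, X u ∈ U) (hno : ∀ u ∈ U, X u = u → u = 0) :
    ∀ a ∈ A, ∀ u ∈ U, ρ ((τ ^ p ^ n) a) u = ρ a u := by
  classical
  by_contra hcon
  push Not at hcon
  obtain ⟨a, ha, w, hw, hne⟩ := hcon
  have hN : 0 < p ^ (n + 1) := pow_pos hp.pos _
  have hτpA : ∀ (j : ℕ), ∀ a ∈ A, (τ ^ j) a ∈ A := mulAut_pow_char τ A hτA
  have hτiA : ∀ (j : ℕ), ∀ a ∈ A, (τ ^ j)⁻¹ a ∈ A := by
    intro j a ha
    have h1 : (τ ^ j)⁻¹ = τ ^ (j * (p ^ (n + 1) - 1)) := by
      rw [inv_eq_iff_mul_eq_one, ← pow_add]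
      have : j + j * (p ^ (n + 1) - 1) = p ^ (n + 1) * j := by
        rw [Nat.mul_sub, mul_one]
        have : j ≤ j * p ^ (n + 1) := Nat.le_mul_of_pos_right _ hN
        rw [mul_comm (p ^ (n + 1)) j]
        omega
      rw [this, pow_mul, hτN, one_pow]
    rw [h1]
    exact hτpA _ a ha
  have hba : a⁻¹ * (τ ^ p ^ n) a ∈ A := A.mul_mem (A.inv_mem ha) (hτpA _ a ha)
  obtain ⟨v, χ, hvU, hv0, hχ, hχ1⟩ := exists_common_eigenvector_ne hcard (A : Set Q) ρ hinv hcomm
    (a₀ := a⁻¹ * (τ ^ p ^ n) a) hba hw (by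
      intro h
      apply hne
      have h1 := congrArg (ρ a) h
      rw [← Module.End.mul_apply, ← map_mul, mul_inv_cancel_left] at h1
      exact h1)
  have hχne : χ ((τ ^ p ^ n) a) ≠ χ a := by
    intro h
    apply hχ1
    have h1 : ρ ((τ ^ p ^ n) a) v = ρ a v := by rw [hχ _ (hτpA _ a ha), hχ a ha, h]
    have h2 : ρ (a⁻¹ * (τ ^ p ^ n) a) v = v := by
      rw [map_mul, Module.End.mul_apply, h1, ← Module.End.mul_apply, ← map_mul, inv_mul_cancel, map_one]
      rfl
    rw [hχ _ hba] at h2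
    have h3 : (χ (a⁻¹ * (τ ^ p ^ n) a) - 1) • v = 0 := by rw [sub_smul, h2, one_smul, sub_self]
    exact sub_eq_zero.mp ((smul_eq_zero.mp h3).resolve_right hv0)
  -- the weights of `X^j v`
  refine orbit_sum_ne_zero (A : Set Q) ρ X hN (fun j b => χ ((τ ^ j)⁻¹ b)) ?_ hv0 ?_
    (hno _ (U.sum_mem (fun j _ => pow_mem_of_inv X hXU j v hvU))
      (sum_orbit_fixed X (by rw [hXN, Module.End.one_apply])))
  · -- distinctness
    have hkey : ∀ d, 0 < d → d < p ^ (n + 1) → ∃ b ∈ A, χ ((τ ^ d) b) ≠ χ b := by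
      intro d hd0 hdN
      by_contra hcon
      push Not at hcon
      have h1 : ∀ (s : ℕ), ∀ b ∈ A, χ ((τ ^ (d * s)) b) = χ b := by
        intro s
        induction s with
        | zero => intro b _; simp
        | succ s ih =>
          intro b hb
          rw [mul_add, mul_one, pow_add, MulAut.mul_apply, ih _ (hτpA _ b hb), hcon b hb]
      obtain ⟨s, hs⟩ := exists_pow_eq hp hτN hd0 hdN
      exact hχne (by rw [← hs]; exact h1 s a ha)
    have hord : ∀ i j, i < j → j < p ^ (n + 1) → ∃ a ∈ (A : Set Q), χ ((τ ^ i)⁻¹ a) ≠ χ ((τ ^ j)⁻¹ a) := by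
      intro i j hij hj
      obtain ⟨b, hb, hbne⟩ := hkey (j - i) (by omega) (by omega)
      refine ⟨(τ ^ j) b, hτpA j b hb, ?_⟩
      have h1 : (τ ^ i)⁻¹ ((τ ^ j) b) = (τ ^ (j - i)) b := by
        rw [← MulAut.mul_apply]
        congr 1
        rw [inv_mul_eq_iff_eq_mul, ← pow_add]
        congr 1; omega
      rw [h1, MulAut.inv_apply_self]
      exact hbne
    intro i j hi hj hij
    rcases lt_or_gt_of_ne hij with h | h
    · exact hord i j h hj
    · obtain ⟨a, ha, hne⟩ := hord j i h hi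
      exact ⟨a, ha, hne.symm⟩
  · intro j _ b hb
    have h1 := congrArg (fun f : Module.End K V => f v) (intertwine_pow ρ τ X hX j ((τ ^ j)⁻¹ b))
    simp only [Module.End.mul_apply, MulAut.apply_inv_self] at h1
    rw [← h1, hχ _ (hτiA j b hb), map_smul]

end Cfsg.Agent.H23
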