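import Mathlib
import Cfsg.Agent.H23.SG1

/-!
Shult-Gross: the exceptional case `p^(m+1) = 2^d + 1` cannot occur.
-/

set_option linter.style.haveILetI false
set_option linter.unusedSectionVars false

namespace Cfsg.Agent.H23

open Module Subgroup

theorem dvd_of_fermat_dvd {d e : ℕ} (hd : 1 ≤ d) (h : (2 ^ d + 1) ∣ 2 ^ e - 1) : 2 * d ∣ e := by
  set M := 2 ^ d + 1 with hM
  have hd1 : 2 ≤ 2 ^ d := by
    calc 2 = 2 ^ 1 := (pow_one 2).symm
      _ ≤ 2 ^ d := Nat.pow_le_pow_right (by norm_num) hd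
  -- in ZMod M
  haveI : NeZero M := ⟨by omega⟩
  have h1 : (2 : ZMod M) ^ d = -1 := by
    have h2 : ((2 ^ d + 1 : ℕ) : ZMod M) = 0 := by rw [← hM]; exact ZMod.natCast_self M
    push_cast at h2
    exact eq_neg_of_add_eq_zero_left h2
  have h2 : (2 : ZMod M) ^ (2 * d) = 1 := by rw [mul_comm, pow_mul, h1]; ring
  have h3 : (2 : ZMod M) ^ e = 1 := by
    have h4 : ((2 ^ e - 1 : ℕ) : ZMod M) = 0 := (ZMod.natCast_eq_zero_iff _ _).mpr h
    rw [Nat.cast_sub Nat.one_le_two_pow] at h4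
    push_cast at h4
    exact sub_eq_zero.mp h4
  have h4 : (2 : ZMod M) ^ (e % (2 * d)) = 1 := by
    rw [← Nat.div_add_mod e (2 * d), pow_add, pow_mul, h2, one_pow, one_mul] at h3
    exact h3
  rw [Nat.dvd_iff_mod_eq_zero]
  set r := e % (2 * d) with hr
  have hrlt : r < 2 * d := Nat.mod_lt _ (by omega)
  by_contra hr0
  rcases Nat.lt_or_ge d r with hlt | hge
  · -- d < r < 2d
    have h5 : (2 : ZMod M) ^ r = - 2 ^ (r - d) := by
      have h6 : r = d + (r - d) := by omega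
      calc (2 : ZMod M) ^ r = 2 ^ (d + (r - d)) := by rw [← h6]
        _ = _ := by rw [pow_add, h1]; ring
    rw [h4] at h5
    have h6 : ((2 ^ (r - d) + 1 : ℕ) : ZMod M) = 0 := by
      push_cast
      rw [h5]; ring
    rw [ZMod.natCast_eq_zero_iff] at h6
    have h7 := Nat.le_of_dvd (Nat.succ_pos _) h6
    have h8 : 2 ^ (r - d) < 2 ^ d := Nat.pow_lt_pow_right (by norm_num) (by omega)
    omega
  · have h5 : ((2 ^ r - 1 : ℕ) : ZMod M) = 0 := by
      rw [Nat.cast_sub Nat.one_le_two_pow]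
      push_cast
      rw [h4, sub_self]
    rw [ZMod.natCast_eq_zero_iff] at h5
    have h6 : 2 ≤ 2 ^ r := by
      calc 2 = 2 ^ 1 := (pow_one 2).symm
        _ ≤ 2 ^ r := Nat.pow_le_pow_right (by norm_num) (by omega)
    have h7 := Nat.le_of_dvd (by omega) h5
    have h8 : 2 ^ r ≤ 2 ^ d := Nat.pow_le_pow_right (by norm_num) hge
    omega

theorem lte_bound {p : ℕ} (hp : p.Prime) (hp2 : p ≠ 2) {d m k e : ℕ} (hd : 1 ≤ d)
    (hpd : p ^ (m + 1) = 2 ^ d + 1) (he : 0 < e) (hdvd : p ^ (k + (m + 1)) ∣ 2 ^ e - 1) :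
    p ^ k * (2 * d) ≤ e := by
  haveI : Fact p.Prime := ⟨hp⟩
  have h1 : 2 * d ∣ e := by
    apply dvd_of_fermat_dvd hd
    rw [← hpd]
    exact (pow_dvd_pow p (Nat.le_add_left _ _)).trans hdvd
  obtain ⟨f, rfl⟩ := h1
  have hf : f ≠ 0 := by rintro rfl; simp at he
  have hd1 : 2 ≤ 2 ^ d := by
    calc 2 = 2 ^ 1 := (pow_one 2).symm
      _ ≤ 2 ^ d := Nat.pow_le_pow_right (by norm_num) hd
  have hpd1 : p ∣ 2 ^ d + 1 := by rw [← hpd]; exact dvd_pow_self p (Nat.succ_ne_zero m)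
  have hpn2 : ¬ p ∣ 2 := fun h => hp2 ((Nat.prime_dvd_prime_iff_eq hp Nat.prime_two).mp h)
  have hpn : ¬ p ∣ 2 ^ d - 1 := by
    intro h
    apply hpn2
    have h3 : 2 = (2 ^ d + 1) - (2 ^ d - 1) := by omega
    rw [h3]
    exact Nat.dvd_sub hpd1 h
  have hfac : 2 ^ (2 * d) - 1 = p ^ (m + 1) * (2 ^ d - 1) := by
    rw [hpd, mul_comm 2 d, pow_mul, ← Nat.sq_sub_sq, one_pow]
  have hv : padicValNat p (2 ^ (2 * d) - 1) = m + 1 := by
    rw [hfac, padicValNat.mul (pow_ne_zero _ hp.ne_zero) (by omega), padicValNat.prime_pow,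
      padicValNat.eq_zero_of_not_dvd hpn, add_zero]
  have hlte := padicValNat.pow_sub_pow (hp.odd_of_ne_two hp2) (x := 2 ^ (2 * d)) (y := 1)
    (by
      calc 1 < 2 := by norm_num
        _ ≤ 2 ^ d := hd1
        _ ≤ 2 ^ (2 * d) := Nat.pow_le_pow_right (by norm_num) (by omega))
    (by rw [hfac]; exact Dvd.dvd.mul_right (dvd_pow_self p (Nat.succ_ne_zero m)) _)
    (fun h => hpn2 (hp.dvd_of_dvd_pow h)) hf
  rw [one_pow, ← pow_mul, hv] at hlte
  have h2 : 2 ^ (2 * d * f) - 1 ≠ 0 := by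
    have : 2 ≤ 2 ^ (2 * d * f) := by
      calc 2 = 2 ^ 1 := (pow_one 2).symm
        _ ≤ _ := Nat.pow_le_pow_right (by norm_num) he
    omega
  rw [padicValNat_dvd_iff_le h2, hlte] at hdvd
  have h3 : p ^ k ∣ f := by
    rw [padicValNat_dvd_iff_le hf]
    omega
  have h4 := Nat.le_of_dvd (Nat.pos_of_ne_zero hf) h3
  calc p ^ k * (2 * d) ≤ f * (2 * d) := Nat.mul_le_mul_right _ h4
    _ = _ := by ring

theorem nrm_fixed {Q : Type*} [Group Q] (τ : MulAut Q) {M : ℕ} (hτM : τ ^ M = 1) {z : Q}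
    (hc : ∀ i j : ℕ, (τ ^ i) z * (τ ^ j) z = (τ ^ j) z * (τ ^ i) z) : τ (nrm τ M z) = nrm τ M z := by
  have hcn : ∀ k j : ℕ, nrm τ k z * (τ ^ j) z = (τ ^ j) z * nrm τ k z := by
    intro k
    induction k with
    | zero => intro j; simp [nrm]
    | succ k ih =>
      intro j
      rw [nrm, mul_assoc, hc k j, ← mul_assoc, ih, mul_assoc]
  have h1 : ∀ k : ℕ, z * τ (nrm τ k z) = nrm τ (k + 1) z := by
    intro k
    induction k with
    | zero => simp [nrm]
    | succ k ih =>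
      have h2 : τ ((τ ^ k) z) = (τ ^ (k + 1)) z := by rw [pow_succ', MulAut.mul_apply]
      rw [nrm, map_mul, ← mul_assoc, ih, h2]
      rfl
  have h2 := h1 M
  rw [nrm, hτM, MulAut.one_apply] at h2
  have h3 := hcn M 0
  rw [pow_zero, MulAut.one_apply] at h3
  rw [h3] at h2
  exact mul_left_cancel h2

theorem exceptional_false {K : Type*} [Field K] {Q : Type*} [Group Q] [Finite Q] {s : ℕ} (hQ2 : Nat.card Q = 2 ^ s)
    (τ : MulAut Q) {p n : ℕ} (hp : p.Prime) (hp2 : p ≠ 2) (hτN : τ ^ p ^ (n + 1) = 1)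
    (hfix : ∀ u, τ u = u → u = 1) (hQ : ∀ a b : Q, a * b * a⁻¹ * b⁻¹ ∈ center Q)
    (hC : ∀ u, (τ ^ p ^ n) u = u ↔ u ∈ center Q) (hna : center Q ≠ ⊤)
    (hirr : ∀ U : Subgroup Q, center Q ≤ U → (∀ u ∈ U, τ u ∈ U) → U = center Q ∨ U = ⊤)
    (μ : Q → K) (hμ1 : μ 1 = 1) (hμm : ∀ z ∈ center Q, ∀ z' ∈ center Q, μ (z * z') = μ z * μ z')
    {k m : ℕ} (hkm : k + (m + 1) = n + 1) (hP : ∀ z ∈ center Q, μ ((τ ^ p ^ k) z) = μ z)
    (Y : Subgroup Q) (hYtop : Y ≠ ⊤) (hY : ∀ u, u ∈ Y ↔ ∀ t, μ (u * t * u⁻¹ * t⁻¹) = 1)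
    {d : ℕ} (hd : 1 ≤ d) (hYi : Y.index = (2 ^ d) ^ 2) (hpd : p ^ (m + 1) = 2 ^ d + 1) : False := by
  classical
  have hcop : (Nat.card Q).Coprime p := by
    rw [hQ2]
    exact Nat.Coprime.pow_left _ ((Nat.coprime_primes Nat.prime_two hp).mpr (Ne.symm hp2))
  have hyp : (τ ^ p ^ n) ^ p = 1 := by rw [← pow_mul, ← pow_succ, hτN]
  have hN : 0 < p ^ (n + 1) := pow_pos hp.pos _
  have hP0 : 0 < p ^ k := pow_pos hp.pos _
  have hτZ : ∀ z ∈ center Q, τ z ∈ center Q := by
    intro z hz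
    rw [mem_center_iff] at hz ⊢
    intro g
    have := hz (τ.symm g)
    have h2 := congrArg τ this
    simpa using h2
  have hτpZ : ∀ (j : ℕ), ∀ z ∈ center Q, (τ ^ j) z ∈ center Q := mulAut_pow_char τ (center Q) hτZ
  -- the index of the centre
  have hfree : ∀ i : ℕ, 0 < i → i < p ^ (n + 1) → ∀ u, (τ ^ i) u * u⁻¹ ∈ center Q → u ∈ center Q := by
    intro i hi0 hi u hu
    obtain ⟨s, hs⟩ := exists_pow_eq hp hτN hi0 hi
    have h1 : ∀ s : ℕ, (τ ^ (i * s)) u * u⁻¹ ∈ center Q := by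
      intro s
      induction s with
      | zero => simp [(center Q).one_mem]
      | succ s ih =>
        have h2 : (τ ^ (i * (s + 1))) u * u⁻¹ = (τ ^ (i * s)) ((τ ^ i) u * u⁻¹) * ((τ ^ (i * s)) u * u⁻¹) := by
          rw [mul_add, mul_one, pow_add, MulAut.mul_apply, map_mul, map_inv]
          group
        rw [h2]
        exact (center Q).mul_mem (mulAut_pow_char τ (center Q) hτZ _ _ hu) ih
    have h2 := h1 s
    rw [hs] at h2
    apply mem_center_of_quot hcop hyp hC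
    have h3 := (inferInstance : (center Q).Normal).conj_mem _ h2 u⁻¹
    have h4 : u⁻¹ * ((τ ^ p ^ n) u * u⁻¹) * u⁻¹⁻¹ = u⁻¹ * (τ ^ p ^ n) u := by group
    rwa [h4] at h3
  obtain ⟨m', R, hm', _⟩ := exists_orbit_reps (center Q) τ hτZ hN hτN hfree hna
  obtain ⟨e, _, he⟩ := (Nat.dvd_prime_pow Nat.prime_two).mp (hQ2 ▸ (center Q).index_dvd_card)
  have he0 : 0 < e := by
    rcases Nat.eq_zero_or_pos e with h | h
    · rw [h, pow_zero] at he
      exact absurd (Subgroup.index_eq_one.mp he) hna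
    · exact h
  have hdvd : p ^ (k + (m + 1)) ∣ 2 ^ e - 1 := by
    rw [hkm]
    rw [he] at hm'
    have h1 : 1 ≤ 2 ^ e := Nat.one_le_two_pow
    have h2 : 1 ≤ m' := by
      rcases Nat.eq_zero_or_pos m' with h | h
      · rw [h, mul_zero] at hm'; omega
      · exact h
    refine ⟨m' - 1, ?_⟩
    rw [Nat.mul_sub, mul_one, hm']
    omega
  have hbound := lte_bound hp hp2 hd hpd he0 hdvd
  -- Y is invariant under τ^P
  have hZY : center Q ≤ Y := by
    intro z hz
    rw [hY]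
    intro t
    have : z * t * z⁻¹ * t⁻¹ = 1 := by
      rw [mul_inv_eq_one, mul_inv_eq_iff_eq_mul]
      exact (mem_center_iff.mp hz t).symm
    rw [this, hμ1]
  have hYP : ∀ u ∈ Y, (τ ^ p ^ k) u ∈ Y := by
    intro u hu
    rw [hY] at hu ⊢
    intro t
    obtain ⟨t', rfl⟩ := (τ ^ p ^ k).surjective t
    have h1 := hP _ (hQ u t')
    rw [hu t', map_mul, map_mul, map_mul, map_inv, map_inv] at h1
    exact h1
  -- the intersection
  set I : Subgroup Q := ⨅ j : Fin (p ^ k - 1), Y.comap ((τ ^ ((j : ℕ) + 1) : MulAut Q).toMonoidHom) with hI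
  have hImem : ∀ u, u ∈ I ↔ ∀ j, 0 < j → j < p ^ k → (τ ^ j) u ∈ Y := by
    intro u
    rw [hI, mem_iInf]
    constructor
    · intro h j hj0 hj
      have h1 := h ⟨j - 1, by omega⟩
      rw [mem_comap] at h1
      have h2 : j - 1 + 1 = j := by omega
      simp only [h2] at h1
      exact h1
    · intro h j
      rw [mem_comap]
      exact h _ (by omega) (by omega)
  have hIindex : I.index ≤ ((2 ^ d) ^ 2) ^ (p ^ k - 1) := by
    have h1 := Subgroup.index_iInf_le
      (fun j : Fin (p ^ k - 1) => Y.comap ((τ ^ ((j : ℕ) + 1) : MulAut Q).toMonoidHom))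
    have h2 : ∀ j : Fin (p ^ k - 1), (Y.comap ((τ ^ ((j : ℕ) + 1) : MulAut Q).toMonoidHom)).index = (2 ^ d) ^ 2 := by
      intro j
      rw [← hYi]
      exact Subgroup.index_comap_of_surjective Y (MulEquiv.surjective _)
    simp only [h2, Finset.prod_const, Finset.card_univ, Fintype.card_fin] at h1
    exact h1
  by_cases hIY : I ≤ Y
  · have hτI : ∀ u ∈ I, τ u ∈ I := by
      intro u hu
      have huY := hIY hu
      rw [hImem] at hu ⊢
      intro j hj0 hj
      have h1 : (τ ^ j) (τ u) = (τ ^ (j + 1)) u := by rw [pow_succ, MulAut.mul_apply]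
      rw [h1]
      rcases Nat.lt_or_ge (j + 1) (p ^ k) with h | h
      · exact hu _ (by omega) h
      · have h2 : j + 1 = p ^ k := by omega
        rw [h2]
        exact hYP u huY
    have hZI : center Q ≤ I := by
      intro z hz
      rw [hImem]
      intro j _ _
      exact hZY (hτpZ j z hz)
    rcases hirr I hZI hτI with h | h
    · rw [h, he, ← pow_mul, ← pow_mul] at hIindex
      have h1 := (Nat.pow_le_pow_iff_right (by norm_num : 1 < 2)).mp hIindex
      have h2 : d * (2 * (p ^ k - 1)) < p ^ k * (2 * d) := by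
        obtain ⟨P', hP'⟩ : ∃ P', p ^ k = P' + 1 := ⟨p ^ k - 1, by omega⟩
        rw [hP', Nat.add_sub_cancel]
        nlinarith
      omega
    · rw [h] at hIY
      exact hYtop (eq_top_iff.mpr hIY)
  · obtain ⟨x, hxI, hxY⟩ := SetLike.not_le_iff_exists.mp hIY
    rw [hY] at hxY
    push Not at hxY
    obtain ⟨t, ht⟩ := hxY
    rw [hImem] at hxI
    set z := x * t * x⁻¹ * t⁻¹ with hz
    have hzZ : z ∈ center Q := hQ x t
    have hz1 : ∀ j, 0 < j → j < p ^ k → μ ((τ ^ j) z) = 1 := by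
      intro j hj0 hj
      have h1 := hxI j hj0 hj
      rw [hY] at h1
      have h2 := h1 ((τ ^ j) t)
      rw [hz, map_mul, map_mul, map_mul, map_inv, map_inv]
      exact h2
    have hper : ∀ q : ℕ, ∀ w ∈ center Q, μ ((τ ^ (p ^ k * q)) w) = μ w := by
      intro q
      induction q with
      | zero => intro w _; simp
      | succ q ih =>
        intro w hw
        rw [mul_add, mul_one, pow_add, MulAut.mul_apply, ih _ (hτpZ _ w hw), hP w hw]
    have hnZ : ∀ j, nrm τ j z ∈ center Q := by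
      intro j
      induction j with
      | zero => exact (center Q).one_mem
      | succ j ih => exact (center Q).mul_mem ih (hτpZ j z hzZ)
    have hblock : ∀ q : ℕ, μ (nrm τ (p ^ k * q) z) = μ z ^ q := by
      intro q
      induction q with
      | zero => simp [nrm, hμ1]
      | succ q ih =>
        have h1 : ∀ j, j < p ^ k → μ (nrm τ (p ^ k * q + (j + 1)) z) = μ z ^ (q + 1) := by
          intro j
          induction j with
          | zero =>
            intro _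
            rw [zero_add, nrm, hμm _ (hnZ _) _ (hτpZ _ z hzZ), ih, hper q z hzZ, pow_succ]
          | succ j ihj =>
            intro hj
            rw [← add_assoc (p ^ k * q), nrm, hμm _ (hnZ _) _ (hτpZ _ z hzZ), ihj (by omega), pow_add τ,
              MulAut.mul_apply, hper q _ (hτpZ _ z hzZ), hz1 (j + 1) (by omega) hj, mul_one]
        have h2 := h1 (p ^ k - 1) (by omega)
        have h3 : p ^ k - 1 + 1 = p ^ k := by omega
        rw [h3] at h2
        rw [mul_add, mul_one]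
        exact h2
    have hnfix := nrm_fixed τ (M := p ^ (n + 1)) hτN (z := z) (by
      intro i j
      exact (mem_center_iff.mp (hτpZ j z hzZ) _))
    have h1 := hfix _ hnfix
    have h2 := hblock (p ^ (m + 1))
    rw [← pow_add, hkm, h1, hμ1] at h2
    have h3 : μ z ^ (2 ^ s) = 1 := by
      have h4 : ∀ j : ℕ, μ (z ^ j) = μ z ^ j := by
        intro j
        induction j with
        | zero => simp [hμ1]
        | succ j ih => rw [pow_succ, hμm _ ((center Q).pow_mem hzZ j) _ hzZ, ih, pow_succ]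
      rw [← h4, ← hQ2, pow_card_eq_one', hμ1]
    have h4 : orderOf (μ z) ∣ Nat.gcd (p ^ (m + 1)) (2 ^ s) :=
      Nat.dvd_gcd (orderOf_dvd_of_pow_eq_one h2.symm) (orderOf_dvd_of_pow_eq_one h3)
    have h5 : Nat.gcd (p ^ (m + 1)) (2 ^ s) = 1 :=
      Nat.Coprime.pow _ _ ((Nat.coprime_primes hp Nat.prime_two).mpr hp2)
    rw [h5, Nat.dvd_one, orderOf_eq_one_iff] at h4
    exact ht h4

end Cfsg.Agent.H23
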