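import Mathlib

/-!
Irreducible operators over a prime field preserving a nondegenerate pairing.
-/

set_option linter.style.haveILetI false

namespace Cfsg.Agent.H23

open Polynomial

/-- roots of the minimal polynomial of an irreducible operator: if `T` is irreducible over `ZMod p` and
`minpoly T` vanishes at `T ^ k`, then `T ^ k = T ^ (p ^ j)` for some `j`. -/
theorem pow_eq_frobenius_of_irr {p : ℕ} [hp : Fact p.Prime] {W : Type*} [AddCommGroup W]
    [Module (ZMod p) W] [Finite W] [Nontrivial W] (T : Module.End (ZMod p) W)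
    (hirr : ∀ S : Submodule (ZMod p) W, (∀ v ∈ S, T v ∈ S) → S = ⊥ ∨ S = ⊤) (k : ℕ)
    (hk : aeval (T ^ k) (minpoly (ZMod p) T) = 0) : ∃ j, T ^ k = T ^ (p ^ j) := by
  classical
  haveI : Module.Finite (ZMod p) W := Module.Finite.of_finite
  set m := minpoly (ZMod p) T with hm
  have hint : IsIntegral (ZMod p) T := Algebra.IsIntegral.isIntegral T
  have hmonic : m.Monic := minpoly.monic hint
  -- kernel of polynomials are invariant
  have hker : ∀ f : (ZMod p)[X], aeval T f = 0 ∨ Function.Injective (aeval T f) := by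
    intro f
    rcases hirr (LinearMap.ker (aeval T f)) (by
      intro v hv
      rw [LinearMap.mem_ker] at hv ⊢
      have h1 : (aeval T f) * T = T * (aeval T f) := by
        have h3 : (aeval T f) * (aeval T (X : (ZMod p)[X])) = (aeval T (X : (ZMod p)[X])) * aeval T f := by
          rw [← map_mul, ← map_mul, mul_comm]
        rwa [aeval_X] at h3
      have h4 : (aeval T f) (T v) = T ((aeval T f) v) := by
        have := congrArg (fun (g : Module.End (ZMod p) W) => g v) h1
        simpa using this
      rw [h4, hv, map_zero]) with h | h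
    · right
      exact LinearMap.ker_eq_bot.mp h
    · left
      exact LinearMap.ker_eq_top.mp h
  have hirrm : Irreducible m := by
    rw [Polynomial.Monic.irreducible_iff_natDegree' hmonic]
    refine ⟨?_, ?_⟩
    · intro h1
      have h2 : aeval T m = 0 := minpoly.aeval _ _
      rw [h1, map_one] at h2
      exact one_ne_zero h2
    · intro f g hf hg hfg h1
      rw [Finset.mem_Ioc] at h1
      have hm0 : aeval T m = 0 := minpoly.aeval _ _
      have h2 : aeval T f * aeval T g = 0 := by
        rw [← map_mul, hfg, hm0]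
      have hdeg : m.natDegree = f.natDegree + g.natDegree := by
        rw [← hfg, hf.natDegree_mul hg]
      have hmin : ∀ q : (ZMod p)[X], q.Monic → aeval T q = 0 → m.natDegree ≤ q.natDegree := by
        intro q hq hq0
        exact Polynomial.natDegree_le_natDegree (minpoly.min (ZMod p) T hq hq0)
      rcases hker f with h3 | h3
      · have := hmin f hf h3
        omega
      · have h4 : aeval T g = 0 := by
          apply LinearMap.ext
          intro v
          apply h3
          have h5 := congrArg (fun (g : Module.End (ZMod p) W) => g v) h2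
          simpa using h5
        have := hmin g hg h4
        omega
  haveI : Fact (Irreducible m) := ⟨hirrm⟩
  haveI hfin : Module.Finite (ZMod p) (AdjoinRoot m) := hmonic.finite_adjoinRoot
  haveI : Finite (AdjoinRoot m) := Module.finite_of_finite (ZMod p)
  set r := AdjoinRoot.root m with hr
  have hminr : minpoly (ZMod p) r = m := by
    rw [hr, AdjoinRoot.minpoly_root hmonic.ne_zero, hmonic.leadingCoeff, inv_one, C_1, mul_one]
  have hroot : aeval (r ^ k) m = 0 := by
    have h1 : m ∣ m.comp (X ^ k) := by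
      apply minpoly.dvd
      rw [Polynomial.aeval_comp, map_pow, aeval_X, hk]
    have h2 : aeval r (m.comp (X ^ k)) = 0 := by
      obtain ⟨g, hg⟩ := h1
      rw [hg, map_mul]
      have : aeval r m = 0 := by
        have h3 := minpoly.aeval (ZMod p) r
        rwa [hminr] at h3
      rw [this, zero_mul]
    rw [Polynomial.aeval_comp, map_pow, aeval_X] at h2
    exact h2
  have hconj : IsConjRoot (ZMod p) r (r ^ k) := by
    apply isConjRoot_of_aeval_eq_zero (Algebra.IsIntegral.isIntegral r)
    rw [hminr]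
    exact hroot
  obtain ⟨σ, hσ⟩ := hconj.exists_algEquiv
  obtain ⟨j, hj⟩ := (FiniteField.bijective_frobeniusAlgEquivOfAlgebraic_pow (ZMod p) (AdjoinRoot m)).2 σ.symm
  have hpow : ∀ (i : ℕ) (x : AdjoinRoot m),
      ((FiniteField.frobeniusAlgEquivOfAlgebraic (ZMod p) (AdjoinRoot m)) ^ i) x = x ^ (p ^ i) := by
    intro i
    induction i with
    | zero => intro x; simp
    | succ i ih =>
      intro x
      rw [pow_succ', AlgEquiv.mul_apply, ih]
      simp only [FiniteField.coe_frobeniusAlgEquivOfAlgebraic, ZMod.card]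
      rw [← pow_mul, ← pow_succ]
  have h1 : r ^ (p ^ (j : ℕ)) = r ^ k := by
    rw [← hpow]
    have h2 := congrArg (fun (g : AdjoinRoot m ≃ₐ[ZMod p] AdjoinRoot m) => g r) hj
    simp only at h2
    rw [h2, AlgEquiv.symm_apply_eq, hσ]
  refine ⟨j, ?_⟩
  have h2 : (AdjoinRoot.mk m) (X ^ k) = (AdjoinRoot.mk m) (X ^ (p ^ (j : ℕ))) := by
    rw [map_pow, map_pow, AdjoinRoot.mk_X, ← hr, h1]
  rw [AdjoinRoot.mk_eq_mk] at h2
  obtain ⟨g, hg⟩ := h2
  have h3 := congrArg (aeval T) hg
  rw [map_mul, minpoly.aeval, zero_mul, map_sub, map_pow, map_pow, aeval_X, sub_eq_zero] at h3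
  exact h3

/-- An irreducible operator `T` of finite order over `ZMod p` preserving a pairing with trivial right
radical satisfies `T ^ (p ^ j + 1) = 1` for some `j`. -/
theorem exists_pow_add_one_eq_one_of_irr {p : ℕ} [hp : Fact p.Prime] {W Y : Type*} [AddCommGroup W]
    [Module (ZMod p) W] [Finite W] [Nontrivial W] [AddCommGroup Y] [Module (ZMod p) Y]
    (T : Module.End (ZMod p) W)
    (hirr : ∀ S : Submodule (ZMod p) W, (∀ v ∈ S, T v ∈ S) → S = ⊥ ∨ S = ⊤)
    (B : W →ₗ[ZMod p] W →ₗ[ZMod p] Y) (hT : ∀ v w, B (T v) (T w) = B v w)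
    (hnd : ∀ w, (∀ v, B v w = 0) → w = 0) {h : ℕ} (hh : 0 < h) (hord : T ^ h = 1) :
    ∃ j, T ^ (p ^ j + 1) = 1 := by
  set S := T ^ (h - 1) with hS
  have hST : S * T = 1 := by
    rw [hS, ← pow_succ, Nat.sub_add_cancel hh, hord]
  have hTS : T * S = 1 := by
    rw [hS, ← pow_succ', Nat.sub_add_cancel hh, hord]
  have hTS' : ∀ w, T (S w) = w := by
    intro w
    have := congrArg (fun (g : Module.End (ZMod p) W) => g w) hTS
    simpa using this
  have hadj : ∀ v w, B (T v) w = B v (S w) := by
    intro v w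
    conv_lhs => rw [← hTS' w]
    exact hT v (S w)
  have hadjpow : ∀ (i : ℕ) v w, B ((T ^ i) v) w = B v ((S ^ i) w) := by
    intro i
    induction i with
    | zero => intro v w; simp
    | succ i ih =>
      intro v w
      rw [pow_succ, Module.End.mul_apply, ih, hadj, pow_succ', Module.End.mul_apply]
  have hadjpoly : ∀ (f : (ZMod p)[X]) v w, B ((aeval T f) v) w = B v ((aeval S f) w) := by
    intro f v w
    induction f using Polynomial.induction_on' with
    | add f g hf hg =>
      rw [map_add, map_add, LinearMap.add_apply, map_add, LinearMap.add_apply, hf, hg,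
        LinearMap.add_apply, map_add]
    | monomial n a =>
      rw [aeval_monomial, aeval_monomial, Module.End.mul_apply, Module.End.mul_apply,
        Module.algebraMap_end_apply, Module.algebraMap_end_apply, map_smul, LinearMap.smul_apply,
        map_smul, hadjpow]
  have hk : aeval (T ^ (h - 1)) (minpoly (ZMod p) T) = 0 := by
    apply LinearMap.ext
    intro w
    apply hnd
    intro v
    rw [← hS, ← hadjpoly, minpoly.aeval]
    simp
  obtain ⟨j, hj⟩ := pow_eq_frobenius_of_irr T hirr (h - 1) hk
  refine ⟨j, ?_⟩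
  rw [pow_succ, ← hj, ← hS, hST]

/-- additive group version of `exists_pow_add_one_eq_one_of_irr` -/
theorem exists_iterate_eq_self_of_irr_aux {p : ℕ} [hp : Fact p.Prime] {W Y : Type*} [AddCommGroup W]
    [Finite W] [Nontrivial W] [AddCommGroup Y] [Module (ZMod p) W] [Module (ZMod p) Y]
    (τ : W →+ W) (hirr : ∀ S : AddSubgroup W, (∀ s ∈ S, τ s ∈ S) → S = ⊥ ∨ S = ⊤)
    (β : W →+ W →+ Y) (hτ : ∀ v w, β (τ v) (τ w) = β v w) (hnd : ∀ w, (∀ v, β v w = 0) → w = 0)
    {h : ℕ} (hh : 0 < h) (hord : ∀ w, τ^[h] w = w) : ∃ j : ℕ, ∀ w, τ^[p ^ j + 1] w = w := by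
  let βl : W →ₗ[ZMod p] W →ₗ[ZMod p] Y :=
    LinearMap.mk₂ (ZMod p) (fun v w => β v w)
      (by intro v v' w; rw [map_add]; rfl)
      (by
        intro c v w
        exact ZMod.map_smul ((AddMonoidHom.eval w).comp β) c v)
      (by intro v w w'; rw [map_add])
      (by
        intro c v w
        exact ZMod.map_smul (β v) c w)
  let T : Module.End (ZMod p) W := AddMonoidHom.toZModLinearMap p τ
  have hTpow : ∀ (i : ℕ) (w : W), (T ^ i) w = τ^[i] w := by
    intro i
    induction i with
    | zero => intro w; rfl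
    | succ i ih =>
      intro w
      rw [pow_succ, Module.End.mul_apply, Function.iterate_succ_apply]
      exact ih (τ w)
  obtain ⟨j, hj⟩ := exists_pow_add_one_eq_one_of_irr (p := p) T (by
    intro S hS
    rcases hirr S.toAddSubgroup (fun s hs => hS s hs) with h1 | h1
    · left
      rw [Submodule.eq_bot_iff]
      intro x hx
      have h2 : x ∈ S.toAddSubgroup := hx
      rw [h1, AddSubgroup.mem_bot] at h2
      exact h2
    · right
      rw [Submodule.eq_top_iff']
      intro x
      have h2 : x ∈ S.toAddSubgroup := by rw [h1]; exact AddSubgroup.mem_top _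
      exact h2) βl hτ hnd hh
    (by
      apply LinearMap.ext
      intro w
      rw [hTpow, hord]
      rfl)
  refine ⟨j, ?_⟩
  intro w
  rw [← hTpow, hj]
  rfl

theorem exists_iterate_eq_self_of_irr_add {p : ℕ} [hp : Fact p.Prime] {W Y : Type*} [AddCommGroup W]
    [Finite W] [Nontrivial W] [AddCommGroup Y] (hW : ∀ x : W, p • x = 0) (hY : ∀ y : Y, p • y = 0)
    (τ : W →+ W) (hirr : ∀ S : AddSubgroup W, (∀ s ∈ S, τ s ∈ S) → S = ⊥ ∨ S = ⊤)
    (β : W →+ W →+ Y) (hτ : ∀ v w, β (τ v) (τ w) = β v w) (hnd : ∀ w, (∀ v, β v w = 0) → w = 0)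
    {h : ℕ} (hh : 0 < h) (hord : ∀ w, τ^[h] w = w) : ∃ j : ℕ, ∀ w, τ^[p ^ j + 1] w = w := by
  letI m1 : Module (ZMod p) W := AddCommGroup.zmodModule hW
  letI m2 : Module (ZMod p) Y := AddCommGroup.zmodModule hY
  exact exists_iterate_eq_self_of_irr_aux τ hirr β hτ hnd hh hord

/-- multiplicative version of `exists_pow_add_one_eq_one_of_irr` -/
theorem exists_iterate_eq_self_of_irr {p : ℕ} [hp : Fact p.Prime] {W Y : Type*} [CommGroup W]
    [Finite W] [Nontrivial W] [CommGroup Y] (hW : ∀ x : W, x ^ p = 1) (hY : ∀ y : Y, y ^ p = 1)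
    (τ : W →* W) (hirr : ∀ S : Subgroup W, (∀ s ∈ S, τ s ∈ S) → S = ⊥ ∨ S = ⊤)
    (β : W →* W →* Y) (hτ : ∀ v w, β (τ v) (τ w) = β v w) (hnd : ∀ w, (∀ v, β v w = 1) → w = 1)
    {h : ℕ} (hh : 0 < h) (hord : ∀ w, τ^[h] w = w) : ∃ j : ℕ, ∀ w, τ^[p ^ j + 1] w = w := by
  obtain ⟨j, hj⟩ := exists_iterate_eq_self_of_irr_add (p := p) (W := Additive W) (Y := Additive Y)
    (fun x => congrArg Additive.ofMul (hW x.toMul)) (fun x => congrArg Additive.ofMul (hY x.toMul))
    (MonoidHom.toAdditive τ)
    (by
      intro S hS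
      rcases hirr S.toSubgroup' (fun s hs => hS (Additive.ofMul s) hs) with h1 | h1
      · left
        rw [AddSubgroup.eq_bot_iff_forall]
        intro x hx
        have h2 : x.toMul ∈ S.toSubgroup' := hx
        rw [h1, Subgroup.mem_bot] at h2
        exact congrArg Additive.ofMul h2
      · right
        rw [AddSubgroup.eq_top_iff']
        intro x
        have h2 : x.toMul ∈ S.toSubgroup' := by rw [h1]; exact Subgroup.mem_top _
        exact h2)
    (AddMonoidHom.mk' (fun v => MonoidHom.toAdditive (β v.toMul)) (by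
      intro a b
      apply AddMonoidHom.ext
      intro x
      change Additive.ofMul (β (a.toMul * b.toMul) x.toMul) = _
      rw [map_mul]
      rfl))
    (fun v w => congrArg Additive.ofMul (hτ v.toMul w.toMul))
    (fun w hw => congrArg Additive.ofMul
      (hnd w.toMul (fun v => congrArg Additive.toMul (hw (Additive.ofMul v))))) hh
    (fun w => hord w.toMul)
  exact ⟨j, fun w => hj (Additive.ofMul w)⟩

end Cfsg.Agent.H23
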