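import Mathlib
import Cfsg.Agent.H23.SelfDual
import Cfsg.Agent.H13.Extra
import Cfsg.Agent.H24.SubgroupCount

/-!
Cyclic p'-groups acting on extraspecial p-groups so that each nontrivial element has fixed points exactly the
centre.
-/

set_option linter.style.haveILetI false

namespace Cfsg.Agent.H23

open Subgroup
open scoped Pointwise commutatorElement

/-- a group automorphism acting freely (outside the centre): orbits have length the order -/
theorem orderOf_dvd_of_free {Q : Type*} [Group Q] [Finite Q] (φ : MulAut Q)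
    (hfix : ∀ i : ℕ, φ ^ i ≠ 1 → ∀ q, (φ ^ i) q = q → q ∈ center Q) (X : Set Q)
    (hX : ∀ x ∈ X, φ x ∈ X) (hXZ : ∀ x ∈ X, x ∉ center Q) : orderOf φ ∣ Nat.card X := by
  classical
  have hpow : ∀ i : ℕ, ∀ x ∈ X, (φ ^ i) x ∈ X := by
    intro i
    induction i with
    | zero => intro x hx; simpa using hx
    | succ i ih =>
      intro x hx
      rw [pow_succ', MulAut.mul_apply]
      exact hX _ (ih x hx)
  have hz : ∀ g ∈ zpowers φ, ∀ x ∈ X, g x ∈ X := by
    intro g hg x hx
    rw [← mem_powers_iff_mem_zpowers] at hg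
    obtain ⟨i, hi⟩ := hg
    change φ ^ i = g at hi
    rw [← hi]
    exact hpow i x hx
  let act : SubMulAction (zpowers φ) Q :=
    { carrier := X
      smul_mem' := fun g x hx => hz g.1 g.2 x hx }
  have h1 : orderOf φ ∣ Nat.card act := by
    apply H24.dvd_card_of_orbits (G := zpowers φ)
    intro x
    have h2 : MulAction.stabilizer (zpowers φ) x = ⊥ := by
      rw [eq_bot_iff]
      intro g hg
      rw [MulAction.mem_stabilizer_iff] at hg
      rw [mem_bot]
      have hg2 := g.2
      rw [← mem_powers_iff_mem_zpowers] at hg2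
      obtain ⟨i, hi⟩ := hg2
      change φ ^ i = g at hi
      by_contra hne
      have hne' : φ ^ i ≠ 1 := by
        intro h3
        apply hne
        ext1
        rw [← hi, h3]
        rfl
      have hx : (φ ^ i) (x : Q) = (x : Q) := by
        have h4 := congrArg (fun (y : act) => (y : Q)) hg
        rw [hi]
        exact h4
      exact hXZ x.1 x.2 (hfix i hne' _ hx)
    have h3 := MulAction.index_stabilizer (zpowers φ) x
    rw [h2, Subgroup.index_bot, Nat.card_zpowers] at h3
    rw [h3]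
    exact dvd_of_eq (Nat.card_coe_set_eq _).symm
  exact h1

theorem dvd_pow_add_or_sub {p h n j : ℕ} [hp : Fact p.Prime] (hcop : h.Coprime p) (hj : h ∣ p ^ j + 1)
    (hn : h ∣ p ^ (2 * n) - 1) : h ∣ p ^ n + 1 ∨ h ∣ p ^ n - 1 := by
  by_cases h2 : h ∣ 2
  · left
    rcases (Nat.dvd_prime Nat.prime_two).mp h2 with h1 | h1
    · rw [h1]; exact one_dvd _
    · have hodd : Odd p := by
        rw [h1] at hcop
        exact hcop.odd_of_left
      rw [h1]
      exact (hodd.pow.add_one).two_dvd
  · have hpos : ∀ i, 1 ≤ p ^ i := fun i => Nat.one_le_pow _ _ hp.out.pos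
    set u : ZMod h := (p : ZMod h) with hu
    have hj' : u ^ j = -1 := by
      have h1 : ((p ^ j + 1 : ℕ) : ZMod h) = 0 := (ZMod.natCast_eq_zero_iff _ _).mpr hj
      push_cast at h1
      rw [← hu] at h1
      exact eq_neg_of_add_eq_zero_left h1
    have hn' : u ^ (2 * n) = 1 := by
      have h1 : ((p ^ (2 * n) - 1 : ℕ) : ZMod h) = 0 := (ZMod.natCast_eq_zero_iff _ _).mpr hn
      rw [Nat.cast_sub (hpos _)] at h1
      push_cast at h1
      rw [← hu] at h1
      exact sub_eq_zero.mp h1
    have hne : (-1 : ZMod h) ≠ 1 := by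
      intro h1
      apply h2
      have h3 : ((2 : ℕ) : ZMod h) = 0 := by
        push_cast
        have : (1 : ZMod h) + 1 = 0 := by
          nth_rewrite 1 [← h1]
          ring
        rw [← this]
        norm_num
      exact (ZMod.natCast_eq_zero_iff _ _).mp h3
    have hd1 : orderOf u ∣ 2 * n := orderOf_dvd_of_pow_eq_one hn'
    have hd2 : orderOf u ∣ 2 * j := by
      apply orderOf_dvd_of_pow_eq_one
      rw [mul_comm, pow_mul, hj']
      norm_num
    have hres : u ^ n = 1 ∨ u ^ n = -1 := by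
      rcases Nat.even_or_odd (orderOf u) with hev | hodd
      · obtain ⟨e, he⟩ := hev
        have he' : orderOf u = 2 * e := by omega
        have hen : e ∣ n := by
          rw [he'] at hd1
          exact Nat.dvd_of_mul_dvd_mul_left (by norm_num) hd1
        have hej : e ∣ j := by
          rw [he'] at hd2
          exact Nat.dvd_of_mul_dvd_mul_left (by norm_num) hd2
        obtain ⟨s, hs⟩ := hen
        obtain ⟨t, ht⟩ := hej
        have hsq : (u ^ e) ^ 2 = 1 := by
          rw [← pow_mul, mul_comm, ← he', pow_orderOf_eq_one]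
        have hue : u ^ e = -1 := by
          rcases Nat.even_or_odd t with ⟨t', ht'⟩ | ⟨t', ht'⟩
          · exfalso
            apply hne
            rw [← hj', ht, pow_mul, ht', ← two_mul, pow_mul, hsq, one_pow]
          · rw [← hj', ht, pow_mul, ht', pow_succ, pow_mul, hsq, one_pow, one_mul]
        rw [hs, pow_mul, hue]
        exact neg_one_pow_eq_or _ s
      · left
        have h3 : orderOf u ∣ n := (Nat.Coprime.dvd_of_dvd_mul_left (by
          rw [Nat.coprime_two_right]; exact hodd) hd1)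
        exact orderOf_dvd_iff_pow_eq_one.mp h3
    rcases hres with h3 | h3
    · right
      rw [← ZMod.natCast_eq_zero_iff, Nat.cast_sub (hpos _)]
      push_cast
      rw [← hu, h3, sub_self]
    · left
      rw [← ZMod.natCast_eq_zero_iff]
      push_cast
      rw [← hu, h3, neg_add_cancel]

section
variable {Q : Type*} [Group Q] [Finite Q]

/-- a subgroup mapped into itself by an automorphism is mapped onto itself -/
theorem map_eq_of_mem {φ : MulAut Q} {A : Subgroup Q} (hA : ∀ a ∈ A, φ a ∈ A) {x : Q} (hx : φ x ∈ A) :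
    x ∈ A := by
  have h1 : Function.Injective (fun a : A => (⟨φ a, hA a a.2⟩ : A)) := by
    intro a b h
    have := congrArg Subtype.val h
    exact Subtype.ext (φ.injective this)
  obtain ⟨a, ha⟩ := (Finite.injective_iff_surjective.mp h1) ⟨φ x, hx⟩
  have := congrArg Subtype.val ha
  have h2 : (a : Q) = x := φ.injective this
  rw [← h2]
  exact a.2

theorem mem_centralizer_of_inv {φ : MulAut Q} {A : Subgroup Q} (hA : ∀ a ∈ A, φ a ∈ A) {c : Q}
    (hc : c ∈ centralizer (A : Set Q)) : φ c ∈ centralizer (A : Set Q) := by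
  rw [mem_centralizer_iff] at hc ⊢
  intro a ha
  have h1 : φ (φ⁻¹ a) = a := by
    rw [← MulAut.mul_apply, mul_inv_cancel, MulAut.one_apply]
  have h2 : φ⁻¹ a ∈ A := map_eq_of_mem hA (by rw [h1]; exact ha)
  have h3 := hc _ h2
  rw [← h1, ← map_mul, h3, map_mul]

theorem extraspecial_irr {p : ℕ} [hp : Fact p.Prime]
    (hc : commutator Q ≤ center Q) (hcard : Nat.card (center Q) = p) (hpow : ∀ x : Q, x ^ p ∈ center Q)
    (φ : MulAut Q) (hZ : ∀ q ∈ center Q, φ q = q) (A B : Subgroup Q) (hZA : center Q ≤ A) (hAB : A < B)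
    (hAinv : ∀ a ∈ A, φ a ∈ A) (hBinv : ∀ b ∈ B, φ b ∈ B)
    (hmin : ∀ D : Subgroup Q, A ≤ D → D ≤ B → (∀ d ∈ D, φ d ∈ D) → D = A ∨ D = B)
    (hBA : B ≤ centralizer (A : Set Q)) (hrad : B ⊓ centralizer (B : Set Q) ≤ A) :
    ∃ j : ℕ, ∀ b ∈ B, b⁻¹ * (φ ^ (p ^ j + 1)) b ∈ A := by
  classical
  set N : Subgroup B := A.subgroupOf B with hN
  have hcomm : ∀ x y : B, (x * y)⁻¹ * (y * x) ∈ N := by
    intro x y
    rw [hN, mem_subgroupOf]
    apply hZA
    apply hc
    have : (((x * y)⁻¹ * (y * x) : B) : Q) = ⁅(y : Q)⁻¹, (x : Q)⁻¹⁆ := by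
      rw [commutatorElement_def]
      push_cast
      group
    rw [this]
    exact commutator_mem_commutator (mem_top _) (mem_top _)
  haveI hNn : N.Normal := by
    constructor
    intro n hn g
    have h1 := hcomm (g * n) g⁻¹
    have h2 : g * n * g⁻¹ * ((g * n * g⁻¹)⁻¹ * (g⁻¹ * (g * n))) ∈ N ↔ g * n * g⁻¹ ∈ N :=
      N.mul_mem_cancel_right h1
    rw [← h2]
    have h3 : g * n * g⁻¹ * ((g * n * g⁻¹)⁻¹ * (g⁻¹ * (g * n))) = n := by group
    rw [h3]
    exact hn
  letI icg : CommGroup (B ⧸ N) :=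
    { (inferInstance : Group (B ⧸ N)) with
      mul_comm := by
        intro x y
        obtain ⟨x, rfl⟩ := QuotientGroup.mk_surjective x
        obtain ⟨y, rfl⟩ := QuotientGroup.mk_surjective y
        rw [← QuotientGroup.mk_mul, ← QuotientGroup.mk_mul, QuotientGroup.eq]
        exact hcomm x y }
  have hexp : ∀ x : B ⧸ N, x ^ p = 1 := by
    intro x
    obtain ⟨x, rfl⟩ := QuotientGroup.mk_surjective x
    rw [← QuotientGroup.mk_pow, QuotientGroup.eq_one_iff]
    exact hZA (hpow x)
  letI icc : CommGroup (center Q) :=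
    { (inferInstance : Group (center Q)) with
      mul_comm := by
        intro x y
        exact Subtype.ext (mem_center_iff.mp y.2 x) }
  have hexp2 : ∀ x : center Q, x ^ p = 1 := by
    intro x
    rw [← hcard]
    exact pow_card_eq_one'
  have hlem1 : ∀ b : B, N ≤ ((H13.commHom (center Q) le_rfl hc (b : Q)).comp B.subtype).ker := by
    intro b n hn
    rw [MonoidHom.mem_ker, MonoidHom.comp_apply]
    apply Subtype.ext
    rw [H13.commHom_apply]
    have h1 : (b : Q) ∈ centralizer (A : Set Q) := hBA b.2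
    have h2 : (n : Q) * b = b * n := mem_centralizer_iff.mp h1 _ hn
    change (n : Q) * b * (n : Q)⁻¹ * (b : Q)⁻¹ = 1
    rw [h2]
    group
  let β0 : B →* ((B ⧸ N) →* center Q) :=
    { toFun := fun b => QuotientGroup.lift N ((H13.commHom (center Q) le_rfl hc (b : Q)).comp B.subtype)
        (hlem1 b)
      map_one' := by
        apply MonoidHom.ext
        intro x
        obtain ⟨x, rfl⟩ := QuotientGroup.mk_surjective x
        rw [QuotientGroup.lift_mk, MonoidHom.comp_apply]
        apply Subtype.ext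
        rw [H13.commHom_apply]
        simp
      map_mul' := by
        intro b b'
        apply MonoidHom.ext
        intro x
        obtain ⟨x, rfl⟩ := QuotientGroup.mk_surjective x
        rw [MonoidHom.mul_apply, QuotientGroup.lift_mk, QuotientGroup.lift_mk, QuotientGroup.lift_mk,
          MonoidHom.comp_apply, MonoidHom.comp_apply, MonoidHom.comp_apply]
        apply Subtype.ext
        have h1 : (x : Q) * b' * (x : Q)⁻¹ * (b' : Q)⁻¹ ∈ center Q :=
          hc (commutator_mem_commutator (mem_top _) (mem_top _))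
        have h2 := mem_center_iff.mp h1 (b : Q)
        change (x : Q) * (b * b') * (x : Q)⁻¹ * (b * b' : Q)⁻¹ =
          ((x : Q) * b * (x : Q)⁻¹ * (b : Q)⁻¹) * ((x : Q) * b' * (x : Q)⁻¹ * (b' : Q)⁻¹)
        calc (x : Q) * (b * b') * (x : Q)⁻¹ * (b * b' : Q)⁻¹
            = ((x : Q) * b * (x : Q)⁻¹) * ((x : Q) * b' * (x : Q)⁻¹ * (b' : Q)⁻¹) * (b : Q)⁻¹ := by group
          _ = ((x : Q) * b * (x : Q)⁻¹) * ((b : Q)⁻¹ * (b * ((x : Q) * b' * (x : Q)⁻¹ * (b' : Q)⁻¹))) *
              (b : Q)⁻¹ := by group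
          _ = _ := by rw [h2]; group }
  let β : (B ⧸ N) →* ((B ⧸ N) →* center Q) := QuotientGroup.lift N β0 (by
    intro b hb
    rw [MonoidHom.mem_ker]
    apply MonoidHom.ext
    intro x
    obtain ⟨x, rfl⟩ := QuotientGroup.mk_surjective x
    change QuotientGroup.lift N ((H13.commHom (center Q) le_rfl hc (b : Q)).comp B.subtype)
        (hlem1 b) _ = 1
    rw [QuotientGroup.lift_mk, MonoidHom.comp_apply]
    apply Subtype.ext
    rw [H13.commHom_apply]
    have h1 : (x : Q) ∈ centralizer (A : Set Q) := hBA x.2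
    have h2 : (b : Q) * x = x * b := mem_centralizer_iff.mp h1 _ hb
    change (x : Q) * b * (x : Q)⁻¹ * (b : Q)⁻¹ = 1
    rw [← h2]
    group)
  have hβ : ∀ x y : B, ((β (QuotientGroup.mk x) (QuotientGroup.mk y) : center Q) : Q) =
      y * x * (y : Q)⁻¹ * (x : Q)⁻¹ := by
    intro x y
    rfl
  let φB : B →* B := (φ.toMonoidHom.comp B.subtype).codRestrict B (fun b => hBinv b b.2)
  have hφB : ∀ b : B, ((φB b : B) : Q) = φ b := fun b => rfl
  let τ : (B ⧸ N) →* (B ⧸ N) := QuotientGroup.map N N φB (by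
    intro n hn
    rw [mem_comap, hN, mem_subgroupOf, hφB]
    exact hAinv _ hn)
  have hτ : ∀ b : B, τ (QuotientGroup.mk b) = QuotientGroup.mk (φB b) := fun b => rfl
  haveI hnt : Nontrivial (B ⧸ N) := by
    obtain ⟨b, hb, hbA⟩ := SetLike.exists_of_lt hAB
    refine ⟨⟨QuotientGroup.mk ⟨b, hb⟩, 1, ?_⟩⟩
    rw [Ne, QuotientGroup.eq_one_iff]
    exact hbA
  have hiter : ∀ (i : ℕ) (b : Q) (hb : b ∈ B), ∃ hb' : (φ ^ i) b ∈ B,
      τ^[i] (QuotientGroup.mk ⟨b, hb⟩) = QuotientGroup.mk ⟨(φ ^ i) b, hb'⟩ := by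
    intro i
    induction i with
    | zero => intro b hb; exact ⟨by simpa using hb, rfl⟩
    | succ i ih =>
      intro b hb
      obtain ⟨h1, h2⟩ := ih b hb
      have h3 : (φ ^ (i + 1)) b = φ ((φ ^ i) b) := by
        rw [pow_succ', MulAut.mul_apply]
      refine ⟨by rw [h3]; exact hBinv _ h1, ?_⟩
      rw [Function.iterate_succ_apply', h2, hτ]
      congr 1
      ext1
      rw [hφB]
      exact h3.symm
  obtain ⟨j, hj⟩ := exists_iterate_eq_self_of_irr (p := p) hexp hexp2 τ (by
    intro S hS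
    set D : Subgroup Q := (S.comap (QuotientGroup.mk' N)).map B.subtype with hD
    have hmem : ∀ (b : Q) (hb : b ∈ B), b ∈ D ↔ (QuotientGroup.mk ⟨b, hb⟩ : B ⧸ N) ∈ S := by
      intro b hb
      rw [hD, mem_map]
      constructor
      · rintro ⟨x, hx, rfl⟩
        exact hx
      · intro h1
        exact ⟨⟨b, hb⟩, h1, rfl⟩
    have hDB : D ≤ B := map_subtype_le _
    have hAD : A ≤ D := by
      intro a ha
      rw [hmem a (hAB.le ha)]
      have : (QuotientGroup.mk ⟨a, hAB.le ha⟩ : B ⧸ N) = 1 := (QuotientGroup.eq_one_iff _).mpr ha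
      rw [this]
      exact S.one_mem
    rcases hmin D hAD hDB (by
      intro d hd
      have h1 := (hmem d (hDB hd)).mp hd
      rw [hmem (φ d) (hBinv _ (hDB hd))]
      exact hS _ h1) with h1 | h1
    · left
      rw [eq_bot_iff]
      intro x hx
      obtain ⟨x, rfl⟩ := QuotientGroup.mk_surjective x
      have h2 : (x : Q) ∈ D := (hmem x x.2).mpr hx
      rw [h1] at h2
      exact (QuotientGroup.eq_one_iff _).mpr h2
    · right
      rw [eq_top_iff]
      intro x _
      obtain ⟨x, rfl⟩ := QuotientGroup.mk_surjective x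
      exact (hmem x x.2).mp (by rw [h1]; exact x.2)) β
    (by
      intro v w
      obtain ⟨v, rfl⟩ := QuotientGroup.mk_surjective v
      obtain ⟨w, rfl⟩ := QuotientGroup.mk_surjective w
      rw [hτ, hτ]
      apply Subtype.ext
      rw [hβ, hβ, hφB, hφB, ← map_inv, ← map_inv, ← map_mul, ← map_mul, ← map_mul]
      apply hZ
      exact hc (commutator_mem_commutator (mem_top _) (mem_top _)))
    (by
      intro w hw
      obtain ⟨w, rfl⟩ := QuotientGroup.mk_surjective w
      rw [QuotientGroup.eq_one_iff, hN, mem_subgroupOf]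
      apply hrad
      refine ⟨w.2, mem_centralizer_iff.mpr ?_⟩
      intro v hv
      have h1 := congrArg Subtype.val (hw (QuotientGroup.mk ⟨v, hv⟩))
      rw [hβ] at h1
      have h2 : (w : Q) * v * (w : Q)⁻¹ * v⁻¹ = 1 := h1
      rw [mul_inv_eq_one, mul_inv_eq_iff_eq_mul] at h2
      exact h2.symm) (orderOf_pos φ)
    (by
      intro w
      obtain ⟨w, rfl⟩ := QuotientGroup.mk_surjective w
      obtain ⟨h1, h2⟩ := hiter (orderOf φ) w w.2
      rw [h2]
      congr 1
      ext1
      simp [pow_orderOf_eq_one])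
  refine ⟨j, ?_⟩
  intro b hb
  have h1 := hj (QuotientGroup.mk ⟨b, hb⟩)
  obtain ⟨h2, h3⟩ := hiter (p ^ j + 1) b hb
  rw [h3] at h1
  have h4 := (QuotientGroup.eq).mp h1.symm
  exact h4

/-- Main theorem. -/
theorem extraspecial_cyclic {p : ℕ} [hp : Fact p.Prime]
    (hQ : IsPGroup p Q) (hc : commutator Q ≤ center Q) (hcard : Nat.card (center Q) = p)
    (hpow : ∀ x : Q, x ^ p ∈ center Q) {n : ℕ} (hn : Nat.card Q = p ^ (2 * n + 1))
    (φ : MulAut Q) (hcop : (orderOf φ).Coprime p)
    (hfix : ∀ i : ℕ, φ ^ i ≠ 1 → ∀ q, (φ ^ i) q = q → q ∈ center Q)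
    (hZ : ∀ q ∈ center Q, φ q = q) : orderOf φ ∣ p ^ n + 1 ∨ orderOf φ ∣ p ^ n - 1 := by
  classical
  have hsub : ∀ S : Subgroup Q, center Q ≤ S → (∀ s ∈ S, φ s ∈ S) → orderOf φ ∣ Nat.card S - p := by
    intro S hS hinv
    have h1 := orderOf_dvd_of_free φ hfix ((S : Set Q) \ (center Q : Set Q)) (by
      intro x hx
      refine ⟨hinv _ hx.1, ?_⟩
      intro h2
      exact hx.2 (map_eq_of_mem (fun a ha => by rw [hZ a ha]; exact ha) h2)) (fun x hx => hx.2)
    rw [Nat.card_coe_set_eq, Set.ncard_sdiff hS, ← Nat.card_coe_set_eq, ← Nat.card_coe_set_eq] at h1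
    change orderOf φ ∣ Nat.card S - Nat.card (center Q) at h1
    rw [hcard] at h1
    exact h1
  -- maximal invariant abelian subgroup
  set F : Set (Subgroup Q) := {A | center Q ≤ A ∧ (∀ a ∈ A, φ a ∈ A) ∧ A ≤ centralizer (A : Set Q)} with hF
  have hFne : F.Nonempty := by
    refine ⟨center Q, le_rfl, fun a ha => by rw [hZ a ha]; exact ha, ?_⟩
    exact center_le_centralizer _
  obtain ⟨A, hA⟩ := F.toFinite.exists_maximal hFne
  obtain ⟨hZA, hAinv, hAab⟩ := hA.prop
  have hCinv : ∀ c ∈ centralizer (A : Set Q), φ c ∈ centralizer (A : Set Q) :=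
    fun c hc' => mem_centralizer_of_inv hAinv hc'
  by_cases hCA : centralizer (A : Set Q) ≤ A
  · -- maximal isotropic of half dimension
    have hCeq : centralizer (A : Set Q) = A := le_antisymm hCA hAab
    have h1 := H13.card_centralizer_mul hQ hc hcard A
    rw [hCeq, inf_eq_left.mpr hZA, hcard, hn] at h1
    have h2 : Nat.card A = p ^ (n + 1) := by
      have h3 : Nat.card A ^ 2 = (p ^ (n + 1)) ^ 2 := by
        rw [sq, h1]
        ring
      exact Nat.pow_left_injective (n := 2) (by norm_num) h3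
    have h3 := hsub A hZA hAinv
    rw [h2] at h3
    right
    have h4 : p ^ (n + 1) - p = p * (p ^ n - 1) := by
      rw [Nat.mul_sub, mul_one, pow_succ']
    rw [h4] at h3
    exact hcop.dvd_of_dvd_mul_left h3
  · have hAC : A < centralizer (A : Set Q) := lt_of_le_not_ge hAab hCA
    set F2 : Set (Subgroup Q) := {B | A < B ∧ (∀ b ∈ B, φ b ∈ B) ∧ B ≤ centralizer (A : Set Q)} with hF2
    obtain ⟨B, hB⟩ := F2.toFinite.exists_minimal ⟨_, hAC, hCinv, le_rfl⟩
    obtain ⟨hAB, hBinv, hBC⟩ := hB.prop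
    have hrad : B ⊓ centralizer (B : Set Q) ≤ A := by
      by_contra hcon
      have hle : A ≤ B ⊓ centralizer (B : Set Q) :=
        le_inf hAB.le (Subgroup.le_centralizer_iff.mp hBC)
      have h1 : B ⊓ centralizer (B : Set Q) ∈ F2 := by
        refine ⟨lt_of_le_not_ge hle hcon, ?_, inf_le_left.trans hBC⟩
        intro b hb
        exact ⟨hBinv _ hb.1, mem_centralizer_of_inv hBinv hb.2⟩
      have h2 : B ≤ B ⊓ centralizer (B : Set Q) := hB.le_of_le h1 inf_le_left
      have h3 : B ≤ centralizer (B : Set Q) := h2.trans inf_le_right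
      have h4 : B ∈ F := ⟨hZA.trans hAB.le, hBinv, h3⟩
      exact hAB.not_ge (hA.le_of_ge h4 hAB.le)
    obtain ⟨j, hj⟩ := extraspecial_irr hc hcard hpow φ hZ A B hZA hAB hAinv hBinv (by
      intro D hAD hDB hDinv
      rcases eq_or_lt_of_le hAD with h1 | h1
      · left; exact h1.symm
      · right
        have h2 : D ∈ F2 := ⟨h1, hDinv, hDB.trans hBC⟩
        exact le_antisymm hDB (hB.le_of_le h2 hDB)) hBC hrad
    -- `φ ^ (p ^ j + 1) = 1`
    have hone : φ ^ (p ^ j + 1) = 1 := by
      obtain ⟨b, hb, hbA⟩ := SetLike.exists_of_lt hAB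
      set ψ := φ ^ (p ^ j + 1) with hψ
      have hAψ : ∀ i : ℕ, ∀ a ∈ A, (φ ^ i) a ∈ A := by
        intro i
        induction i with
        | zero => intro a ha; simpa using ha
        | succ i ih =>
          intro a ha
          rw [pow_succ', MulAut.mul_apply]
          exact hAinv _ (ih a ha)
      have h1 : orderOf ψ ∣ Nat.card (b • (A : Set Q) : Set Q) := by
        apply orderOf_dvd_of_free ψ
        · intro i hi q hq
          rw [hψ, ← pow_mul] at hi hq
          exact hfix _ hi q hq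
        · intro x hx
          rw [mem_leftCoset_iff] at hx ⊢
          have h2 : b⁻¹ * ψ x = (b⁻¹ * ψ b) * ψ (b⁻¹ * x) := by
            rw [map_mul, map_inv]
            group
          rw [h2]
          exact A.mul_mem (hj b hb) (hAψ _ _ hx)
        · intro x hx hxZ
          rw [mem_leftCoset_iff] at hx
          apply hbA
          have h2 : b⁻¹ ∈ A := by
            have := A.mul_mem hx (A.inv_mem (hZA hxZ))
            simpa using this
          exact inv_mem_iff.mp h2
      have h2 : Nat.card (b • (A : Set Q) : Set Q) = Nat.card A := by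
        rw [Nat.card_coe_set_eq, Set.ncard_smul_set, ← Nat.card_coe_set_eq]
        rfl
      rw [h2] at h1
      obtain ⟨k, hk⟩ := (hQ.to_subgroup A).exists_card_eq
      rw [hk] at h1
      have h3 : (orderOf ψ).Coprime (p ^ k) := by
        apply Nat.Coprime.pow_right
        exact Nat.Coprime.coprime_dvd_left (orderOf_pow_dvd _) hcop
      have h4 := Nat.Coprime.eq_one_of_dvd h3 h1
      exact orderOf_eq_one_iff.mp h4
    have h1 := hsub ⊤ le_top (fun _ _ => mem_top _)
    rw [Subgroup.card_top, hn] at h1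
    have h4 : p ^ (2 * n + 1) - p = p * (p ^ (2 * n) - 1) := by
      rw [Nat.mul_sub, mul_one, pow_succ']
    rw [h4] at h1
    exact dvd_pow_add_or_sub hcop (orderOf_dvd_of_pow_eq_one hone) (hcop.dvd_of_dvd_mul_left h1)
end

end Cfsg.Agent.H23
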