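import Cfsg.Agent.H23.Baer
import Mathlib.RingTheory.IntegralDomain

set_option autoImplicit false
set_option linter.all false

/-! # Counting square roots of one in class two 2-groups -/

namespace Cfsg.Agent.H23

open Subgroup
open scoped commutatorElement

/-- The sign homomorphism attached to a subgroup of index two. -/
noncomputable def signHom {A : Type*} [Group A] (H : Subgroup A) (h : H.index = 2) : A →* ℤ := by
  classical
  exact {
    toFun := fun a => if a ∈ H then 1 else -1
    map_one' := by rw [if_pos (one_mem H)]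
    map_mul' := by
      intro a b
      by_cases ha : a ∈ H <;> by_cases hb : b ∈ H <;>
        simp [mul_mem_iff_of_index_two h, ha, hb] }

theorem signHom_apply {A : Type*} [Group A] (H : Subgroup A) (h : H.index = 2) (a : A) :
    (a ∈ H → signHom H h a = 1) ∧ (a ∉ H → signHom H h a = -1) := by
  classical
  constructor
  · intro ha
    exact if_pos ha
  · intro ha
    exact if_neg ha

section
variable {G : Type*} [Group G] [Fintype G] (hcomm : ∀ x y : G, ⁅x, y⁆ ∈ center G) (hsq : ∀ x : G, x ^ 2 ∈ center G)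
  (hexp : ∀ z ∈ center G, z ^ 2 = 1) (lam : center G →* ℤ)

include hcomm hsq hexp

/-- The square of the Gauss sum. -/
theorem gauss_sq : ∃ R : Subgroup G, center G ≤ R ∧
    ((∑ x : G, lam ⟨x ^ 2, hsq x⟩) ^ 2 = (Nat.card G * Nat.card R : ℤ) ∨ (∑ x : G, lam ⟨x ^ 2, hsq x⟩) ^ 2 = 0) := by
  classical
  have hc : ∀ x y z : G, Commute ⁅x, y⁆ z := fun x y z => (mem_center_iff.mp (hcomm x y) z).symm
  set χ : G → ℤ := fun x => lam ⟨x ^ 2, hsq x⟩ with hχ
  have hlam2 : ∀ z : center G, lam z * lam z = 1 := by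
    intro z
    rw [← map_mul]
    have : z * z = 1 := Subtype.ext (by
      have := hexp z z.2
      rw [sq] at this
      exact this)
    rw [this, map_one]
  let β : G → (G →* ℤ) := fun w =>
    { toFun := fun x => lam ⟨⁅w, x⁆, hcomm w x⟩
      map_one' := by
        have : (⟨⁅w, 1⁆, hcomm w 1⟩ : center G) = 1 := Subtype.ext (commutatorElement_one_right w)
        rw [this, map_one]
      map_mul' := by
        intro x y
        rw [← map_mul]
        congr 1
        exact Subtype.ext (commutator_mul_right_of_central hc w x y) }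
  have hβ : ∀ w x, β w x = lam ⟨⁅w, x⁆, hcomm w x⟩ := fun w x => rfl
  have hmul : ∀ x w, χ (x * w) = χ x * χ w * β w x := by
    intro x w
    rw [hβ, hχ]
    change lam _ = lam _ * lam _ * lam _
    rw [← map_mul, ← map_mul]
    congr 1
    apply Subtype.ext
    change (x * w) ^ 2 = x ^ 2 * w ^ 2 * ⁅w, x⁆
    have h1 : w * x = ⁅w, x⁆ * (x * w) := by rw [commutatorElement_def]; group
    have h2 := (hc w x (x ^ 2 * w ^ 2)).eq
    rw [← h2]
    calc (x * w) ^ 2 = x * (w * x) * w := by rw [sq]; group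
      _ = x * (⁅w, x⁆ * (x * w)) * w := by rw [← h1]
      _ = (x * ⁅w, x⁆) * x * w * w := by group
      _ = (⁅w, x⁆ * x) * x * w * w := by rw [(hc w x x).eq]
      _ = ⁅w, x⁆ * (x ^ 2 * w ^ 2) := by rw [sq, sq]; group
  have hχ2 : ∀ x, χ x * χ x = 1 := fun x => hlam2 _
  -- the radical
  let R : Subgroup G :=
    { carrier := {w | β w = 1}
      one_mem' := by
        apply MonoidHom.ext
        intro x
        rw [hβ]
        have : (⟨⁅1, x⁆, hcomm 1 x⟩ : center G) = 1 := Subtype.ext (commutatorElement_one_left x)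
        rw [this, map_one]; rfl
      mul_mem' := by
        intro a b ha hb
        apply MonoidHom.ext
        intro x
        have h1 := DFunLike.congr_fun ha x
        have h2 := DFunLike.congr_fun hb x
        rw [hβ] at h1 h2 ⊢
        have : (⟨⁅a * b, x⁆, hcomm (a * b) x⟩ : center G) = ⟨⁅a, x⁆, hcomm a x⟩ * ⟨⁅b, x⁆, hcomm b x⟩ :=
          Subtype.ext (commutator_mul_left_of_central hc a b x)
        rw [this, map_mul, h1, h2]; rfl
      inv_mem' := by
        intro a ha
        apply MonoidHom.ext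
        intro x
        have h1 := DFunLike.congr_fun ha x
        rw [hβ] at h1 ⊢
        have : (⟨⁅a, x⁆, hcomm a x⟩ : center G) * ⟨⁅a⁻¹, x⁆, hcomm a⁻¹ x⟩ = 1 := by
          apply Subtype.ext
          change ⁅a, x⁆ * ⁅a⁻¹, x⁆ = 1
          rw [← commutator_mul_left_of_central hc, mul_inv_cancel, commutatorElement_one_left]
        have h2 := congrArg lam this
        rw [map_mul, h1, map_one] at h2
        simpa using h2 }
  have hR : ∀ w, w ∈ R ↔ β w = 1 := fun w => Iff.rfl
  refine ⟨R, ?_, ?_⟩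
  · intro z hz
    rw [hR]
    apply MonoidHom.ext
    intro x
    rw [hβ]
    have : (⟨⁅z, x⁆, hcomm z x⟩ : center G) = 1 := by
      apply Subtype.ext
      change ⁅z, x⁆ = 1
      rw [commutatorElement_eq_one_iff_mul_comm]
      exact (mem_center_iff.mp hz x).symm
    rw [this, map_one]; rfl
  · have h1 : (∑ x, χ x) ^ 2 = ∑ w, χ w * ∑ x, β w x := by
      rw [sq, Finset.sum_mul_sum]
      have h2 : ∀ x, ∑ y, χ x * χ y = ∑ w, χ w * β w x := by
        intro x
        rw [← Equiv.sum_comp (Equiv.mulLeft x) (fun y => χ x * χ y)]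
        refine Finset.sum_congr rfl fun w _ => ?_
        change χ x * χ (x * w) = _
        rw [hmul, ← mul_assoc, ← mul_assoc, hχ2, one_mul]
      rw [Finset.sum_congr rfl fun x _ => h2 x, Finset.sum_comm]
      refine Finset.sum_congr rfl fun w _ => ?_
      rw [Finset.mul_sum]
    have h3 : (∑ x, χ x) ^ 2 = (Nat.card G : ℤ) * ∑ w : R, χ w := by
      rw [h1, Finset.mul_sum]
      have h4 : ∀ w, χ w * ∑ x, β w x = if w ∈ R then (Nat.card G : ℤ) * χ w else 0 := by
        intro w
        rw [sum_hom_units]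
        by_cases hw : β w = 1
        · rw [if_pos hw, if_pos ((hR w).mpr hw), Nat.card_eq_fintype_card, mul_comm]
        · rw [if_neg hw, if_neg (fun h => hw ((hR w).mp h)), Nat.cast_zero, mul_zero]
      rw [Finset.sum_congr rfl fun w _ => h4 w, ← Finset.sum_filter]
      exact (Finset.sum_subtype _ (fun x => by simp) (fun w => (Nat.card G : ℤ) * χ w))
    let χR : R →* ℤ :=
      { toFun := fun w => χ w
        map_one' := by
          rw [hχ]
          have : (⟨((1 : R) : G) ^ 2, hsq _⟩ : center G) = 1 := Subtype.ext (by simp)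
          change lam ⟨((1 : R) : G) ^ 2, hsq _⟩ = 1
          rw [this, map_one]
        map_mul' := by
          intro a b
          rw [coe_mul, hmul, (hR b).mp b.2]
          simp }
    have h5 : ∑ w : R, χ w = ∑ w : R, χR w := rfl
    rw [h3, h5, sum_hom_units]
    by_cases hχ1 : χR = 1
    · left
      rw [if_pos hχ1, Nat.card_eq_fintype_card, Nat.card_eq_fintype_card]
    · right
      rw [if_neg hχ1, Nat.cast_zero, mul_zero]

/-- divisibility of the Gauss sum -/
theorem gauss_dvd (hZ : Nat.card (center G) = 4) {m : ℕ} (hm : 8 ≤ m) (hG : Nat.card G = 2 ^ m) :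
    (32 : ℤ) ∣ ∑ x : G, lam ⟨x ^ 2, hsq x⟩ := by
  obtain ⟨R, hZR, h⟩ := gauss_sq hcomm hsq hexp lam
  have h1 : (32 : ℤ) ^ 2 ∣ (∑ x : G, lam ⟨x ^ 2, hsq x⟩) ^ 2 := by
    rcases h with h | h
    · rw [h, hG]
      have h2 : 4 ∣ Nat.card R := by rw [← hZ]; exact card_dvd_of_le hZR
      obtain ⟨r, hr⟩ := h2
      obtain ⟨j, rfl⟩ := Nat.exists_eq_add_of_le hm
      rw [hr, pow_add]
      push_cast
      exact ⟨2 ^ j * r, by ring⟩
    · rw [h]
      exact dvd_zero _
  exact (Int.pow_dvd_pow_iff two_ne_zero).mp h1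

/-- there are square roots of one outside the centre -/
theorem exists_sq_eq_one (hZ : Nat.card (center G) = 4) {m : ℕ} (hm : 8 ≤ m) (hG : Nat.card G = 2 ^ m) :
    ∃ x : G, x ∉ center G ∧ x ^ 2 = 1 := by
  classical
  by_contra hcon
  push Not at hcon
  haveI : Nontrivial (center G) := Finite.one_lt_card_iff_nontrivial.mp (by rw [hZ]; norm_num)
  obtain ⟨z₁, hz₁⟩ := exists_ne (1 : center G)
  have ho : ∀ z : center G, z ≠ 1 → Nat.card (zpowers z) = 2 := by
    intro z hz
    rw [Nat.card_zpowers]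
    exact orderOf_eq_prime (Subtype.ext (by simpa using hexp z z.2)) hz
  have hidx : ∀ z : center G, z ≠ 1 → (zpowers z).index = 2 := by
    intro z hz
    have h1 := (zpowers z).card_mul_index
    rw [ho z hz, hZ] at h1
    omega
  obtain ⟨z₂, hz₂⟩ : ∃ z₂ : center G, z₂ ∉ zpowers z₁ := by
    by_contra h
    push Not at h
    have h1 : zpowers z₁ = ⊤ := eq_top_iff.mpr fun x _ => h x
    have h2 := hidx z₁ hz₁
    rw [h1, index_top] at h2
    omega
  have hz₂1 : z₂ ≠ 1 := by
    rintro rfl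
    exact hz₂ (one_mem _)
  have hbot : ∀ z : center G, z ∈ zpowers z₁ → z ∈ zpowers z₂ → z = 1 := by
    intro z h1 h2
    by_contra hz
    have h3 : zpowers z = zpowers z₂ := eq_of_le_of_card_ge (zpowers_le.mpr h2) (by rw [ho z hz, ho z₂ hz₂1])
    have h4 : zpowers z = zpowers z₁ := eq_of_le_of_card_ge (zpowers_le.mpr h1) (by rw [ho z hz, ho z₁ hz₁])
    apply hz₂
    rw [← h4, h3]
    exact mem_zpowers z₂
  set l1 := signHom (zpowers z₁) (hidx z₁ hz₁) with hl1
  set l2 := signHom (zpowers z₂) (hidx z₂ hz₂1) with hl2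
  have hval : ∀ z : center G, (1 + l1 z) * (1 + l2 z) = if z = 1 then 4 else 0 := by
    intro z
    obtain ⟨a1, a2⟩ := signHom_apply (zpowers z₁) (hidx z₁ hz₁) z
    obtain ⟨b1, b2⟩ := signHom_apply (zpowers z₂) (hidx z₂ hz₂1) z
    by_cases h1 : z = 1
    · rw [if_pos h1, hl1, hl2, a1 (by rw [h1]; exact one_mem _), b1 (by rw [h1]; exact one_mem _)]
      norm_num
    · rw [if_neg h1]
      by_cases h2 : z ∈ zpowers z₁
      · have h3 : z ∉ zpowers z₂ := fun h3 => h1 (hbot z h2 h3)
        rw [hl2, b2 h3]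
        norm_num
      · rw [hl1, a2 h2]
        norm_num
  have hsum : ∑ x : G, (1 + l1 ⟨x ^ 2, hsq x⟩) * (1 + l2 ⟨x ^ 2, hsq x⟩) = 16 := by
    rw [Finset.sum_congr rfl fun x _ => hval ⟨x ^ 2, hsq x⟩]
    have h1 : ∀ x : G, (if (⟨x ^ 2, hsq x⟩ : center G) = 1 then (4 : ℤ) else 0) = if x ∈ center G then 4 else 0 := by
      intro x
      by_cases hx : x ∈ center G
      · rw [if_pos hx, if_pos (Subtype.ext (hexp x hx))]
      · rw [if_neg hx, if_neg]
        intro h
        exact hcon x hx (congrArg Subtype.val h)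
    rw [Finset.sum_congr rfl fun x _ => h1 x, ← Finset.sum_filter, Finset.sum_const]
    have h2 : (Finset.univ.filter (fun x : G => x ∈ center G)).card = 4 := by
      rw [← hZ, Nat.card_eq_fintype_card, Fintype.card_subtype]
    rw [h2]
    norm_num
  have hexpand : ∑ x : G, (1 + l1 ⟨x ^ 2, hsq x⟩) * (1 + l2 ⟨x ^ 2, hsq x⟩) =
      (Nat.card G : ℤ) + ∑ x : G, l1 ⟨x ^ 2, hsq x⟩ + ∑ x : G, l2 ⟨x ^ 2, hsq x⟩ + ∑ x : G, (l1 * l2) ⟨x ^ 2, hsq x⟩ := by
    rw [Nat.card_eq_fintype_card]
    have h1 : ((Fintype.card G : ℕ) : ℤ) = ∑ x : G, (1 : ℤ) := by simp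
    rw [h1, ← Finset.sum_add_distrib, ← Finset.sum_add_distrib, ← Finset.sum_add_distrib]
    refine Finset.sum_congr rfl fun x _ => ?_
    rw [MonoidHom.mul_apply]
    ring
  have d1 := gauss_dvd hcomm hsq hexp l1 hZ hm hG
  have d2 := gauss_dvd hcomm hsq hexp l2 hZ hm hG
  have d3 := gauss_dvd hcomm hsq hexp (l1 * l2) hZ hm hG
  have d4 : (32 : ℤ) ∣ (Nat.card G : ℤ) := by
    rw [hG]
    obtain ⟨j, rfl⟩ := Nat.exists_eq_add_of_le hm
    rw [pow_add]
    push_cast
    exact ⟨8 * 2 ^ j, by ring⟩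
  have h5 : (32 : ℤ) ∣ 16 := by
    rw [← hsum, hexpand]
    exact dvd_add (dvd_add (dvd_add d4 d1) d2) d3
  norm_num at h5

end

end Cfsg.Agent.H23
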