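import Cfsg.Agent.H23.SympType

set_option autoImplicit false
set_option linter.all false

/-!
# `p`-groups of symplectic type, II, seat helper23
-/

namespace Cfsg.Agent.H23.ST

open Subgroup Cfsg
open scoped commutatorElement

variable {G : Type*} [Group G]

/-- Elements commuting with `z ^ p` have commutator with `z` in `W`. -/
theorem comm_z {W : Subgroup G} {p : ℕ} {z : G} (hzN : (zpowers z).Normal)
    (hWmem : ∀ x, x ∈ W ↔ x ∈ zpowers z ∧ x ^ p = 1) {s : G} (hs : Commute s (z ^ p)) : ⁅s, z⁆ ∈ W := by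
  have h1 : ⁅s, z⁆ ∈ zpowers z := by
    rw [commutatorElement_def]
    exact mul_mem (hzN.conj_mem z (mem_zpowers z) s) (inv_mem (mem_zpowers z))
  refine (hWmem _).mpr ⟨h1, comm_pow_one ?_ hs⟩
  obtain ⟨k, hk⟩ := mem_zpowers_iff.mp h1
  rw [← hk]
  exact (Commute.refl z).zpow_left k

theorem Slem [Finite G] {W : Subgroup G} {p : ℕ} [hp : Fact p.Prime] {z : G} (hWc : W ≤ center G)
    (hWcard : Nat.card W = p) (hzN : (zpowers z).Normal)
    (hWmem : ∀ x, x ∈ W ↔ x ∈ zpowers z ∧ x ^ p = 1) {y s : G}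
    (hy : Commute y (z ^ p)) (hs : Commute s (z ^ p)) (hyz : ¬ Commute y z) :
    ∃ b : ℕ, Commute ((y ^ b)⁻¹ * s) z := by
  have h1 := comm_z hzN hWmem hy
  have h2 := comm_z hzN hWmem hs
  have h3 : zpowers ⁅y, z⁆ = W := by
    apply eq_of_le_of_card_ge (zpowers_le.mpr h1)
    rw [hWcard, Nat.card_zpowers]
    have h4 : orderOf ⁅y, z⁆ ∣ p := orderOf_dvd_iff_pow_eq_one.mpr ((hWmem _).mp h1).2
    rcases (Nat.dvd_prime hp.out).mp h4 with h5 | h5
    · exfalso
      apply hyz
      rw [orderOf_eq_one_iff, commutatorElement_eq_one_iff_commute] at h5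
      exact h5
    · exact h5.ge
  rw [← h3] at h2
  obtain ⟨b, hb⟩ := mem_powers_iff_mem_zpowers.mpr h2
  refine ⟨b, ?_⟩
  have h5 : ⁅y ^ b, z⁆ = ⁅s, z⁆ := by
    rw [MCN.comm_pow_left' (mem_center_iff.mp (hWc h1) y).symm b]
    exact hb
  have h6 : y ^ b * z * (y ^ b)⁻¹ = s * z * s⁻¹ := by
    rw [commutatorElement_def, commutatorElement_def] at h5
    exact mul_right_cancel h5
  have h7 : (y ^ b)⁻¹ * s * z = z * ((y ^ b)⁻¹ * s) := by
    have h8 : s * z = y ^ b * z * (y ^ b)⁻¹ * s := by rw [h6]; group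
    rw [mul_assoc, h8]; group
  exact h7

/-- the common data -/
structure Dat (p : ℕ) (G : Type*) [Group G] (z : G) (W E : Subgroup G) : Prop where
  hzch : (zpowers z).Characteristic
  hWch : W.Characteristic
  hWc : W ≤ center G
  hWcard : Nat.card W = p
  hWmem : ∀ x, x ∈ W ↔ x ∈ zpowers z ∧ x ^ p = 1
  hWE : W ≤ E
  hEW : ∀ g : G, ∀ x ∈ E, ⁅g, x⁆ ∈ W
  hEp : ∀ x ∈ E, x ^ p ∈ W
  hcen : ∀ x ∈ E, (∀ y ∈ E, Commute x y) → x ∈ W
  hzE : ∀ e ∈ E, Commute z e
  hR : ∀ x, (∀ e ∈ E, Commute x e) → Commute x z → x ∈ zpowers z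
  hfac : ∀ x : G, ∃ e ∈ E, ∃ r, (∀ e ∈ E, Commute r e) ∧ e * r = x

/-- From `y` commuting with `z ^ p` in `R`, not in `⟨z⟩`, one gets one whose `p`-th power is in `W`. -/
theorem exists_r [Finite G] {p : ℕ} [hp : Fact p.Prime] {z : G} {W E : Subgroup G} (hd : Dat p G z W E)
    {n : ℕ} (hn : orderOf z = p ^ (n + 1))
    {y : G} (hyE : ∀ e ∈ E, Commute y e) (hy : Commute y (z ^ p)) (hyz : y ∉ zpowers z) :
    ∃ r, (∀ e ∈ E, Commute r e) ∧ Commute r (z ^ p) ∧ r ∉ zpowers z ∧ r ^ p ∈ W := by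
  have hzN : (zpowers z).Normal := @normal_of_characteristic _ _ _ hd.hzch
  haveI hWn : W.Normal := @normal_of_characteristic _ _ _ hd.hWch
  have h1 := comm_z hzN hd.hWmem hy
  have h2 : y ^ p ∈ zpowers z := by
    apply hd.hR _ (fun e he => (hyE e he).pow_left p)
    rw [← commutatorElement_eq_one_iff_commute, MCN.comm_pow_left' (mem_center_iff.mp (hd.hWc h1) y).symm p]
    exact ((hd.hWmem _).mp h1).2
  obtain ⟨j, hj⟩ := mem_zpowers_iff.mp h2
  have hpj : (p : ℤ) ∣ j := by
    by_contra hpj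
    apply hyz
    apply hd.hR _ hyE
    have h3 : z ∈ centralizer ({y} : Set G) := by
      apply coprime_mem hp.out hpj
      · rw [mem_centralizer_singleton_iff, hj]
        exact (Commute.refl y).pow_left p
      · rw [mem_centralizer_singleton_iff]
        exact hy.symm
    exact (mem_centralizer_singleton_iff.mp h3).symm
  obtain ⟨k, rfl⟩ := hpj
  have hzp : Commute (z ^ k)⁻¹ (z ^ p) := (((Commute.refl z).zpow_left k).inv_left).pow_right p
  refine ⟨y * (z ^ k)⁻¹, ?_, hy.mul_left hzp, ?_, ?_⟩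
  · intro e he
    exact (hyE e he).mul_left ((hd.hzE e he).zpow_left k).inv_left
  · intro h
    apply hyz
    have := mul_mem h (zpow_mem (mem_zpowers z) k)
    rwa [inv_mul_cancel_right] at this
  · have hc : Commute (QuotientGroup.mk' W y) (QuotientGroup.mk' W (z ^ k)⁻¹) := by
      rw [map_inv, map_zpow]
      exact ((comm_mk h1).zpow_right k).inv_right
    rw [pow_mem_iff hc, ← hj, inv_pow, ← zpow_natCast (z ^ k) p, ← zpow_mul, mul_comm k, mul_inv_cancel]
    exact one_mem _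

/-- Any element of `R` commuting with `z ^ p` is `r ^ b * z ^ a`. -/
theorem fac_S [Finite G] {p : ℕ} [hp : Fact p.Prime] {z : G} {W E : Subgroup G} (hd : Dat p G z W E)
    {r : G} (hrE : ∀ e ∈ E, Commute r e) (hr : Commute r (z ^ p)) (hrz : r ∉ zpowers z)
    {s : G} (hsE : ∀ e ∈ E, Commute s e) (hs : Commute s (z ^ p)) :
    ∃ (b : ℕ) (a : ℤ), s = r ^ b * z ^ a := by
  have hzN : (zpowers z).Normal := @normal_of_characteristic _ _ _ hd.hzch
  obtain ⟨b, hb⟩ := Slem hd.hWc hd.hWcard hzN hd.hWmem hr hs (fun h => hrz (hd.hR r hrE h))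
  have h1 : (r ^ b)⁻¹ * s ∈ zpowers z :=
    hd.hR _ (fun e he => (((hrE e he).pow_left b).inv_left).mul_left (hsE e he)) hb
  obtain ⟨a, ha⟩ := mem_zpowers_iff.mp h1
  exact ⟨b, a, by rw [ha, mul_inv_cancel_left]⟩

theorem C1 [Finite G] {p : ℕ} [hp : Fact p.Prime] (hG : IsPGroup p G) {z : G} {W E : Subgroup G}
    (hd : Dat p G z W E) (hn : orderOf z = p ^ 2)
    {y : G} (hyE : ∀ e ∈ E, Commute y e) (hyz : y ∉ zpowers z) : IsExtraspecial p G := by
  have hzN : (zpowers z).Normal := @normal_of_characteristic _ _ _ hd.hzch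
  haveI hWn : W.Normal := @normal_of_characteristic _ _ _ hd.hWch
  have hzpW : z ^ p ∈ W := by
    refine (hd.hWmem _).mpr ⟨npow_mem_zpowers z p, ?_⟩
    rw [← pow_mul, ← pow_two, ← hn, pow_orderOf_eq_one]
  have hall : ∀ g : G, Commute g (z ^ p) := fun g => mem_center_iff.mp (hd.hWc hzpW) g
  obtain ⟨r, hrE, hr, hrz, hrp⟩ := exists_r hd (n := 1) hn hyE (hall y) hyz
  have hrzc : ¬ Commute r z := fun h => hrz (hd.hR r hrE h)
  have hcenter : center G = W := by
    apply le_antisymm _ hd.hWc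
    intro x hx
    have h1 : ∀ g, Commute x g := fun g => (mem_center_iff.mp hx g).symm
    have h2 : x ∈ zpowers z := hd.hR x (fun e _ => h1 e) (h1 z)
    obtain ⟨a, rfl⟩ := mem_zpowers_iff.mp h2
    by_cases ha : (p : ℤ) ∣ a
    · obtain ⟨j, rfl⟩ := ha
      rw [zpow_mul, zpow_natCast]
      exact zpow_mem hzpW j
    · exfalso
      apply hrzc
      have h3 : z ∈ centralizer ({r} : Set G) := by
        apply coprime_mem hp.out ha
        · rw [mem_centralizer_singleton_iff]
          exact h1 r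
        · rw [mem_centralizer_singleton_iff]
          exact hr.symm
      exact (mem_centralizer_singleton_iff.mp h3).symm
  have hfac : ∀ x : G, ∃ e ∈ E, ∃ (b : ℕ) (a : ℤ), x = e * (r ^ b * z ^ a) := by
    intro x
    obtain ⟨e, he, s, hs, rfl⟩ := hd.hfac x
    obtain ⟨b, a, h⟩ := fac_S hd hrE hr hrz hs (hall s)
    exact ⟨e, he, b, a, by rw [h]⟩
  have hce : ∀ (q : G ⧸ W), ∀ e ∈ E, Commute q (QuotientGroup.mk' W e) := by
    intro q e he
    obtain ⟨g, rfl⟩ := QuotientGroup.mk'_surjective W q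
    exact comm_mk (hd.hEW g e he)
  have hczr : Commute (QuotientGroup.mk' W r) (QuotientGroup.mk' W z) := comm_mk (comm_z hzN hd.hWmem hr)
  have hcr : ∀ q : G ⧸ W, Commute q (QuotientGroup.mk' W r) := by
    intro q
    obtain ⟨g, rfl⟩ := QuotientGroup.mk'_surjective W q
    obtain ⟨e, he, b, a, rfl⟩ := hfac g
    rw [map_mul, map_mul, map_pow, map_zpow]
    exact (hce _ e he).symm.mul_left (((Commute.refl _).pow_left b).mul_left (hczr.symm.zpow_left a))
  have hcz : ∀ q : G ⧸ W, Commute q (QuotientGroup.mk' W z) := by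
    intro q
    obtain ⟨g, rfl⟩ := QuotientGroup.mk'_surjective W q
    obtain ⟨e, he, b, a, rfl⟩ := hfac g
    rw [map_mul, map_mul, map_pow, map_zpow]
    exact (hce _ e he).symm.mul_left ((hczr.pow_left b).mul_left ((Commute.refl _).zpow_left a))
  have hcc : ∀ q q' : G ⧸ W, Commute q q' := by
    intro q q'
    obtain ⟨g, rfl⟩ := QuotientGroup.mk'_surjective W q'
    obtain ⟨e, he, b, a, rfl⟩ := hfac g
    rw [map_mul, map_mul, map_pow, map_zpow]
    exact (hce _ e he).mul_right (((hcr _).pow_right b).mul_right ((hcz _).zpow_right a))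
  apply isExtra_of hG
  · rw [hcenter, hd.hWcard]
  · intro x y
    rw [hcenter]
    exact mem_of_comm_mk (hcc _ _)
  · intro x
    rw [hcenter]
    obtain ⟨e, he, b, a, rfl⟩ := hfac x
    rw [pow_mem_iff (hcc _ _)]
    apply mul_mem (hd.hEp e he)
    rw [pow_mem_iff (hcc _ _)]
    apply mul_mem
    · rw [← pow_mul, mul_comm, pow_mul]
      exact pow_mem hrp b
    · rw [← zpow_natCast (z ^ a) p, ← zpow_mul, mul_comm, zpow_mul, zpow_natCast]
      exact zpow_mem hzpW a
  · intro h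
    exact hrzc (h r z)

theorem C2 [Finite G] {p : ℕ} [hp : Fact p.Prime] (hG : IsPGroup p G)
    (hsymp : ∀ A : Subgroup G, A.Characteristic → IsMulCommutative A → IsCyclic A) {z : G} {W E : Subgroup G}
    (hd : Dat p G z W E) {n : ℕ} (hn : orderOf z = p ^ (n + 3))
    {y : G} (hyE : ∀ e ∈ E, Commute y e) (hy : Commute y (z ^ p)) (hyz : y ∉ zpowers z) : False := by
  have hzN : (zpowers z).Normal := @normal_of_characteristic _ _ _ hd.hzch
  haveI hWn : W.Normal := @normal_of_characteristic _ _ _ hd.hWch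
  obtain ⟨r, hrE, hr, hrz, hrp⟩ := exists_r hd (n := n + 2) hn hyE hy hyz
  have hch1 : (zpowers (z ^ p)).Characteristic := by
    apply char_of
    intro φ x hx
    obtain ⟨k, rfl⟩ := mem_zpowers_iff.mp hx
    obtain ⟨j, hj⟩ := mem_zpowers_iff.mp (mem_of_char hd.hzch φ (mem_zpowers z))
    rw [map_zpow, map_pow, ← hj]
    apply zpow_mem
    refine mem_zpowers_iff.mpr ⟨j, ?_⟩
    rw [← zpow_natCast, ← zpow_natCast, ← zpow_mul, ← zpow_mul, mul_comm]
  obtain ⟨D, hD⟩ : ∃ D : Subgroup G, D = centralizer (zpowers (z ^ p) : Set G) := ⟨_, rfl⟩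
  have hDch : D.Characteristic := by
    rw [hD]
    haveI := hch1
    infer_instance
  have hDmem : ∀ x, x ∈ D ↔ Commute x (z ^ p) := by
    intro x
    rw [hD, mem_centralizer_iff]
    constructor
    · intro h
      exact (h _ (mem_zpowers _)).symm
    · intro h w hw
      obtain ⟨k, rfl⟩ := mem_zpowers_iff.mp hw
      exact (h.zpow_right k).symm
  have hfac : ∀ x ∈ D, ∃ e ∈ E, ∃ (b : ℕ) (a : ℤ), x = e * (r ^ b * z ^ a) := by
    intro x hx
    obtain ⟨e, he, s, hs, rfl⟩ := hd.hfac x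
    have h1 : Commute s (z ^ p) := by
      have h2 : Commute (e⁻¹ * (e * s)) (z ^ p) :=
        (((hd.hzE e he).pow_left p).symm.inv_left).mul_left ((hDmem _).mp hx)
      rwa [inv_mul_cancel_left] at h2
    obtain ⟨b, a, h⟩ := fac_S hd hrE hr hrz hs h1
    exact ⟨e, he, b, a, by rw [h]⟩
  have hce : ∀ (q : G ⧸ W), ∀ e ∈ E, Commute q (QuotientGroup.mk' W e) := by
    intro q e he
    obtain ⟨g, rfl⟩ := QuotientGroup.mk'_surjective W q
    exact comm_mk (hd.hEW g e he)
  have hczr : Commute (QuotientGroup.mk' W r) (QuotientGroup.mk' W z) := comm_mk (comm_z hzN hd.hWmem hr)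
  have hcr : ∀ x ∈ D, Commute (QuotientGroup.mk' W x) (QuotientGroup.mk' W r) := by
    intro x hx
    obtain ⟨e, he, b, a, rfl⟩ := hfac x hx
    rw [map_mul, map_mul, map_pow, map_zpow]
    exact (hce _ e he).symm.mul_left (((Commute.refl _).pow_left b).mul_left (hczr.symm.zpow_left a))
  have hcz : ∀ x ∈ D, Commute (QuotientGroup.mk' W x) (QuotientGroup.mk' W z) := by
    intro x hx
    obtain ⟨e, he, b, a, rfl⟩ := hfac x hx
    rw [map_mul, map_mul, map_pow, map_zpow]
    exact (hce _ e he).symm.mul_left ((hczr.pow_left b).mul_left ((Commute.refl _).zpow_left a))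
  have hcc : ∀ x ∈ D, ∀ y ∈ D, Commute (QuotientGroup.mk' W x) (QuotientGroup.mk' W y) := by
    intro x hx y hy
    obtain ⟨e, he, b, a, rfl⟩ := hfac y hy
    rw [map_mul, map_mul, map_pow, map_zpow]
    exact (hce _ e he).mul_right (((hcr x hx).pow_right b).mul_right ((hcz x hx).zpow_right a))
  obtain ⟨Y, hY⟩ := exists_Y hcc p
  have hYch := char_Y hDch hd.hWch hY
  have hTch : (Y ⊓ centralizer (Y : Set G)).Characteristic := by
    haveI := hYch
    exact char_inf hYch inferInstance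
  have hTmem : ∀ x, x ∈ Y ⊓ centralizer (Y : Set G) ↔ x ∈ Y ∧ ∀ y ∈ Y, Commute x y := by
    intro x
    rw [mem_inf, mem_centralizer_iff]
    exact ⟨fun h => ⟨h.1, fun c hc => (h.2 c hc).symm⟩, fun h => ⟨h.1, fun c hc => (h.2 c hc).symm⟩⟩
  have hTcyc := hsymp _ hTch ⟨⟨fun a b => Subtype.ext (((hTmem _).mp a.2).2 b ((hTmem _).mp b.2).1)⟩⟩
  obtain ⟨v, hv⟩ : ∃ v, v = z ^ p ^ (n + 1) := ⟨_, rfl⟩
  have hov : orderOf v = p ^ 2 := by
    rw [hv, orderOf_pow_of_dvd (pow_ne_zero _ hp.out.ne_zero) (by rw [hn]; exact pow_dvd_pow p (by omega)), hn,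
      show n + 3 = (n + 1) + 2 from rfl, pow_add p (n + 1) 2, Nat.mul_div_cancel_left _ (pow_pos hp.out.pos _)]
  have hvz : v ∈ zpowers z := by rw [hv]; exact npow_mem_zpowers z _
  have hvc : ∀ x, Commute x (z ^ p) → Commute x v := by
    intro x hx
    rw [hv, show p ^ (n + 1) = p * p ^ n by rw [pow_succ, mul_comm], pow_mul]
    exact hx.pow_right _
  have hzD : z ∈ D := (hDmem z).mpr ((Commute.refl z).pow_right p)
  have hvT : v ∈ Y ⊓ centralizer (Y : Set G) := by
    refine (hTmem _).mpr ⟨(hY _).mpr ⟨?_, (hd.hWmem _).mpr ⟨pow_mem hvz p, ?_⟩⟩, ?_⟩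
    · rw [hv]; exact pow_mem hzD _
    · rw [← pow_mul, ← pow_two, ← hov, pow_orderOf_eq_one]
    · intro x hx
      exact (hvc x ((hDmem x).mp ((hY x).mp hx).1)).symm
  have hrT : r ∈ Y ⊓ centralizer (Y : Set G) := by
    refine (hTmem _).mpr ⟨(hY _).mpr ⟨(hDmem r).mpr hr, hrp⟩, ?_⟩
    intro x hx
    obtain ⟨hxD, hxp⟩ := (hY x).mp hx
    obtain ⟨e, he, b, a, rfl⟩ := hfac x hxD
    have h1 : (z ^ a) ^ p ∈ W := by
      rw [pow_mem_iff (hce _ e he).symm] at hxp
      have h2 := (mul_mem_cancel_left (hd.hEp e he)).mp hxp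
      have hc : Commute (QuotientGroup.mk' W (r ^ b)) (QuotientGroup.mk' W (z ^ a)) := by
        rw [map_pow, map_zpow]
        exact (hczr.pow_left b).zpow_right a
      rw [pow_mem_iff hc] at h2
      have h3 : (r ^ b) ^ p ∈ W := by
        rw [← pow_mul, mul_comm, pow_mul]
        exact pow_mem hrp b
      exact (mul_mem_cancel_left h3).mp h2
    have h2 : z ^ a ∈ zpowers v := by
      apply cyc_mem (A := zpowers z) inferInstance (zpowers_le.mpr hvz) (zpow_mem (mem_zpowers z) a)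
      rw [Nat.card_zpowers, hov, pow_two, pow_mul]
      exact ((hd.hWmem _).mp h1).2
    obtain ⟨t, ht⟩ := mem_zpowers_iff.mp h2
    refine (hrE e he).mul_right (((Commute.refl r).pow_right b).mul_right ?_)
    rw [← ht]
    exact (hvc r hr).zpow_right t
  apply hrz
  have h3 : r ∈ zpowers v := by
    apply cyc_mem hTcyc (zpowers_le.mpr hvT) hrT
    rw [Nat.card_zpowers, hov, pow_two, pow_mul]
    exact ((hd.hWmem _).mp hrp).2
  exact zpowers_le.mpr hvz h3

theorem isExtra_congr {H : Type*} [Group H] [Finite G] [Finite H] {p : ℕ} [hp : Fact p.Prime]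
    (h : IsExtraspecial p G) (e : G ≃* H) : IsExtraspecial p H := by
  obtain ⟨⟨hG, h1, h2⟩, h3⟩ := h
  have hce : ∀ x, e x ∈ center H ↔ x ∈ center G := by
    intro x
    constructor
    · intro hx
      rw [mem_center_iff] at hx ⊢
      intro y
      apply e.injective
      rw [map_mul, map_mul]
      exact hx (e y)
    · intro hx
      rw [mem_center_iff] at hx ⊢
      intro y
      obtain ⟨y, rfl⟩ := e.surjective y
      rw [← map_mul, ← map_mul, hx y]
  apply isExtra_of (hG.of_surjective e.toMonoidHom e.surjective)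
  · rw [← h3]
    exact (Nat.card_congr (centerCongr e).toEquiv).symm
  · intro x y
    obtain ⟨x, rfl⟩ := e.surjective x
    obtain ⟨y, rfl⟩ := e.surjective y
    rw [← map_commutatorElement, hce, ← h2]
    exact commutator_mem_commutator (mem_top x) (mem_top y)
  · intro x
    obtain ⟨x, rfl⟩ := e.surjective x
    rw [← map_pow, hce, ← h1]
    exact H2.pow_mem_frattini hG x
  · intro h4
    have h5 : ∀ x y : G, x * y = y * x := by
      intro x y
      apply e.injective
      rw [map_mul, map_mul]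
      exact h4 _ _
    have h6 : commutator G = ⊥ := by
      rw [commutator_def, commutator_eq_bot_iff_le_centralizer]
      intro x _
      rw [mem_centralizer_iff]
      intro y _
      exact h5 y x
    rw [← h2, h6] at h3
    simp at h3
    exact hp.out.one_lt.ne h3

end Cfsg.Agent.H23.ST
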